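import Cfsg.Agent.H52.SoDefs

/-!
# EXIST: existence of a `J(T)`-component in a member `L` of the family of `T`
(the missing item of S2948 / S2949): statements of the pieces

Notation inside `X = ↥L`: `T` Sylow, `Q = O₂(X)`, `V = Ω₁(Z(Q))`, `C = C_X(V)`, `J = J(T)`.
(1) STRUCT (Glauberman S0617 in the holomorph of `V`): for `A ∈ 𝒜(X)` not centralizing `V`
there are `a ∈ A` and `k ∈ J(X)` of order 3 modulo `C`, inverted by `a` modulo `C`, with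
`[V, k]` inside a subgroup `W` of order 4, and `⟨k⟩C` normalized by `J(X)`.
(2) COMPA / COMPB: `x := (odd part of [k, a])` has `x³ ∈ Q`, is inverted by `a`, and
`K := ⟨odd elements of ⟨x⟩Q⟩` satisfies `K = [K, J]`, `|K : K ∩ Q| = 3`, `Q ≤ N(K)`.
(3) VK: `|[V, K]| = 4`.  (4) W: `[Ω₁(Z(K ∩ Q)), K]` has order 4 (offender counting).
(5) LIFT / SYLJ / IFA / IFV2: transport between `↥L` and `G`.
-/

set_option autoImplicit false
open Cfsg

namespace Cfsg.Agent.H19.Sx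

universe u

/-- STRUCT: consequence of Glauberman's structure theorem S0617 in the holomorph of `V`. -/
def StStruct : Prop := ∀ {X : Type u} [Group X] [Finite X] (V : Subgroup X) [V.Normal],
  IsElementaryAbelian 2 V → IsPSolvable 2 X →
  pCore 2 (X ⧸ Subgroup.centralizer (V : Set X)) = ⊥ →
  ∀ A : Subgroup X, A ∈ maxElementaryAbelianSubgroups 2 X →
  ¬ A ≤ Subgroup.centralizer (V : Set X) →
  ∃ a ∈ A, ∃ k ∈ thompsonSubgroup 2 X,
    k ∉ Subgroup.centralizer (V : Set X) ∧ k ^ 3 ∈ Subgroup.centralizer (V : Set X) ∧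
    a * k * a⁻¹ * k ∈ Subgroup.centralizer (V : Set X) ∧
    (∀ g ∈ thompsonSubgroup 2 X, g * k * g⁻¹ * k⁻¹ ∈ Subgroup.centralizer (V : Set X) ∨
      g * k * g⁻¹ * k ∈ Subgroup.centralizer (V : Set X)) ∧
    ∃ W : Subgroup X, Nat.card ↥W = 4 ∧ ∀ v ∈ V, k * v * k⁻¹ * v⁻¹ ∈ W

/-- COMPA: from `k` (order 3 mod `C`, inverted by the involution `a ∈ J` mod `C`) to an element
`x` of odd order with `x³ ∈ Q`, inverted by `a`, with `⟨x⟩Q` normalized by `J`. -/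
def StCompA : Prop := ∀ {X : Type u} [Group X] [Finite X] (T C Q J : Subgroup X) (a k : X),
  IsPGroup 2 ↥T → Odd T.index → C.Normal → Q.Normal → Q ≤ C → T ⊓ C ≤ Q →
  C ≤ Subgroup.normalizer (T : Set X) → J ≤ T → a ∈ J → a * a = 1 →
  k ∉ C → k ^ 3 ∈ C → a * k * a⁻¹ * k ∈ C →
  (∀ g ∈ J, g * k * g⁻¹ * k⁻¹ ∈ C ∨ g * k * g⁻¹ * k ∈ C) →
  ∃ x : X, Odd (orderOf x) ∧ x ∉ C ∧ x ^ 3 ∈ Q ∧ a * x * a⁻¹ = x⁻¹ ∧
    x ∈ Subgroup.zpowers k ⊔ C ∧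
    ∀ g ∈ J, g * x * g⁻¹ ∈ Subgroup.zpowers x ⊔ Q

/-- COMPB: the subgroup `K` generated by the odd-order elements of `⟨x⟩Q`. -/
def StCompB : Prop := ∀ {X : Type u} [Group X] [Finite X] (Q J : Subgroup X) (a x : X),
  Q.Normal → IsPGroup 2 ↥Q → a ∈ J → Odd (orderOf x) → x ∉ Q → x ^ 3 ∈ Q →
  a * x * a⁻¹ = x⁻¹ →
  (∀ g ∈ J, g * x * g⁻¹ ∈ Subgroup.zpowers x ⊔ Q) →
  ∃ K : Subgroup X, Subgroup.closure {g : X | g ∈ K ∧ Odd (orderOf g)} = K ∧ ⁅K, J⁆ = K ∧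
    (K ⊓ Q).relIndex K = 3 ∧ Q ≤ Subgroup.normalizer (K : Set X) ∧ x ∈ K ∧
    K ≤ Subgroup.zpowers x ⊔ Q

/-- VK: `[V, K]` has order 4. -/
def StVK : Prop := ∀ {X : Type u} [Group X] [Finite X] (V K W : Subgroup X) (k x : X)
    [V.Normal],
  IsElementaryAbelian 2 V → Nat.card ↥W = 4 → (∀ v ∈ V, k * v * k⁻¹ * v⁻¹ ∈ W) →
  K ≤ Subgroup.zpowers k ⊔ Subgroup.centralizer (V : Set X) →
  x ∈ K → Odd (orderOf x) → x ∉ Subgroup.centralizer (V : Set X) →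
  Nat.card ↥⁅V, K⁆ = 4

/-- W: the offender counting: `[Ω₁(Z(K ∩ Q)), K]` has order 4. -/
def StW : Prop := ∀ {X : Type u} [Group X] [Finite X] (V T Q J K A : Subgroup X) (a x : X)
    [V.Normal] [Q.Normal],
  IsElementaryAbelian 2 V → V ≤ Q → Q ≤ Subgroup.centralizer (V : Set X) →
  (∀ z ∈ Q, (∀ q ∈ Q, q * z = z * q) → z * z = 1 → z ∈ V) →
  IsPGroup 2 ↥T → Q ≤ T → J ≤ T → A ≤ J → IsElementaryAbelian 2 A →
  (∀ B : Subgroup X, IsElementaryAbelian 2 B → Nat.card ↥B ≤ Nat.card ↥A) →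
  ⁅K, J⁆ = K → (K ⊓ Q).relIndex K = 3 → Q ≤ Subgroup.normalizer (K : Set X) →
  Nat.card ↥⁅V, K⁆ = 4 →
  a ∈ A → x ∈ K → x ∉ Q → a * x * a⁻¹ = x⁻¹ →
  Nat.card ↥⁅omegaCenterOf (K ⊓ Q), K⁆ = 4

/-- IFA: a largest elementary abelian subgroup of `T`, not inside `O₂(L)`, seen in `↥L`. -/
def StIfA : Prop := ∀ {G : Type u} [Group G] [Finite G] (T L : Subgroup G),
  L ∈ jOvergroups T →
  ∃ A : Subgroup ↥L, A ∈ maxElementaryAbelianSubgroups 2 ↥L ∧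
    A ≤ (thompsonSubgroupOf 2 T).subgroupOf L ∧ ¬ A ≤ pCore 2 ↥L

/-- IFV2: `V = Ω₁(Z(O₂(L)))` inside `↥L`: it lies in `O₂(L)` and contains the central
involutions of `O₂(L)`. -/
def StIfV2 : Prop := ∀ {G : Type u} [Group G] [Finite G] (L : Subgroup G),
  (omegaCenterOf (pCoreOf 2 L)).subgroupOf L ≤ pCore 2 ↥L ∧
  ∀ z ∈ pCore 2 ↥L, (∀ q ∈ pCore 2 ↥L, q * z = z * q) → z * z = 1 →
    z ∈ (omegaCenterOf (pCoreOf 2 L)).subgroupOf L

/-- SYLJ: a 2-subgroup `S` of `L` containing `J(T)` (`T` Sylow in `L`) has `J(S) = J(T)`. -/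
def StSylJ : Prop := ∀ {G : Type u} [Group G] [Finite G] (T L S : Subgroup G),
  IsSylowTwoIn T L → S ≤ L → IsPGroup 2 ↥S → thompsonSubgroupOf 2 T ≤ S →
  thompsonSubgroupOf 2 S = thompsonSubgroupOf 2 T

/-- LIFT: from the properties of `K` inside `↥L` to `IsJComponent T K` in `G`. -/
def StLift : Prop := ∀ {G : Type u} [Group G] [Finite G] (T L : Subgroup G) (K : Subgroup ↥L),
  IsSylowTwoIn T L →
  (∀ S : Subgroup G, S ≤ L → IsPGroup 2 ↥S → thompsonSubgroupOf 2 T ≤ S →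
      thompsonSubgroupOf 2 S = thompsonSubgroupOf 2 T) →
  Subgroup.closure {g : ↥L | g ∈ K ∧ Odd (orderOf g)} = K →
  ⁅K, (thompsonSubgroupOf 2 T).subgroupOf L⁆ = K →
  (K ⊓ pCore 2 ↥L).relIndex K = 3 →
  Nat.card ↥⁅omegaCenterOf (K ⊓ pCore 2 ↥L), K⁆ = 4 →
  IsJComponent T (K.map L.subtype)

/-- EXIST: every member `L` of the family of `T` contains a `J(T)`-component. -/
def StExist : Prop := ∀ {G : Type u} [Group G] [Finite G],
  IsCharacteristicTwoType G →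
  (∀ N : Subgroup G, IsTwoLocal N → Group.IsSolvable ↥N) →
  (∀ S : Sylow 2 G, Subgroup.centralizer (omegaCenterOf (S : Subgroup G) : Set G) ≤
      Subgroup.normalizer ((S : Subgroup G) : Set G)) →
  ∀ (T : Subgroup G), IsPGroup 2 ↥T → T ≠ ⊥ → ∀ (L : Subgroup G), L ∈ jOvergroups T →
  ∃ K : Subgroup G, IsJComponent T K ∧ K ≤ L

end Cfsg.Agent.H19.Sx
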