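import Cfsg.Agent.H64.JzDefs
import Cfsg.Agent.Helper55.UqBase
import Cfsg.Agent.S2950

/-!
# S2953 (team project JY of helper64): the piece JY-PAIR (Y2)

Two configurations `Base S M T K₁ L₁`, `Base S₂ M₂ T K₂ L₂` over the same `T` with different
maximal 2-locals `L₁ ≠ L₂` have `K₁ ≠ K₂` and `O₂(⟨K₁ T, K₂ T⟩) = 1`: otherwise the normalizer of
that `O₂` is a 2-local containing both `K_i ⊔ J(T)`, so it lies in a maximal 2-local, which is
`L₁` and `L₂` by the uniqueness of S2950.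
-/

set_option autoImplicit false
open Cfsg

namespace Cfsg.Agent.H19.Jy

open Cfsg.Agent.H64.Jz

universe u

/-- S2950 uniqueness in `Base` form: `L` is the only maximal 2-local over `K ⊔ J(T)`. -/
theorem base_unique {G : Type u} [Group G] [Finite G] (S : Sylow 2 G) (M T K L : Subgroup G)
    (h : Base S M T K L) (L' : Subgroup G) (hL' : IsMaximalTwoLocal L')
    (hle : K ⊔ thompsonSubgroupOf 2 T ≤ L') : L' = L := by
  obtain ⟨⟨hL, hN, hZ⟩, hO, hM, hMJ, hT, _, hK, hLmax, hKL⟩ := h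
  obtain ⟨L₀, _, _, huniq, _, _⟩ := Cfsg.Agent.S2950.result hL hN hZ hO S M hM hMJ T hT K hK
  rw [huniq L' hL' hle, huniq L hLmax hKL]

/-- JY-PAIR (Y2). -/
theorem pair {G : Type u} [Group G] [Finite G] (S S₂ : Sylow 2 G)
    (M M₂ T K₁ L₁ K₂ L₂ : Subgroup G) (h1 : Base S M T K₁ L₁) (h2 : Base S₂ M₂ T K₂ L₂)
    (hne : L₁ ≠ L₂) :
    K₁ ≠ K₂ ∧ pCoreOf 2 ((K₁ ⊔ T) ⊔ (K₂ ⊔ T)) = ⊥ := by
  have hJT : thompsonSubgroupOf 2 T ≤ T := Cfsg.Agent.Helper55.ThJ.J_le T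
  refine ⟨?_, ?_⟩
  · intro hK
    subst hK
    exact hne ((base_unique S₂ M₂ T K₁ L₂ h2 L₁ h1.2.2.2.2.2.2.2.1 h1.2.2.2.2.2.2.2.2))
  · by_contra hne0
    have hloc : IsTwoLocal (Subgroup.normalizer
        ((pCoreOf 2 ((K₁ ⊔ T) ⊔ (K₂ ⊔ T)) : Subgroup G) : Set G)) :=
      ⟨_, Cfsg.Agent.Helper55.Uq.pCoreOf_isPGroup _, hne0, rfl⟩
    obtain ⟨L', hL'max, hL'⟩ := Cfsg.Agent.Helper55.Uq.exists_maximalTwoLocal hloc
    have hP : (K₁ ⊔ T) ⊔ (K₂ ⊔ T) ≤ L' :=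
      (Cfsg.Agent.Helper55.Uq.le_normalizer_pCoreOf' _).trans hL'
    have e1 : L' = L₁ := base_unique S M T K₁ L₁ h1 L' hL'max
      ((sup_le_sup_left hJT K₁).trans (le_sup_left.trans hP))
    have e2 : L' = L₂ := base_unique S₂ M₂ T K₂ L₂ h2 L' hL'max
      ((sup_le_sup_left hJT K₂).trans (le_sup_right.trans hP))
    exact hne (e1.symm.trans e2)

end Cfsg.Agent.H19.Jy

#print axioms Cfsg.Agent.H19.Jy.pair
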