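import Cfsg.Agent.H64.JyDefs
import Cfsg.Agent.H19.JyPair

/-!
# S2953 (team project JY of helper64): the pieces JY-GOODA (Y1a) and JY-PAIR (Y2, exact Prop)

`goodA`: for a configuration `Base S M T K L` and `P = K ⊔ T`: `C_G(O₂(P)) ≤ O₂(P)`, `T` is a
Sylow 2-subgroup of `P`, and the maximal 2-local of S2950 is the unique maximal 2-local over `P`,
with `T` Sylow in it.
-/

set_option autoImplicit false
open Cfsg

namespace Cfsg.Agent.H19.Jy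

open Cfsg.Agent.H64.Jz Cfsg.Agent.Helper55 Cfsg.Agent.Helper55.J48

universe u

/-- A 2-subgroup of `P` normalized by `P` lies in `O₂(P)`. -/
theorem le_pCoreOf_of_normal {G : Type u} [Group G] {Q P : Subgroup G} (hQP : Q ≤ P)
    (hQ2 : IsPGroup 2 ↥Q) (hn : P ≤ Subgroup.normalizer (Q : Set G)) : Q ≤ pCoreOf 2 P := by
  have hnorm : (Q.subgroupOf P).Normal :=
    (Subgroup.normal_subgroupOf_iff_le_normalizer hQP).mpr hn
  have h1 : Q.subgroupOf P ≤ pCore 2 ↥P := le_pCore hnorm hQ2.comap_subtype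
  have h2 := Subgroup.map_mono (f := P.subtype) h1
  rw [Subgroup.map_subgroupOf_eq_of_le hQP] at h2
  exact h2

/-- JY-GOODA (Y1a). -/
theorem goodA : Cfsg.Agent.H64.Jy.StGoodA.{u} := by
  intro G _ _ S M T K L h
  obtain ⟨⟨hL, hN, hZ⟩, hO, hM, hMJ, hT, _, hK, hLmax, hKL⟩ := h
  obtain ⟨L₀, hL₀max, hKJ, huniq, _, hTL₀⟩ :=
    Cfsg.Agent.S2950.result hL hN hZ hO S M hM hMJ T hT K hK
  have hJT : thompsonSubgroupOf 2 T ≤ T := Cfsg.Agent.Helper55.ThJ.J_le T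
  have hKL₀ : K ≤ L₀ := le_sup_left.trans hKJ
  have hP : K ⊔ T ≤ L₀ := sup_le hKL₀ hTL₀.1
  have hTP : T ≤ K ⊔ T := le_sup_right
  have hsyl : IsSylowTwoIn T (K ⊔ T) := by
    refine ⟨hTP, hTL₀.2.1, ?_⟩
    have hmul := Subgroup.relIndex_mul_relIndex T (K ⊔ T) L₀ hTP hP
    have hodd := hTL₀.2.2
    rw [← hmul] at hodd
    exact (Nat.odd_mul.mp hodd).1
  refine ⟨?_, hsyl, L₀, hL₀max, hP, hTL₀, ?_⟩
  · have hQT : pCoreOf 2 L₀ ≤ T := pCoreOf_le_of_sylowIn hTL₀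
    have hQP : pCoreOf 2 L₀ ≤ pCoreOf 2 (K ⊔ T) :=
      le_pCoreOf_of_normal (hQT.trans hTP) (Cfsg.Agent.Helper55.Uq.pCoreOf_isPGroup L₀)
        (hP.trans (le_normalizer_pCoreOf L₀))
    exact (Subgroup.centralizer_le (SetLike.coe_subset_coe.mpr hQP)).trans
      ((centralizer_pCoreOf_le hL hL₀max.1).trans hQP)
  · intro L' hL' hle
    exact huniq L' hL' ((sup_le_sup_left hJT K).trans hle)

/-- JY-PAIR (Y2), exact Prop. -/
theorem pairSt : Cfsg.Agent.H64.Jy.StPair.{u} := by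
  intro G _ _ S S₂ M M₂ T K₁ L₁ K₂ L₂ h1 h2 hne
  exact pair S S₂ M M₂ T K₁ L₁ K₂ L₂ h1 h2 hne

example : Cfsg.Agent.H64.Jy.StGoodA.{u} := goodA
example : Cfsg.Agent.H64.Jy.StPair.{u} := pairSt

end Cfsg.Agent.H19.Jy

#print axioms Cfsg.Agent.H19.Jy.goodA
#print axioms Cfsg.Agent.H19.Jy.pairSt
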