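import Mathlib
import Cfsg.Agent.H38.BG161Defs
import Cfsg.Agent.H31.PLen

/-!
# S1421 team project (helper38), piece NABSTRUCT

`E = L · P · V` with `L = O_{p'}`-type normal `p'`-subgroup of `E`, `P ≥ A` an abelian Sylow
`p`-subgroup of `E` and `V ≤ N_E(P)` a `p'`-group (`p`-length one, Frattini, Schur–Zassenhaus).
-/

set_option autoImplicit false

namespace Cfsg.Agent.H19.BG161

open Cfsg Subgroup Cfsg.Agent.H58.BG10 Cfsg.Agent.H58.BG12 Cfsg.Agent.H38.BG161

universe u

variable {G : Type u} [Group G] [Finite G]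

/-- S1421-NABSTRUCT. -/
theorem nabStruct (_hG : IsMinSimpleOddOrder G) (h10 : St1410 G) (h17 : St1417 G) :
    StNabStruct G := by
  intro M E A p _ hN
  have hM := hN.coatom
  obtain ⟨hEM, -, -, -⟩ := hN.compl
  have hEtop : E ≠ ⊤ := by
    intro h
    exact hM.1 (top_le_iff.mp (h ▸ hEM))
  have hpl : PLengthLE p 1 E := h10 p E hEtop
  have hAp : IsPGroup p (A.subgroupOf E) := by
    apply IsPGroup.of_card (n := 2)
    rw [← hN.card]
    exact Nat.card_congr (Subgroup.subgroupOfEquivOfLe hN.le).toEquiv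
  obtain ⟨S, hAS⟩ := hAp.exists_le_sylow
  obtain ⟨K, hKn, hKc, hsup⟩ := Cfsg.Agent.H31.exists_normal_pprime_of_plength_one p hpl S
  haveI := hKn
  -- Schur–Zassenhaus in the normalizer of `S`
  have hSN : (S : Subgroup E) ≤ normalizer ((S : Subgroup E) : Set E) := Subgroup.le_normalizer
  haveI hnor : ((S : Subgroup E).subgroupOf (normalizer ((S : Subgroup E) : Set E))).Normal :=
    Subgroup.normal_in_normalizer
  have hnd : ¬ p ∣ ((S : Subgroup E).subgroupOf (normalizer ((S : Subgroup E) : Set E))).index := by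
    intro hdvd
    have h2 : ((S : Subgroup E).subgroupOf (normalizer ((S : Subgroup E) : Set E))).index =
        (S : Subgroup E).relIndex (normalizer ((S : Subgroup E) : Set E)) := rfl
    rw [h2] at hdvd
    exact S.not_dvd_index (hdvd.trans (Subgroup.relIndex_dvd_index_of_le hSN))
  have hcop : Nat.Coprime
      (Nat.card ((S : Subgroup E).subgroupOf (normalizer ((S : Subgroup E) : Set E))))
      ((S : Subgroup E).subgroupOf (normalizer ((S : Subgroup E) : Set E))).index := by
    have h1 : IsPGroup p ((S : Subgroup E).subgroupOf (normalizer ((S : Subgroup E) : Set E))) :=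
      S.2.comap_subtype
    obtain ⟨k, hk⟩ := IsPGroup.iff_card.mp h1
    rw [hk]
    apply Nat.Coprime.pow_left
    exact (Nat.Prime.coprime_iff_not_dvd Fact.out).mpr hnd
  obtain ⟨V₀, hV₀⟩ := Subgroup.exists_right_complement'_of_coprime hcop
  have hV₀card : ¬ p ∣ Nat.card V₀ := by
    rw [← hV₀.symm.index_eq_card]
    exact hnd
  refine ⟨K.map E.subtype, (S : Subgroup E).map E.subtype,
    (V₀.map (normalizer ((S : Subgroup E) : Set E)).subtype).map E.subtype,
    Subgroup.map_subtype_le K, ?_, ?_, ?_, Subgroup.map_subtype_le _, ?_, ?_,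
    Subgroup.map_subtype_le _, ?_, ?_, ?_⟩
  · -- E normalizes L
    intro e he
    have h3 := Subgroup.le_normalizer_map E.subtype (H := K)
      ⟨⟨e, he⟩, by rw [Subgroup.normalizer_eq_top]; exact Subgroup.mem_top _, rfl⟩
    exact h3
  · -- p ∤ |L|
    rw [Subgroup.card_subtype]
    exact (Nat.Prime.coprime_iff_not_dvd Fact.out).mp hKc.symm
  · -- A ≤ P
    intro a ha
    exact ⟨⟨a, hN.le ha⟩, hAS (Subgroup.mem_subgroupOf.mpr ha), rfl⟩
  · -- P is a p-group
    exact S.2.map E.subtype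
  · -- P abelian
    obtain ⟨-, hSyl, -⟩ := h17 M hM p hN.tau A ⟨hN.le.trans hEM, hN.elem, hN.card⟩
    have hPp : IsPGroup p (((S : Subgroup E).map E.subtype).subgroupOf M) :=
      (S.2.map E.subtype).comap_subtype
    obtain ⟨Q, hQ⟩ := hPp.exists_le_sylow
    have hQc := (hSyl Q).1
    intro a ha b hb
    have haM : a ∈ M := hEM (Subgroup.map_subtype_le _ ha)
    have hbM : b ∈ M := hEM (Subgroup.map_subtype_le _ hb)
    have haQ : (⟨a, haM⟩ : M) ∈ (Q : Subgroup M) := hQ (Subgroup.mem_subgroupOf.mpr ha)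
    have hbQ : (⟨b, hbM⟩ : M) ∈ (Q : Subgroup M) := hQ (Subgroup.mem_subgroupOf.mpr hb)
    have hcomm := hQc.is_comm.comm (⟨⟨a, haM⟩, haQ⟩ : (Q : Subgroup M)) ⟨⟨b, hbM⟩, hbQ⟩
    have h4 := congrArg (fun x : (Q : Subgroup M) => ((x : M) : G)) hcomm
    exact h4
  · -- V normalizes P
    intro v hv
    obtain ⟨n, hn, rfl⟩ := hv
    obtain ⟨n', -, rfl⟩ := hn
    exact Subgroup.le_normalizer_map E.subtype (H := (S : Subgroup E)) ⟨n'.1, n'.2, rfl⟩
  · -- p ∤ |V|
    rw [Subgroup.card_subtype, Subgroup.card_subtype]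
    exact hV₀card
  · -- factorisation
    intro e he
    have hmem : (⟨e, he⟩ : E) ∈
        ((K ⊔ normalizer ((S : Subgroup E) : Set E) : Subgroup E) : Set E) := by
      rw [sup_comm, hsup]
      exact Subgroup.mem_top _
    rw [Subgroup.normal_mul] at hmem
    obtain ⟨k, hk, n, hn, hkn⟩ := Set.mem_mul.mp hmem
    obtain ⟨⟨s, v⟩, hsv⟩ := hV₀.2 (⟨n, hn⟩ : normalizer ((S : Subgroup E) : Set E))
    have hsv' : ((s : normalizer ((S : Subgroup E) : Set E)) : E) *
        ((v : normalizer ((S : Subgroup E) : Set E)) : E) = n := by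
      have := congrArg (fun x : normalizer ((S : Subgroup E) : Set E) => (x : E)) hsv
      exact this
    refine ⟨(k : G), ⟨k, hk, rfl⟩, ((s : normalizer ((S : Subgroup E) : Set E)) : E),
      ⟨_, Subgroup.mem_subgroupOf.mp s.2, rfl⟩,
      ((v : normalizer ((S : Subgroup E) : Set E)) : E), ⟨_, ⟨_, v.2, rfl⟩, rfl⟩, ?_⟩
    have h5 : (⟨e, he⟩ : E) = k * (((s : normalizer ((S : Subgroup E) : Set E)) : E) *
        ((v : normalizer ((S : Subgroup E) : Set E)) : E)) := by
      rw [hsv']
      exact hkn.symm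
    have h6 := congrArg (fun x : E => (x : G)) h5
    simp only [Subgroup.coe_mul] at h6
    rw [h6, mul_assoc]

example (hG : IsMinSimpleOddOrder G) (h10 : St1410 G) (h17 : St1417 G) : StNabStruct G :=
  nabStruct hG h10 h17

end Cfsg.Agent.H19.BG161
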