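import Mathlib
import Cfsg.Prelude.Def_Characters
import Cfsg.Agent.H4.CharBasic

/-!
# BRM-FROB (helper19, for helper21's S0996 + S4700 project)

The Frobenius bound `‖ψ(s)‖ ≤ ⟨ψ|_P, 1_P⟩` for an element `s` normalizing a subgroup `P` of prime
order and acting fixed-point-freely on it.
-/

set_option autoImplicit false
set_option linter.unusedVariables false
set_option linter.style.haveILetI false

namespace Cfsg.Agent.H19.BRM

open Cfsg

theorem trace_idem_nat' {V : Type*} [AddCommGroup V] [Module ℂ V] [FiniteDimensional ℂ V]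
    (Q : Module.End ℂ V) (hQ : IsIdempotentElem Q) :
    ∃ a : ℕ, LinearMap.trace ℂ V Q = (a : ℂ) := by
  obtain ⟨W, hW⟩ := (LinearMap.isProj_iff_isIdempotentElem Q).mpr hQ
  exact ⟨Module.finrank ℂ W, hW.trace⟩

/-- If `U` is semisimple with all eigenvalues of norm one and `E` is an idempotent commuting
with `U`, then `‖tr (U E)‖ ≤ tr E`, the latter being a natural number. -/
theorem norm_trace_mul_idem_le {V : Type*} [AddCommGroup V] [Module ℂ V] [FiniteDimensional ℂ V]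
    (U E : Module.End ℂ V) (hss : U.IsSemisimple)
    (hnorm : ∀ μ : ℂ, Module.End.eigenspace U μ ≠ ⊥ → ‖μ‖ = 1)
    (hE : IsIdempotentElem E) (hUE : U * E = E * U) :
    ∃ w : ℕ, LinearMap.trace ℂ V E = (w : ℂ) ∧ ‖LinearMap.trace ℂ V (U * E)‖ ≤ (w : ℝ) := by
  classical
  have hds := DirectSum.isInternal_submodule_of_iSupIndep_of_iSup_eq_top
    U.eigenspaces_iSupIndep hss.iSup_eigenspace_eq_top
  have hfin : {μ : ℂ | Module.End.eigenspace U μ ≠ ⊥}.Finite :=
    WellFoundedGT.finite_ne_bot_of_iSupIndep U.eigenspaces_iSupIndep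
  have hcomm : ∀ v : V, U (E v) = E (U v) := by
    intro v
    have := congrArg (fun T : Module.End ℂ V => T v) hUE
    simpa using this
  have hmapsE : ∀ μ : ℂ, Set.MapsTo E (Module.End.eigenspace U μ) (Module.End.eigenspace U μ) := by
    intro μ v hv
    rw [SetLike.mem_coe, Module.End.mem_eigenspace_iff] at hv ⊢
    rw [hcomm, hv, map_smul]
  have hmapsUE : ∀ μ : ℂ,
      Set.MapsTo (U * E) (Module.End.eigenspace U μ) (Module.End.eigenspace U μ) := by
    intro μ v hv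
    have h1 := hmapsE μ hv
    have h2 := h1
    rw [SetLike.mem_coe, Module.End.mem_eigenspace_iff] at h1
    rw [SetLike.mem_coe, Module.End.mul_apply, h1]
    exact Submodule.smul_mem _ _ h2
  have hidem : ∀ μ : ℂ, IsIdempotentElem (E.restrict (hmapsE μ)) := by
    intro μ
    unfold IsIdempotentElem
    ext v
    have h0 : E (E (v : V)) = E (v : V) := by
      have := congrArg (fun T : Module.End ℂ V => T (v : V)) hE.eq
      simpa using this
    exact h0
  choose a ha using fun μ => trace_idem_nat' (E.restrict (hmapsE μ)) (hidem μ)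
  refine ⟨∑ μ ∈ hfin.toFinset, a μ, ?_, ?_⟩
  · rw [LinearMap.trace_eq_sum_trace_restrict' hds hfin hmapsE]
    push_cast
    exact Finset.sum_congr rfl (fun μ _ => ha μ)
  · rw [LinearMap.trace_eq_sum_trace_restrict' hds hfin hmapsUE]
    have hres : ∀ μ, (U * E).restrict (hmapsUE μ) = μ • E.restrict (hmapsE μ) := by
      intro μ
      ext v
      have h1 := hmapsE μ v.2
      rw [SetLike.mem_coe, Module.End.mem_eigenspace_iff] at h1
      exact h1
    simp_rw [hres, map_smul, ha, smul_eq_mul]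
    push_cast
    refine le_trans (norm_sum_le _ _) (le_of_eq ?_)
    apply Finset.sum_congr rfl
    intro μ hμ
    rw [norm_mul, hnorm μ (hfin.mem_toFinset.mp hμ), one_mul, Complex.norm_natCast]

/-- BRM-FROB. -/
theorem frob_bound {G : Type*} [Group G] [Finite G] (p : ℕ) [Fact p.Prime]
    (P : Subgroup G) (hP : Nat.card P = p) (s : G)
    (hnorm : ∀ x ∈ P, s * x * s⁻¹ ∈ P) (hfpf : ∀ x ∈ P, x ≠ 1 → s * x * s⁻¹ ≠ x)
    (ψ : G → ℂ) (hψ : IsCharacter G ψ) :
    ∃ w : ℕ, ∑ᶠ x : ↥P, ψ (x : G) = (p : ℂ) * (w : ℂ) ∧ ‖ψ s‖ ≤ (w : ℝ) := by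
  classical
  obtain ⟨n, ρ, rfl⟩ := hψ
  have hp : p.Prime := Fact.out
  letI : Fintype P := Fintype.ofFinite P
  have hcardP : Fintype.card P = p := by
    rw [← Nat.card_eq_fintype_card]
    exact hP
  have hpC : (p : ℂ) ≠ 0 := Nat.cast_ne_zero.mpr hp.ne_zero
  obtain ⟨U, hU⟩ : ∃ U : Module.End ℂ (Fin n → ℂ), U = ρ s := ⟨_, rfl⟩
  obtain ⟨S, hS⟩ : ∃ S : Module.End ℂ (Fin n → ℂ), S = ∑ x : P, ρ (x : G) := ⟨_, rfl⟩
  have hyS : ∀ y : P, ρ (y : G) * S = S := by
    intro y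
    rw [hS, Finset.mul_sum]
    have h1 : ∀ x : P, ρ (y : G) * ρ (x : G) = ρ ((y * x : P) : G) := fun x => by
      rw [Subgroup.coe_mul, map_mul]
    simp_rw [h1]
    exact Fintype.sum_equiv (Equiv.mulLeft y) _ _ (fun x => rfl)
  have hSS : S * S = (p : ℂ) • S := by
    have h1 : S * S = ∑ y : P, ρ (y : G) * S := by
      rw [← Finset.sum_mul, ← hS]
    rw [h1]
    simp_rw [hyS]
    rw [Finset.sum_const, Finset.card_univ, hcardP, Nat.cast_smul_eq_nsmul]
  -- conjugation by `s` on `P`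
  obtain ⟨c, hc⟩ : ∃ c : P → P, ∀ x : P, ((c x : P) : G) = s * (x : G) * s⁻¹ :=
    ⟨fun x => ⟨s * (x : G) * s⁻¹, hnorm x x.2⟩, fun x => rfl⟩
  have hc_inj : Function.Injective c := by
    intro x y hxy
    have h1 := congrArg (fun z : P => (z : G)) hxy
    simp only [hc] at h1
    exact Subtype.ext (mul_left_cancel (mul_right_cancel h1))
  have hc_bij : Function.Bijective c := Finite.injective_iff_bijective.mp hc_inj
  have hUS : U * S = S * U := by
    rw [hS, Finset.mul_sum, Finset.sum_mul]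
    have h1 : ∀ x : P, U * ρ (x : G) = ρ ((c x : P) : G) * U := by
      intro x
      rw [hU, ← map_mul, ← map_mul, hc]
      congr 1
      group
    simp_rw [h1]
    exact Fintype.sum_equiv (Equiv.ofBijective c hc_bij) _ _ (fun x => rfl)
  obtain ⟨E, hE⟩ : ∃ E : Module.End ℂ (Fin n → ℂ), E = (p : ℂ)⁻¹ • S := ⟨_, rfl⟩
  have hEE : E * E = E := by
    rw [hE, smul_mul_smul_comm, hSS, smul_smul]
    congr 1
    field_simp
  have hUE : U * E = E * U := by
    rw [hE, mul_smul_comm, smul_mul_assoc, hUS]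
  have hS_E : S = (p : ℂ) • E := by rw [hE, smul_smul, mul_inv_cancel₀ hpC, one_smul]
  -- every `s x`, `x ∈ P`, is conjugate to `s`
  have hconj : ∀ x : P, ∃ y : P, s * (x : G) = (y : G) * s * (y : G)⁻¹ := by
    have hmem : ∀ y : P, s⁻¹ * (y : G) * s * (y : G)⁻¹ ∈ P := by
      intro y
      obtain ⟨z, hz⟩ := hc_bij.2 y
      have h1 : (y : G) = s * (z : G) * s⁻¹ := by rw [← hc, hz]
      have h2 : s⁻¹ * (y : G) * s = (z : G) := by rw [h1]; group
      rw [h2]
      exact P.mul_mem z.2 (P.inv_mem y.2)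
    obtain ⟨φ, hφ⟩ : ∃ φ : P → P, ∀ y : P, ((φ y : P) : G) = s⁻¹ * (y : G) * s * (y : G)⁻¹ :=
      ⟨fun y => ⟨_, hmem y⟩, fun y => rfl⟩
    have hφ_inj : Function.Injective φ := by
      intro y z hyz
      have h1 := congrArg (fun z : P => (z : G)) hyz
      simp only [hφ] at h1
      have h3 : (y : G) * s * (y : G)⁻¹ = (z : G) * s * (z : G)⁻¹ := by
        calc (y : G) * s * (y : G)⁻¹ = s * (s⁻¹ * (y : G) * s * (y : G)⁻¹) := by group
          _ = s * (s⁻¹ * (z : G) * s * (z : G)⁻¹) := by rw [h1]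
          _ = (z : G) * s * (z : G)⁻¹ := by group
      have h6 : (z : G)⁻¹ * (y : G) * s = s * ((z : G)⁻¹ * (y : G)) := by
        calc (z : G)⁻¹ * (y : G) * s = (z : G)⁻¹ * ((y : G) * s * (y : G)⁻¹) * (y : G) := by group
          _ = (z : G)⁻¹ * ((z : G) * s * (z : G)⁻¹) * (y : G) := by rw [h3]
          _ = s * ((z : G)⁻¹ * (y : G)) := by group
      have h2 : s * ((z : G)⁻¹ * (y : G)) * s⁻¹ = (z : G)⁻¹ * (y : G) := by
        rw [← h6]; group
      have hd : (z : G)⁻¹ * (y : G) ∈ P := P.mul_mem (P.inv_mem z.2) y.2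
      have hd1 : (z : G)⁻¹ * (y : G) = 1 := by
        by_contra hne
        exact hfpf _ hd hne h2
      exact Subtype.ext (inv_mul_eq_one.mp hd1).symm
    have hφ_bij : Function.Bijective φ := Finite.injective_iff_bijective.mp hφ_inj
    intro x
    obtain ⟨y, hy⟩ := hφ_bij.2 x
    refine ⟨y, ?_⟩
    have h1 : (x : G) = s⁻¹ * (y : G) * s * (y : G)⁻¹ := by rw [← hφ, hy]
    rw [h1]
    group
  have htrUS : LinearMap.trace ℂ _ (U * S) = (p : ℂ) * ρ.character s := by
    rw [hS, Finset.mul_sum, map_sum]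
    have h1 : ∀ x : P, LinearMap.trace ℂ _ (U * ρ (x : G)) = ρ.character s := by
      intro x
      rw [hU, ← map_mul]
      show ρ.character (s * x) = ρ.character s
      obtain ⟨y, hy⟩ := hconj x
      rw [hy, Representation.char_conj]
    simp_rw [h1]
    rw [Finset.sum_const, Finset.card_univ, hcardP, nsmul_eq_mul]
  have htrS : LinearMap.trace ℂ _ S = ∑ x : P, ρ.character (x : G) := by
    rw [hS, map_sum]
    rfl
  have hss : U.IsSemisimple := by
    rw [hU]
    exact Cfsg.Agent.H4.rho_isSemisimple ρ s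
  have hnorm1 : ∀ μ : ℂ, Module.End.eigenspace U μ ≠ ⊥ → ‖μ‖ = 1 := by
    intro μ hμ
    rw [hU] at hμ
    exact Cfsg.Agent.H4.eig_norm ρ hμ
  obtain ⟨w, hw1, hw2⟩ := norm_trace_mul_idem_le U E hss hnorm1 hEE hUE
  refine ⟨w, ?_, ?_⟩
  · rw [finsum_eq_sum_of_fintype, ← htrS, hS_E, map_smul, hw1, smul_eq_mul]
  · have h1 : LinearMap.trace ℂ _ (U * S) = (p : ℂ) * LinearMap.trace ℂ _ (U * E) := by
      rw [hS_E, mul_smul_comm, map_smul, smul_eq_mul]
    rw [htrUS] at h1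
    have h2 := mul_left_cancel₀ hpC h1
    rw [h2]
    exact hw2

example {G : Type*} [Group G] [Finite G] (p : ℕ) [Fact p.Prime]
    (P : Subgroup G) (hP : Nat.card P = p) (s : G)
    (hnorm : ∀ x ∈ P, s * x * s⁻¹ ∈ P) (hfpf : ∀ x ∈ P, x ≠ 1 → s * x * s⁻¹ ≠ x)
    (ψ : G → ℂ) (hψ : IsCharacter G ψ) :
    ∃ w : ℕ, ∑ᶠ x : ↥P, ψ (x : G) = (p : ℂ) * (w : ℂ) ∧ ‖ψ s‖ ≤ (w : ℝ) :=
  frob_bound p P hP s hnorm hfpf ψ hψ

end Cfsg.Agent.H19.BRM
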