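import Mathlib
import Cfsg.Prelude.Def_OddOrderChar
import Cfsg.Agent.H32.Coherence
import Cfsg.Agent.H32.CohMany
import Cfsg.Agent.H19.CohA
import Cfsg.Agent.H4.PaQb

set_option autoImplicit false
set_option linter.style.haveILetI false

namespace Cfsg.Agent.H19

open Cfsg Cfsg.Agent.H4 Cfsg.Agent.H32

section CohBase

variable {L : Type*} [Group L] [Fintype L] {G : Type*} [Group G] [Fintype G]

/-- `τ 0 = 0` for a linear isometry. -/
theorem linIso_zero {E : Set (L → ℂ)} {τ : (L → ℂ) → (G → ℂ)} (hτ : IsLinearIsometryOn E τ)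
    {α : L → ℂ} (hα : α ∈ E) : τ 0 = 0 := by
  have h := hτ.2.1 α hα 0
  rwa [zero_smul, zero_smul] at h

/-- Assembling coherence for a set of irreducible characters of equal degree from the images
`T ξ`. -/
theorem coh_of_T_equal (S₁ : Set (L → ℂ)) (hirr : ∀ ξ ∈ S₁, IsIrrCharacter L ξ)
    (d : ℕ) (hd : ∀ ξ ∈ S₁, ξ 1 = (d : ℂ))
    (τ : (L → ℂ) → (G → ℂ)) (hτ : IsLinearIsometryOn (zspanOn S₁ {1}ᶜ) τ)
    (χ₀ ψ₀ : L → ℂ) (hχ₀ : χ₀ ∈ S₁) (hψ₀ : ψ₀ ∈ S₁) (hne : ψ₀ ≠ χ₀)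
    (T : (L → ℂ) → (G → ℂ))
    (hT1 : ∀ ξ ∈ S₁, IsGeneralizedCharacter G (T ξ))
    (hT2 : ∀ ξ ∈ S₁, ∀ ζ ∈ S₁, classInner (T ξ) (T ζ) = if ξ = ζ then 1 else 0)
    (hT3 : ∀ ψ ∈ S₁, ψ ≠ χ₀ → τ (χ₀ - ψ) = T χ₀ - T ψ) :
    IsCoherent S₁ {1}ᶜ τ := by
  classical
  have hinner : ∀ ξ ∈ S₁, ∀ ζ ∈ S₁, classInner ξ ζ = if ξ = ζ then 1 else 0 := by
    intro ξ hξ ζ hζ
    have := irr_inner (⟨ξ, hirr ξ hξ⟩ : IrrCharacter L) ⟨ζ, hirr ζ hζ⟩
    simp only [Subtype.mk.injEq] at this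
    exact this
  have hdiff : ∀ ψ ∈ S₁, χ₀ - ψ ∈ zspanOn S₁ {1}ᶜ := by
    intro ψ hψ
    apply mem_zspanOn_compl_one
    · exact Submodule.sub_mem _ (Submodule.subset_span hχ₀) (Submodule.subset_span hψ)
    · rw [Pi.sub_apply, hd χ₀ hχ₀, hd ψ hψ, sub_self]
  have hdpos : 0 < d := by
    obtain ⟨n, hn, e⟩ := irr_one_eq_natCast (⟨χ₀, hirr χ₀ hχ₀⟩ : IrrCharacter L)
    have e' : χ₀ 1 = (n : ℂ) := e
    rw [hd χ₀ hχ₀] at e'
    have : d = n := by exact_mod_cast e'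
    omega
  refine ⟨⟨χ₀ - ψ₀, hdiff ψ₀ hψ₀, ?_⟩, ?_⟩
  · intro h0
    have h1 : classInner (χ₀ - ψ₀) χ₀ = 0 := by rw [h0, classInner_zero_left]
    rw [classInner_sub_left, hinner χ₀ hχ₀ χ₀ hχ₀, hinner ψ₀ hψ₀ χ₀ hχ₀, if_pos rfl,
      if_neg hne] at h1
    norm_num at h1
  · apply coherence_of_T S₁ τ hτ
      (fun ξ hξ ζ hζ hne' => by rw [hinner ξ hξ ζ hζ, if_neg hne'])
      (fun ξ hξ => by rw [hinner ξ hξ ξ hξ, if_pos rfl]; exact one_ne_zero)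
      (fun _ => (d : ℤ)) (fun ξ hξ => by rw [hd ξ hξ]; simp) χ₀ hχ₀
      (by exact_mod_cast hdpos.ne') T hT1
      (fun ξ hξ ζ hζ => by rw [hT2 ξ hξ ζ hζ, hinner ξ hξ ζ hζ])
    intro ψ hψ
    have e1 : (d : ℤ) • χ₀ - (d : ℤ) • ψ = (d : ℤ) • (χ₀ - ψ) := by rw [smul_sub]
    rw [e1, hτ.2.1 _ (hdiff ψ hψ)]
    by_cases hc : ψ = χ₀
    · subst hc
      rw [sub_self, linIso_zero hτ (hdiff ψ hψ), sub_self, smul_zero]
    · rw [hT3 ψ hψ hc, smul_sub]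

/-- A set of at least two irreducible characters of the same degree is coherent. -/
theorem coh_equal_degree (S₁ : Set (L → ℂ)) (hirr : ∀ ξ ∈ S₁, IsIrrCharacter L ξ)
    (d : ℕ) (hd : ∀ ξ ∈ S₁, ξ 1 = (d : ℂ))
    (htwo : ∃ χ ∈ S₁, ∃ ψ ∈ S₁, χ ≠ ψ)
    (τ : (L → ℂ) → (G → ℂ)) (hτ : IsLinearIsometryOn (zspanOn S₁ {1}ᶜ) τ)
    (hτ1 : ∀ α ∈ zspanOn S₁ {1}ᶜ, τ α 1 = 0) :
    IsCoherent S₁ {1}ᶜ τ := by
  classical
  obtain ⟨χ₀, hχ₀, ψ₀, hψ₀, hne0⟩ := htwo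
  have hne : ψ₀ ≠ χ₀ := Ne.symm hne0
  have hinner : ∀ ξ ∈ S₁, ∀ ζ ∈ S₁, classInner ξ ζ = if ξ = ζ then 1 else 0 := by
    intro ξ hξ ζ hζ
    have := irr_inner (⟨ξ, hirr ξ hξ⟩ : IrrCharacter L) ⟨ζ, hirr ζ hζ⟩
    simp only [Subtype.mk.injEq] at this
    exact this
  have hdiff : ∀ ψ ∈ S₁, χ₀ - ψ ∈ zspanOn S₁ {1}ᶜ := by
    intro ψ hψ
    apply mem_zspanOn_compl_one
    · exact Submodule.sub_mem _ (Submodule.subset_span hχ₀) (Submodule.subset_span hψ)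
    · rw [Pi.sub_apply, hd χ₀ hχ₀, hd ψ hψ, sub_self]
  have hex : ∀ ψ : L → ℂ, ∃ A B : IrrCharacter G, ψ ∈ S₁ → ψ ≠ χ₀ →
      (A ≠ B ∧ τ (χ₀ - ψ) = A.1 - B.1) := by
    intro ψ
    by_cases hψ : ψ ∈ S₁ ∧ ψ ≠ χ₀
    · have h2 : classInner (τ (χ₀ - ψ)) (τ (χ₀ - ψ)) = 2 := by
        rw [hτ.2.2.1 _ (hdiff ψ hψ.1) _ (hdiff ψ hψ.1)]
        simp only [classInner_sub_left, classInner_sub_right]
        rw [hinner χ₀ hχ₀ χ₀ hχ₀, hinner χ₀ hχ₀ ψ hψ.1, hinner ψ hψ.1 χ₀ hχ₀,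
          hinner ψ hψ.1 ψ hψ.1, if_pos rfl, if_pos rfl, if_neg hψ.2, if_neg (Ne.symm hψ.2)]
        norm_num
      obtain ⟨μ₁, μ₂, hμ, e, -⟩ := genChar_norm_two_vanish (hτ.2.2.2 _ (hdiff ψ hψ.1)) h2
        (hτ1 _ (hdiff ψ hψ.1))
      exact ⟨μ₁, μ₂, fun _ _ => ⟨hμ, e⟩⟩
    · exact ⟨trivialIrr G, trivialIrr G, fun h1 h2 => absurd ⟨h1, h2⟩ hψ⟩
  choose A B hAB using hex
  -- the exclusive alternative
  have hxor : ∀ ψ ∈ S₁, ∀ ψ' ∈ S₁, ψ ≠ χ₀ → ψ' ≠ χ₀ → ψ ≠ ψ' →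
      (A ψ = A ψ' ∧ B ψ ≠ B ψ') ∨ (A ψ ≠ A ψ' ∧ B ψ = B ψ') := by
    intro ψ hψ ψ' hψ' h1 h2 h3
    obtain ⟨hn1, e1⟩ := hAB ψ hψ h1
    obtain ⟨hn2, e2⟩ := hAB ψ' hψ' h2
    have hval : classInner (τ (χ₀ - ψ)) (τ (χ₀ - ψ')) = 1 := by
      rw [hτ.2.2.1 _ (hdiff ψ hψ) _ (hdiff ψ' hψ')]
      simp only [classInner_sub_left, classInner_sub_right]
      rw [hinner χ₀ hχ₀ χ₀ hχ₀, hinner χ₀ hχ₀ ψ' hψ', hinner ψ hψ χ₀ hχ₀,
        hinner ψ hψ ψ' hψ', if_pos rfl, if_neg (Ne.symm h2), if_neg h1, if_neg h3]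
      norm_num
    rw [e1, e2] at hval
    simp only [classInner_sub_left, classInner_sub_right, irr_inner] at hval
    by_cases c1 : A ψ = A ψ'
    · by_cases c2 : B ψ = B ψ'
      · exfalso
        have c3 : A ψ ≠ B ψ' := fun h => hn1 (h.trans c2.symm)
        have c4 : B ψ ≠ A ψ' := fun h => hn1 (c1.trans h.symm)
        rw [if_pos c1, if_pos c2, if_neg c3, if_neg c4] at hval
        norm_num at hval
      · exact Or.inl ⟨c1, c2⟩
    · by_cases c2 : B ψ = B ψ'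
      · exact Or.inr ⟨c1, c2⟩
      · exfalso
        rw [if_neg c1, if_neg c2] at hval
        by_cases c3 : A ψ = B ψ' <;> by_cases c4 : B ψ = A ψ' <;>
          simp only [c3, c4, if_true, if_false] at hval <;> norm_num at hval
  by_cases hI : ∃ ψ₁ ∈ S₁, ∃ ψ₂ ∈ S₁, ψ₁ ≠ χ₀ ∧ ψ₂ ≠ χ₀ ∧ ψ₁ ≠ ψ₂ ∧ A ψ₁ = A ψ₂
  · obtain ⟨ψ₁, hψ₁, ψ₂, hψ₂, h1, h2, h12, hA⟩ := hI
    have hB12 : B ψ₁ ≠ B ψ₂ := by
      rcases hxor ψ₁ hψ₁ ψ₂ hψ₂ h1 h2 h12 with h | h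
      · exact h.2
      · exact absurd hA h.1
    have hall : ∀ ψ ∈ S₁, ψ ≠ χ₀ → A ψ = A ψ₁ := by
      intro ψ hψ hc
      by_contra hcon
      have hne1 : ψ ≠ ψ₁ := fun h => hcon (by rw [h])
      have hne2 : ψ ≠ ψ₂ := fun h => hcon (by rw [h, hA])
      have hb1 : B ψ = B ψ₁ := by
        rcases hxor ψ hψ ψ₁ hψ₁ hc h1 hne1 with h | h
        · exact absurd h.1 hcon
        · exact h.2
      have hb2 : B ψ = B ψ₂ := by
        rcases hxor ψ hψ ψ₂ hψ₂ hc h2 hne2 with h | h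
        · exact absurd (h.1.trans hA.symm) hcon
        · exact h.2
      exact hB12 (hb1.symm.trans hb2)
    apply coh_of_T_equal S₁ hirr d hd τ hτ χ₀ ψ₀ hχ₀ hψ₀ hne
      (fun ξ => if ξ = χ₀ then (A ψ₁).1 else (B ξ).1)
    · intro ξ hξ
      by_cases hc : ξ = χ₀
      · simp only [if_pos hc]
        exact isGeneralizedCharacter_of_isCharacter (isCharacter_of_isIrrCharacter (A ψ₁).2)
      · simp only [if_neg hc]
        exact isGeneralizedCharacter_of_isCharacter (isCharacter_of_isIrrCharacter (B ξ).2)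
    · intro ξ hξ ζ hζ
      by_cases hc : ξ = χ₀ <;> by_cases hc' : ζ = χ₀
      · simp only [if_pos hc, if_pos hc']
        rw [irr_inner_self, if_pos (hc.trans hc'.symm)]
      · simp only [if_pos hc, if_neg hc']
        have hξζ : ξ ≠ ζ := fun h => hc' (h.symm.trans hc)
        have hAB' : A ψ₁ ≠ B ζ := by
          rw [← hall ζ hζ hc']
          exact (hAB ζ hζ hc').1
        rw [irr_inner_ne hAB', if_neg hξζ]
      · simp only [if_neg hc, if_pos hc']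
        have hξζ : ξ ≠ ζ := fun h => hc (h.trans hc')
        have hAB' : B ξ ≠ A ψ₁ := by
          rw [← hall ξ hξ hc]
          exact Ne.symm (hAB ξ hξ hc).1
        rw [irr_inner_ne hAB', if_neg hξζ]
      · simp only [if_neg hc, if_neg hc']
        by_cases hξζ : ξ = ζ
        · rw [if_pos hξζ, hξζ, irr_inner_self]
        · rw [if_neg hξζ]
          apply irr_inner_ne
          rcases hxor ξ hξ ζ hζ hc hc' hξζ with h | h
          · exact h.2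
          · exact absurd ((hall ξ hξ hc).trans (hall ζ hζ hc').symm) h.1
    · intro ψ hψ hc
      simp only [if_neg hc, if_true, ↓reduceIte]
      rw [(hAB ψ hψ hc).2, hall ψ hψ hc]
  · push Not at hI
    have hall : ∀ ψ ∈ S₁, ψ ≠ χ₀ → B ψ = B ψ₀ := by
      intro ψ hψ hc
      by_cases hp : ψ = ψ₀
      · rw [hp]
      · rcases hxor ψ hψ ψ₀ hψ₀ hc hne hp with h | h
        · exact absurd h.1 (hI ψ hψ ψ₀ hψ₀ hc hne hp)
        · exact h.2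
    apply coh_of_T_equal S₁ hirr d hd τ hτ χ₀ ψ₀ hχ₀ hψ₀ hne
      (fun ξ => if ξ = χ₀ then -(B ψ₀).1 else -(A ξ).1)
    · intro ξ hξ
      by_cases hc : ξ = χ₀
      · simp only [if_pos hc]
        exact isGeneralizedCharacter_neg
          (isGeneralizedCharacter_of_isCharacter (isCharacter_of_isIrrCharacter (B ψ₀).2))
      · simp only [if_neg hc]
        exact isGeneralizedCharacter_neg
          (isGeneralizedCharacter_of_isCharacter (isCharacter_of_isIrrCharacter (A ξ).2))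
    · intro ξ hξ ζ hζ
      by_cases hc : ξ = χ₀ <;> by_cases hc' : ζ = χ₀
      · simp only [if_pos hc, if_pos hc']
        rw [classInner_neg_left, classInner_neg_right, neg_neg, irr_inner_self,
          if_pos (hc.trans hc'.symm)]
      · simp only [if_pos hc, if_neg hc']
        have hξζ : ξ ≠ ζ := fun h => hc' (h.symm.trans hc)
        have hAB' : B ψ₀ ≠ A ζ := by
          rw [← hall ζ hζ hc']
          exact Ne.symm (hAB ζ hζ hc').1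
        rw [classInner_neg_left, classInner_neg_right, neg_neg, irr_inner_ne hAB', if_neg hξζ]
      · simp only [if_neg hc, if_pos hc']
        have hξζ : ξ ≠ ζ := fun h => hc (h.trans hc')
        have hAB' : A ξ ≠ B ψ₀ := by
          rw [← hall ξ hξ hc]
          exact (hAB ξ hξ hc).1
        rw [classInner_neg_left, classInner_neg_right, neg_neg, irr_inner_ne hAB', if_neg hξζ]
      · simp only [if_neg hc, if_neg hc']
        rw [classInner_neg_left, classInner_neg_right, neg_neg]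
        by_cases hξζ : ξ = ζ
        · rw [if_pos hξζ, hξζ, irr_inner_self]
        · rw [if_neg hξζ]
          exact irr_inner_ne (hI ξ hξ ζ hζ hc hc' hξζ)
    · intro ψ hψ hc
      simp only [if_neg hc, if_true, ↓reduceIte]
      rw [(hAB ψ hψ hc).2, hall ψ hψ hc]
      abel

end CohBase

end Cfsg.Agent.H19
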