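import Mathlib
import Cfsg.Agent.S0033

set_option autoImplicit false
set_option linter.style.haveILetI false

namespace Cfsg.Agent.H19

open Cfsg

section FrobK

variable {N : Type*} [Group N] [Finite N] (K : Subgroup N) [K.Normal]

/-- If the centralizers of the non-identity elements of the normal subgroup `K` lie in `K`, then
every normal subgroup `B ≤ K` has order congruent to `1` modulo the index of `K`. -/
theorem frobK_card_modEq
    (hC : ∀ k ∈ K, k ≠ 1 → Subgroup.centralizer ({k} : Set N) ≤ K)
    (B : Subgroup N) [B.Normal] (hBK : B ≤ K) : K.index ∣ Nat.card B - 1 := by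
  classical
  letI act : MulAction N B := MulAction.compHom B (MulAut.conjNormal (H := B))
  have hsmul : ∀ (n : N) (b : B), ((n • b : B) : N) = n * b * n⁻¹ := fun n b => rfl
  haveI : Fintype (MulAction.orbitRel.Quotient N B) := Fintype.ofFinite _
  have hφ : Function.LeftInverse (Quotient.mk'' : B → MulAction.orbitRel.Quotient N B)
      Quotient.out := Quotient.out_eq'
  have e1 := MulAction.selfEquivSigmaOrbitsQuotientStabilizer' N B hφ
  have hcard : Nat.card B = ∑ ω : MulAction.orbitRel.Quotient N B,
      (MulAction.stabilizer N (Quotient.out ω : B)).index := by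
    rw [Nat.card_congr e1, Nat.card_sigma]
    rfl
  have hstab : ∀ b : B, b ≠ 1 → MulAction.stabilizer N b ≤ K := by
    intro b hb n hn
    have h1 : n • b = b := MulAction.mem_stabilizer_iff.mp hn
    have h2 : n * (b : N) * n⁻¹ = b := by rw [← hsmul, h1]
    have hbK : (b : N) ∈ K := hBK b.2
    have hb1 : (b : N) ≠ 1 := fun h => hb (Subtype.ext h)
    apply hC (b : N) hbK hb1
    rw [Subgroup.mem_centralizer_iff]
    intro x hx
    rw [Set.mem_singleton_iff] at hx
    subst hx
    calc (b : N) * n = (n * (b : N) * n⁻¹) * n := by rw [h2]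
      _ = n * (b : N) := by group
  have hone : ∀ ω : MulAction.orbitRel.Quotient N B, (Quotient.out ω : B) = 1 →
      ω = Quotient.mk'' (1 : B) := by
    intro ω h
    rw [← h]
    exact (Quotient.out_eq' ω).symm
  have hone' : (Quotient.out (Quotient.mk'' (1 : B) : MulAction.orbitRel.Quotient N B) : B) = 1 := by
    have h1 : (Quotient.mk'' (Quotient.out (Quotient.mk'' (1 : B) :
        MulAction.orbitRel.Quotient N B)) : MulAction.orbitRel.Quotient N B) =
        Quotient.mk'' (1 : B) := Quotient.out_eq' _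
    have h2 := Quotient.exact' h1
    change (Quotient.out (Quotient.mk'' (1 : B) : MulAction.orbitRel.Quotient N B) : B) ∈
      MulAction.orbit N (1 : B) at h2
    obtain ⟨n, hn⟩ := h2
    rw [← hn]
    apply Subtype.ext
    rw [hsmul]
    simp
  rw [← Finset.add_sum_erase _ _ (Finset.mem_univ (Quotient.mk'' (1 : B) :
    MulAction.orbitRel.Quotient N B))] at hcard
  have htop : (MulAction.stabilizer N (Quotient.out (Quotient.mk'' (1 : B) :
      MulAction.orbitRel.Quotient N B) : B)).index = 1 := by
    rw [hone']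
    have : MulAction.stabilizer N (1 : B) = ⊤ := by
      rw [eq_top_iff]
      intro n _
      rw [MulAction.mem_stabilizer_iff]
      apply Subtype.ext
      rw [hsmul]
      simp
    rw [this, Subgroup.index_top]
  rw [htop] at hcard
  have hdvd : K.index ∣ ∑ ω ∈ (Finset.univ : Finset (MulAction.orbitRel.Quotient N B)).erase
      (Quotient.mk'' (1 : B)), (MulAction.stabilizer N (Quotient.out ω : B)).index := by
    apply Finset.dvd_sum
    intro ω hω
    have hne : (Quotient.out ω : B) ≠ 1 := fun h => (Finset.mem_erase.mp hω).1 (hone ω h)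
    exact Subgroup.index_dvd_of_le (hstab _ hne)
  rw [hcard, Nat.add_sub_cancel_left]
  exact hdvd

/-- The order of `K` is coprime to its index. -/
theorem frobK_coprime
    (hC : ∀ k ∈ K, k ≠ 1 → Subgroup.centralizer ({k} : Set N) ≤ K)
    (B : Subgroup N) [B.Normal] (hBK : B ≤ K) : Nat.Coprime (Nat.card B) K.index := by
  have hdiv := frobK_card_modEq K hC B hBK
  have hpos : 0 < Nat.card B := Nat.card_pos
  have h1 : Nat.gcd (Nat.card B) K.index ∣ 1 := by
    have ha := Nat.gcd_dvd_left (Nat.card B) K.index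
    have hb := (Nat.gcd_dvd_right (Nat.card B) K.index).trans hdiv
    have h3 := Nat.dvd_sub ha hb
    rwa [show Nat.card B - (Nat.card B - 1) = 1 by omega] at h3
  exact Nat.dvd_one.mp h1

/-- Strictly nested normal subgroups inside `K` have index at least `e + 1`. -/
theorem frobK_card_le
    (hC : ∀ k ∈ K, k ≠ 1 → Subgroup.centralizer ({k} : Set N) ≤ K)
    (A B : Subgroup N) [A.Normal] [B.Normal] (hAB : A < B) (hBK : B ≤ K) :
    (K.index + 1) * Nat.card A ≤ Nat.card B := by
  obtain ⟨r, hr⟩ := Subgroup.card_dvd_of_le hAB.le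
  have hA := frobK_card_modEq K hC A (hAB.le.trans hBK)
  have hB := frobK_card_modEq K hC B hBK
  have hcop := frobK_coprime K hC A (hAB.le.trans hBK)
  have hposA : 0 < Nat.card A := Nat.card_pos
  have hposB : 0 < Nat.card B := Nat.card_pos
  have hr1 : r ≠ 1 := by
    intro h
    rw [h, mul_one] at hr
    exact hAB.ne (Subgroup.eq_of_le_of_card_ge hAB.le hr.le)
  have hr0 : r ≠ 0 := by
    intro h
    rw [h, mul_zero] at hr
    omega
  have h1 : K.index ∣ Nat.card A * (r - 1) := by
    have h2 : Nat.card A * (r - 1) = (Nat.card B - 1) - (Nat.card A - 1) := by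
      rw [hr, Nat.mul_sub, mul_one]
      have : Nat.card A ≤ Nat.card A * r := Nat.le_mul_of_pos_right _ (by omega)
      omega
    rw [h2]
    exact Nat.dvd_sub hB hA
  have h3 : K.index ∣ r - 1 := hcop.symm.dvd_of_dvd_mul_left h1
  have h4 : K.index ≤ r - 1 := Nat.le_of_dvd (by omega) h3
  rw [hr]
  have : K.index + 1 ≤ r := by omega
  calc (K.index + 1) * Nat.card A ≤ r * Nat.card A := Nat.mul_le_mul_right _ this
    _ = Nat.card A * r := by ring

/-- The kernel is nilpotent (Thompson). -/
theorem frobK_nilpotent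
    (hC : ∀ k ∈ K, k ≠ 1 → Subgroup.centralizer ({k} : Set N) ≤ K)
    (hK1 : K ≠ ⊥) (hK2 : K ≠ ⊤) : Group.IsNilpotent K := by
  classical
  have hidx1 : K.index ≠ 1 := fun h => hK2 (Subgroup.index_eq_one.mp h)
  obtain ⟨p, hp, hpdvd⟩ := Nat.exists_prime_and_dvd hidx1
  haveI : Fact p.Prime := ⟨hp⟩
  have hpN : p ∣ Nat.card N := hpdvd.trans (Subgroup.index_dvd_card K)
  obtain ⟨x, hx⟩ := exists_prime_orderOf_dvd_card' p hpN
  have hcop := frobK_coprime K hC K le_rfl
  have hxK : x ∉ K := by
    intro hxK
    have h1 : orderOf (⟨x, hxK⟩ : K) ∣ Nat.card K := orderOf_dvd_natCard _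
    have h2 : orderOf (⟨x, hxK⟩ : K) = p := by
      rw [← hx]
      exact (Subgroup.orderOf_mk x hxK)
    rw [h2] at h1
    have := Nat.Coprime.eq_one_of_dvd (Nat.Coprime.coprime_dvd_left h1 hcop) hpdvd
    exact hp.one_lt.ne' this
  have hfpf : MonoidHom.FixedPointFree ((MulAut.conjNormal x : K ≃* K) : K →* K) := by
    intro k hk
    by_contra hk1
    have h2 : x * (k : N) * x⁻¹ = k := by
      have := congrArg Subtype.val hk
      simpa [MulAut.conjNormal_apply] using this
    have hk1' : (k : N) ≠ 1 := fun h => hk1 (Subtype.ext h)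
    apply hxK
    apply hC (k : N) k.2 hk1'
    rw [Subgroup.mem_centralizer_iff]
    intro y hy
    rw [Set.mem_singleton_iff] at hy
    subst hy
    calc (k : N) * x = (x * (k : N) * x⁻¹) * x := by rw [h2]
      _ = x * (k : N) := by group
  have hpow : (MulAut.conjNormal x : K ≃* K) ^ p = 1 := by
    rw [← map_pow, ← hx, pow_orderOf_eq_one, map_one]
  have hne1 : (MulAut.conjNormal x : K ≃* K) ≠ 1 := by
    intro h
    obtain ⟨k, hk, hk1⟩ : ∃ k ∈ K, k ≠ 1 := by
      by_contra hcon
      push Not at hcon
      exact hK1 ((Subgroup.eq_bot_iff_forall K).mpr hcon)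
    have h3 : (MulAut.conjNormal x : K ≃* K) ⟨k, hk⟩ = ⟨k, hk⟩ := by rw [h]; rfl
    exact hk1 (congrArg Subtype.val (hfpf _ h3))
  have hord : orderOf (MulAut.conjNormal x : K ≃* K) = p := by
    have h1 := orderOf_dvd_of_pow_eq_one hpow
    rcases (Nat.dvd_prime hp).mp h1 with h | h
    · exact absurd (orderOf_eq_one_iff.mp h) hne1
    · exact h
  exact Cfsg.Agent.S0033.result _ hfpf p hp hord

end FrobK

end Cfsg.Agent.H19
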