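import Mathlib
import Cfsg.Agent.H19.CohC

set_option autoImplicit false
set_option linter.style.haveILetI false
set_option linter.unusedSectionVars false

namespace Cfsg.Agent.H19

open Cfsg

open scoped commutatorElement

section CSer

variable {N : Type*} [Group N]

/-- Iterated commutators `[X, K, …, K]`. -/
def cser (X K : Subgroup N) : ℕ → Subgroup N
  | 0 => X
  | (i + 1) => ⁅cser X K i, K⁆

theorem cser_zero (X K : Subgroup N) : cser X K 0 = X := rfl

theorem cser_succ (X K : Subgroup N) (i : ℕ) : cser X K (i + 1) = ⁅cser X K i, K⁆ := rfl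

theorem cser_normal (X K : Subgroup N) [hX : X.Normal] [K.Normal] (i : ℕ) :
    (cser X K i).Normal := by
  induction i with
  | zero => exact hX
  | succ i ih =>
    rw [cser_succ]
    haveI := ih
    infer_instance

theorem cser_succ_le (X K : Subgroup N) [X.Normal] [K.Normal] (i : ℕ) :
    cser X K (i + 1) ≤ cser X K i := by
  rw [cser_succ]
  haveI := cser_normal X K i
  exact Subgroup.commutator_le_left _ _

theorem cser_antitone (X K : Subgroup N) [X.Normal] [K.Normal] {i j : ℕ} (h : i ≤ j) :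
    cser X K j ≤ cser X K i := by
  induction h with
  | refl => exact le_rfl
  | step _ ih => exact (cser_succ_le X K _).trans ih

theorem cser_mono {X Y : Subgroup N} (K : Subgroup N) (h : X ≤ Y) (i : ℕ) :
    cser X K i ≤ cser Y K i := by
  induction i with
  | zero => exact h
  | succ i ih =>
    rw [cser_succ, cser_succ]
    exact Subgroup.commutator_mono ih le_rfl

theorem cser_le_left (X K : Subgroup N) [X.Normal] [K.Normal] (i : ℕ) : cser X K i ≤ X :=
  cser_antitone X K (Nat.zero_le i)

theorem cser_self (K : Subgroup N) (i : ℕ) : cser K K i = K.lowerCentralSeries i := by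
  induction i with
  | zero => rfl
  | succ i ih => rw [cser_succ, ih]; rfl

theorem cser_self_eq_bot (K : Subgroup N) [h : Group.IsNilpotent K] : ∃ n, cser K K n = ⊥ := by
  obtain ⟨n, hn⟩ := (Subgroup.isNilpotent_iff_lowerCentralSeries K).mp h
  exact ⟨n, by rw [cser_self, hn]⟩

theorem cser_comm_mem (X K : Subgroup N) (i : ℕ) {d c : N} (hd : d ∈ cser X K i) (hc : c ∈ K) :
    d * c * d⁻¹ * c⁻¹ ∈ cser X K (i + 1) := by
  rw [cser_succ]
  exact Subgroup.commutator_mem_commutator hd hc

/-- Commutator with a join of normal subgroups. -/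
theorem comm_sup_le (A B C : Subgroup N) [A.Normal] [B.Normal] [C.Normal] :
    ⁅A ⊔ B, C⁆ ≤ ⁅A, C⁆ ⊔ ⁅B, C⁆ := by
  rw [Subgroup.commutator_le]
  intro g hg c hc
  have hg' : g ∈ (↑(A ⊔ B) : Set N) := hg
  rw [Subgroup.normal_mul] at hg'
  obtain ⟨a, ha, b, hb, rfl⟩ := Set.mem_mul.mp hg'
  have e : ⁅a * b, c⁆ = (a * ⁅b, c⁆ * a⁻¹) * ⁅a, c⁆ := by
    simp only [commutatorElement_def]
    group
  rw [e]
  apply Subgroup.mul_mem
  · apply Subgroup.mem_sup_right
    exact (inferInstance : (⁅B, C⁆).Normal).conj_mem _ (Subgroup.commutator_mem_commutator hb hc) a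
  · exact Subgroup.mem_sup_left (Subgroup.commutator_mem_commutator ha hc)

/-- In a nilpotent group a nontrivial normal subgroup properly contains its commutator with the
group. -/
theorem comm_lt_of_nilpotent (K : Subgroup N) [K.Normal] (hnil : ∃ n, cser K K n = ⊥)
    (X : Subgroup N) [X.Normal] (hXK : X ≤ K) (hX : X ≠ ⊥) : ⁅X, K⁆ < X := by
  refine lt_of_le_of_ne (Subgroup.commutator_le_left X K) ?_
  intro heq
  obtain ⟨n, hn⟩ := hnil
  have key : ∀ i, X ≤ cser K K i := by
    intro i
    induction i with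
    | zero => exact hXK
    | succ i ih =>
      rw [cser_succ]
      calc X = ⁅X, K⁆ := heq.symm
        _ ≤ ⁅cser K K i, K⁆ := Subgroup.commutator_mono ih le_rfl
  exact hX (le_bot_iff.mp ((key n).trans hn.le))

/-- In a nilpotent group, a proper normal subgroup together with the derived subgroup does not
generate the group. -/
theorem sup_comm_ne_of_nilpotent (K : Subgroup N) [K.Normal] (hnil : ∃ n, cser K K n = ⊥)
    (X : Subgroup N) [X.Normal] (hXK : X ≤ K) (hX : X ≠ K) : X ⊔ ⁅K, K⁆ ≠ K := by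
  intro heq
  obtain ⟨n, hn⟩ := hnil
  have key : ∀ i, K ≤ X ⊔ cser K K i := by
    intro i
    induction i with
    | zero => exact le_sup_right
    | succ i ih =>
      haveI := cser_normal K K i
      have h1 : ⁅K, K⁆ ≤ X ⊔ cser K K (i + 1) := by
        calc ⁅K, K⁆ ≤ ⁅X ⊔ cser K K i, K⁆ := Subgroup.commutator_mono ih le_rfl
          _ ≤ ⁅X, K⁆ ⊔ ⁅cser K K i, K⁆ := comm_sup_le _ _ _
          _ ≤ X ⊔ cser K K (i + 1) := sup_le_sup (Subgroup.commutator_le_left X K) le_rfl
      calc K = X ⊔ ⁅K, K⁆ := heq.symm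
        _ ≤ X ⊔ cser K K (i + 1) := sup_le le_sup_left h1
  have h2 := key n
  rw [hn, sup_bot_eq] at h2
  exact hX (le_antisymm hXK h2)

/-- The last nontrivial term of the series `[R, K, …, K]`. -/
theorem exists_last_cser (K : Subgroup N) [K.Normal] (hnil : ∃ n, cser K K n = ⊥)
    (R : Subgroup N) [R.Normal] (hRK : R ≤ K) (hR : R ≠ ⊥) :
    ∃ j, cser R K j ≠ ⊥ ∧ cser R K (j + 1) = ⊥ := by
  classical
  obtain ⟨n, hn⟩ := hnil
  have hbot : cser R K n = ⊥ := le_bot_iff.mp ((cser_mono K hRK n).trans hn.le)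
  have hex : ∃ m, cser R K m = ⊥ := ⟨n, hbot⟩
  have hm := Nat.find_spec hex
  have hm0 : Nat.find hex ≠ 0 := by
    intro h
    rw [h] at hm
    exact hR hm
  obtain ⟨j, hj⟩ := Nat.exists_eq_succ_of_ne_zero hm0
  refine ⟨j, Nat.find_min hex (by omega), ?_⟩
  rw [Nat.succ_eq_add_one] at hj
  rw [← hj]
  exact hm

end CSer

section SylowK

variable {N : Type*} [Group N] [Finite N]

/-- The Sylow `p`-subgroup of a nilpotent normal subgroup `K`, as a normal subgroup of the
ambient group. -/
theorem exists_normal_sylow (K : Subgroup N) [K.Normal] [hnil : Group.IsNilpotent K] (p : ℕ)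
    [Fact p.Prime] :
    ∃ P : Subgroup N, P.Normal ∧ P ≤ K ∧ IsPGroup p P ∧
      Nat.card P = p ^ (Nat.card K).factorization p := by
  obtain ⟨P₀⟩ : Nonempty (Sylow p K) := inferInstance
  have q := (Group.isNilpotent_of_finite_tfae (G := K)).out 0 3
  have hn : (P₀ : Subgroup K).Normal := q.mp hnil p inferInstance P₀
  haveI := hn
  haveI hchar : (P₀ : Subgroup K).Characteristic := Sylow.characteristic_of_normal P₀ hn
  refine ⟨(P₀ : Subgroup K).map K.subtype, inferInstance, Subgroup.map_subtype_le _,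
    P₀.isPGroup'.map _, ?_⟩
  rw [Subgroup.card_map_of_injective K.subtype_injective]
  exact Sylow.card_eq_multiplicity P₀

end SylowK

end Cfsg.Agent.H19
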