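import Mathlib
import Cfsg.Prelude.Def_OddOrderChar
import Cfsg.Agent.H32.IndIrr
import Cfsg.Agent.S1528
import Cfsg.Agent.S1492
import Cfsg.Agent.H19.CohB
import Cfsg.Agent.H19.CohD

set_option autoImplicit false
set_option linter.style.haveILetI false
set_option linter.unusedSectionVars false

namespace Cfsg.Agent.H19

open Cfsg Cfsg.Agent.H4 Cfsg.Agent.H32

section Many

variable {L : Type*} [Group L] [Fintype L] {G : Type*} [Group G] [Fintype G]

/-- Repeated application of Feit's criterion. -/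
theorem feit_criterion_many (S : Set (L → ℂ)) (hirr : ∀ ξ ∈ S, IsIrrCharacter L ξ)
    (d : (L → ℂ) → ℕ) (hd : ∀ ξ ∈ S, ξ 1 = (d ξ : ℂ))
    (τ : (L → ℂ) → (G → ℂ)) (hτ : IsLinearIsometryOn (zspanOn S {1}ᶜ) τ)
    (hτ1 : ∀ α ∈ zspanOn S {1}ᶜ, τ α 1 = 0)
    (S₀ T : Finset (L → ℂ)) (hS₀ : (↑S₀ : Set (L → ℂ)) ⊆ S) (hT : (↑T : Set (L → ℂ)) ⊆ S)
    (hcoh : IsCoherent (↑S₀ : Set (L → ℂ)) {1}ᶜ τ)
    (hstep : ∀ χ ∈ T, χ ∉ S₀ → ∃ ψ ∈ S₀, d ψ ∣ d χ ∧ 2 * d ψ * d χ < ∑ ξ ∈ S₀, d ξ ^ 2) :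
    IsCoherent (↑(S₀ ∪ T) : Set (L → ℂ)) {1}ᶜ τ := by
  classical
  induction T using Finset.induction_on with
  | empty =>
    rw [Finset.union_empty]
    exact hcoh
  | insert χ T' hχT' ih =>
    have hT' : (↑T' : Set (L → ℂ)) ⊆ S := fun ξ hξ =>
      hT (Finset.mem_coe.mpr (Finset.mem_insert_of_mem (Finset.mem_coe.mp hξ)))
    have ih' := ih hT' (fun ξ hξ hξ0 => hstep ξ (Finset.mem_insert_of_mem hξ) hξ0)
    by_cases hmem : χ ∈ S₀ ∪ T'
    · have e : S₀ ∪ insert χ T' = S₀ ∪ T' := by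
        rw [Finset.union_insert, Finset.insert_eq_of_mem hmem]
      rw [e]
      exact ih'
    · have hχS₀ : χ ∉ S₀ := fun h => hmem (Finset.mem_union_left _ h)
      obtain ⟨ψ, hψ, hdvd, hlt⟩ := hstep χ (Finset.mem_insert_self _ _) hχS₀
      have hsub : (↑(insert χ (S₀ ∪ T')) : Set (L → ℂ)) ⊆ S := by
        intro ξ hξ
        rcases Finset.mem_insert.mp (Finset.mem_coe.mp hξ) with rfl | h
        · exact hT (Finset.mem_coe.mpr (Finset.mem_insert_self _ _))
        · rcases Finset.mem_union.mp h with h | h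
          · exact hS₀ (Finset.mem_coe.mpr h)
          · exact hT' (Finset.mem_coe.mpr h)
      have hres := feit_criterion (S₀ ∪ T') χ
        (fun ξ hξ => hirr ξ (hsub (Finset.mem_coe.mpr (Finset.mem_insert_of_mem hξ))))
        (hirr χ (hsub (Finset.mem_coe.mpr (Finset.mem_insert_self _ _)))) hmem d
        (fun ξ hξ => hd ξ (hsub (Finset.mem_coe.mpr hξ))) τ
        (isLinearIsometryOn_mono hτ (fun f hf => zspanOn_mono hsub hf))
        (fun α hα => hτ1 α (zspanOn_mono hsub hα)) ih' ψ (Finset.mem_union_left _ hψ) hdvd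
        (lt_of_lt_of_le hlt (Finset.sum_le_sum_of_subset Finset.subset_union_left))
      rw [Finset.union_insert]
      exact hres

end Many

section FrobChar

variable {N : Type*} [Group N] [Fintype N] (K : Subgroup N)

/-- The irreducible characters of `N` not having `K` in their kernel. -/
def SKall : Set (N → ℂ) := {χ : N → ℂ | IsIrrCharacter N χ ∧ ∃ h ∈ K, χ h ≠ χ 1}

/-- Those having `A` in their kernel. -/
def SK (A : Subgroup N) : Set (N → ℂ) := {χ | χ ∈ SKall K ∧ ∀ a ∈ A, χ a = χ 1}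

theorem SK_bot : SK K ⊥ = SKall K := by
  ext χ
  constructor
  · exact fun h => h.1
  · intro h
    refine ⟨h, fun a ha => ?_⟩
    rw [Subgroup.mem_bot.mp ha]

theorem SK_subset_all (A : Subgroup N) : SK K A ⊆ SKall K := fun _ h => h.1

theorem SK_anti {A B : Subgroup N} (h : B ≤ A) : SK K A ⊆ SK K B :=
  fun _ hχ => ⟨hχ.1, fun a ha => hχ.2 a (h ha)⟩

theorem SKall_finite : (SKall K).Finite := by
  haveI := fintypeIrr N
  have hfin : Finite (IrrCharacter N) := Finite.of_fintype _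
  have h2 : {χ : N → ℂ | IsIrrCharacter N χ}.Finite := Set.finite_coe_iff.mp hfin
  exact h2.subset (fun χ h => h.1)

theorem SK_finite (A : Subgroup N) : (SK K A).Finite := (SKall_finite K).subset (SK_subset_all K A)

/-- The degree as a natural number. -/
noncomputable def degN (χ : N → ℂ) : ℕ := ⌊(χ 1).re⌋₊

theorem degN_irr {χ : N → ℂ} (h : IsIrrCharacter N χ) : χ 1 = (degN χ : ℂ) ∧ 0 < degN χ := by
  obtain ⟨n, hn, e⟩ := irr_one_eq_natCast (⟨χ, h⟩ : IrrCharacter N)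
  have e' : χ 1 = (n : ℂ) := e
  have h1 : degN χ = n := by
    unfold degN
    rw [e']
    simp
  rw [h1]
  exact ⟨e', hn⟩

theorem SKall_dvd [K.Normal]
    (hC : ∀ k ∈ K, k ≠ 1 → Subgroup.centralizer ({k} : Set N) ≤ K) {χ : N → ℂ}
    (h : χ ∈ SKall K) : K.index ∣ degN χ := by
  obtain ⟨φ, hφ, rfl⟩ := Cfsg.Agent.S1528.result K hC χ h.1 h.2
  obtain ⟨m, hm, e⟩ := irr_one_eq_natCast (⟨φ, hφ⟩ : IrrCharacter K)
  have e' : φ 1 = (m : ℂ) := e
  have h1 : indFun K φ 1 = ((K.index * m : ℕ) : ℂ) := by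
    rw [Cfsg.Agent.H82.indFun_one, e']
    push_cast
    ring
  have h2 : degN (indFun K φ) = K.index * m := by
    unfold degN
    rw [h1, Complex.natCast_re, Nat.floor_natCast]
  rw [h2]
  exact dvd_mul_right _ _

theorem SK_deg_bound [K.Normal] (B D : Subgroup N) [B.Normal] (hBD : B ≤ D) (hDK : D ≤ K)
    (hcent : ∀ d ∈ D, ∀ c ∈ K, d * c * d⁻¹ * c⁻¹ ∈ B) {χ : N → ℂ} (h : χ ∈ SK K B) :
    degN χ ^ 2 * Nat.card D ≤ K.index ^ 2 * Nat.card K := by
  have hirr := h.1.1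
  have h1 := Cfsg.Agent.S1492.result χ hirr B K D hBD hDK
    (fun c _ b hb => (inferInstance : B.Normal).conj_mem b hb c) hcent h.2
  obtain ⟨e1, -⟩ := degN_irr hirr
  rw [e1] at h1
  have h2 : ‖((degN χ : ℕ) : ℂ)‖ = (degN χ : ℝ) := by simp
  rw [h2] at h1
  have hN : (Nat.card N : ℝ) = (K.index : ℝ) * (Nat.card K : ℝ) := by
    rw [← Nat.cast_mul, mul_comm, Subgroup.card_mul_index]
  rw [hN] at h1
  have hKpos : (0 : ℝ) < Nat.card K := by exact_mod_cast Nat.card_pos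
  have h3 : ((degN χ : ℝ) ^ 2 * Nat.card D) * Nat.card K ≤
      ((K.index : ℝ) ^ 2 * Nat.card K) * Nat.card K := by nlinarith [h1]
  have h4 := le_of_mul_le_mul_right h3 hKpos
  exact_mod_cast h4

attribute [local instance] Cfsg.Agent.H4.fintypeIrr in
theorem SK_sum_sq [K.Normal] (A : Subgroup N) [A.Normal] (hAK : A ≤ K) :
    Nat.card A * ∑ ξ ∈ (SK_finite K A).toFinset, degN ξ ^ 2 =
      K.index * (Nat.card K - Nat.card A) := by
  classical
  obtain ⟨s, hs⟩ : ∃ s : Finset (IrrCharacter N), s = Finset.univ.filter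
      (fun θ : IrrCharacter N => ∀ x ∈ A, θ.1 x = θ.1 1) := ⟨_, rfl⟩
  obtain ⟨t, ht⟩ : ∃ t : Finset (IrrCharacter N), t = Finset.univ.filter
      (fun θ : IrrCharacter N => ∀ x ∈ K, θ.1 x = θ.1 1) := ⟨_, rfl⟩
  have hsA := sum_sq_kernel A s (fun θ => by rw [hs]; simp)
  have htK := sum_sq_kernel K t (fun θ => by rw [ht]; simp)
  have hts : t ⊆ s := by
    intro θ hθ
    rw [hs, Finset.mem_filter]
    rw [ht, Finset.mem_filter] at hθ
    exact ⟨Finset.mem_univ _, fun x hx => hθ.2 x (hAK hx)⟩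
  have hsd := Finset.sum_sdiff hts (f := fun θ : IrrCharacter N => (θ.1 1) ^ 2)
  have himg : (SK_finite K A).toFinset = (s \ t).map ⟨Subtype.val, Subtype.val_injective⟩ := by
    ext ξ
    rw [Set.Finite.mem_toFinset, Finset.mem_map]
    constructor
    · rintro ⟨⟨hirr, k, hk, hne⟩, hA⟩
      refine ⟨⟨ξ, hirr⟩, ?_, rfl⟩
      rw [Finset.mem_sdiff, hs, ht, Finset.mem_filter, Finset.mem_filter]
      exact ⟨⟨Finset.mem_univ _, hA⟩, fun h => hne (h.2 k hk)⟩
    · rintro ⟨θ, hθ, rfl⟩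
      rw [Finset.mem_sdiff, hs, ht, Finset.mem_filter, Finset.mem_filter] at hθ
      have h2 : ¬ ∀ x ∈ K, θ.1 x = θ.1 1 := fun h => hθ.2 ⟨Finset.mem_univ _, h⟩
      push Not at h2
      obtain ⟨k, hk, hne⟩ := h2
      exact ⟨⟨θ.2, k, hk, hne⟩, hθ.1.2⟩
  rw [himg, Finset.sum_map]
  simp only [Function.Embedding.coeFn_mk]
  have hCx : ((∑ θ ∈ s \ t, degN (θ : N → ℂ) ^ 2 : ℕ) : ℂ) + (K.index : ℂ) = (A.index : ℂ) := by
    rw [← hsA, ← htK, ← hsd]
    push_cast
    congr 1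
    apply Finset.sum_congr rfl
    intro θ _
    rw [← (degN_irr θ.2).1]
  have hNat : (∑ θ ∈ s \ t, degN (θ : N → ℂ) ^ 2) + K.index = A.index := by exact_mod_cast hCx
  have h1 : Nat.card A * A.index = Nat.card N := Subgroup.card_mul_index A
  have h2 : Nat.card K * K.index = Nat.card N := Subgroup.card_mul_index K
  have h3 : Nat.card A * (∑ θ ∈ s \ t, degN (θ : N → ℂ) ^ 2) + Nat.card A * K.index =
      K.index * Nat.card K := by
    rw [← Nat.mul_add, hNat, h1, ← h2, mul_comm]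
  have h4 : K.index * Nat.card A = Nat.card A * K.index := mul_comm _ _
  rw [Nat.mul_sub, ← h3, h4, Nat.add_sub_cancel]

/-- The base of the induction: the characters in `S` with the derived subgroup of `K` in their
kernel all have degree `e`, and form a coherent set unless `[K : K'] = e + 1`. -/
theorem coh_base [K.Normal] {G : Type*} [Group G] [Fintype G]
    (hC : ∀ k ∈ K, k ≠ 1 → Subgroup.centralizer ({k} : Set N) ≤ K)
    (τ : (N → ℂ) → (G → ℂ)) (hτ : IsLinearIsometryOn (zspanOn (SKall K) {1}ᶜ) τ)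
    (hτ1 : ∀ α ∈ zspanOn (SKall K) {1}ᶜ, τ α 1 = 0)
    (hlt : Nat.card (⁅K, K⁆ : Subgroup N) < Nat.card K)
    (hne : Nat.card K ≠ (K.index + 1) * Nat.card (⁅K, K⁆ : Subgroup N)) :
    IsCoherent (SK K ⁅K, K⁆) {1}ᶜ τ ∧ (∀ ξ ∈ SK K ⁅K, K⁆, degN ξ = K.index) ∧
      (SK K ⁅K, K⁆).Nonempty := by
  classical
  have he0 : 0 < K.index := Nat.pos_of_ne_zero (Subgroup.index_ne_zero_of_finite)
  have hdeg : ∀ ξ ∈ SK K ⁅K, K⁆, degN ξ = K.index := by
    intro ξ hξ
    have h1 := SK_deg_bound K ⁅K, K⁆ K (Subgroup.commutator_le_left K K) le_rfl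
      (fun d hd c hc => Subgroup.commutator_mem_commutator hd hc) hξ
    have h2 := SKall_dvd K hC hξ.1
    have h3 := (degN_irr hξ.1.1).2
    have hKpos : 0 < Nat.card K := Nat.card_pos
    have h4 : degN ξ ^ 2 ≤ K.index ^ 2 := Nat.le_of_mul_le_mul_right h1 hKpos
    have h5 : degN ξ ≤ K.index := by
      by_contra hcon
      push Not at hcon
      have := Nat.pow_lt_pow_left hcon (n := 2) (by norm_num)
      omega
    exact le_antisymm h5 (Nat.le_of_dvd h3 h2)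
  have hsum := SK_sum_sq K ⁅K, K⁆ (Subgroup.commutator_le_left K K)
  have hsum2 : ∑ ξ ∈ (SK_finite K ⁅K, K⁆).toFinset, degN ξ ^ 2 =
      (SK_finite K ⁅K, K⁆).toFinset.card * K.index ^ 2 := by
    rw [Finset.sum_congr rfl (fun ξ hξ => by
      rw [hdeg ξ ((Set.Finite.mem_toFinset _).mp hξ)]), Finset.sum_const, smul_eq_mul]
  rw [hsum2] at hsum
  have hcard2 : 1 < (SK_finite K ⁅K, K⁆).toFinset.card := by
    by_contra hcon
    push Not at hcon
    have hposD : 0 < Nat.card (⁅K, K⁆ : Subgroup N) := Nat.card_pos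
    rcases Nat.le_one_iff_eq_zero_or_eq_one.mp hcon with h | h
    · rw [h] at hsum
      simp only [zero_mul, mul_zero] at hsum
      rcases Nat.eq_zero_or_pos (Nat.card K - Nat.card (⁅K, K⁆ : Subgroup N)) with h0 | h0
      · omega
      · have := Nat.mul_pos he0 h0
        omega
    · rw [h, one_mul] at hsum
      have h6 : K.index * (Nat.card (⁅K, K⁆ : Subgroup N) * K.index) =
          K.index * (Nat.card K - Nat.card (⁅K, K⁆ : Subgroup N)) := by
        rw [← hsum]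
        ring
      have h7 := Nat.eq_of_mul_eq_mul_left he0 h6
      apply hne
      have : Nat.card K = Nat.card (⁅K, K⁆ : Subgroup N) * K.index +
          Nat.card (⁅K, K⁆ : Subgroup N) := by omega
      rw [this]
      ring
  obtain ⟨χ₁, hχ₁, χ₂, hχ₂, hne12⟩ := Finset.one_lt_card.mp hcard2
  rw [Set.Finite.mem_toFinset] at hχ₁ hχ₂
  refine ⟨?_, hdeg, ⟨χ₁, hχ₁⟩⟩
  exact coh_equal_degree (SK K ⁅K, K⁆) (fun ξ hξ => hξ.1.1) K.index
    (fun ξ hξ => by rw [(degN_irr hξ.1.1).1, hdeg ξ hξ]) ⟨χ₁, hχ₁, χ₂, hχ₂, hne12⟩ τ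
    (isLinearIsometryOn_mono hτ (fun f hf => zspanOn_mono (SK_subset_all K _) hf))
    (fun α hα => hτ1 α (zspanOn_mono (SK_subset_all K _) hα))

/-- The inductive step. -/
theorem coh_step [K.Normal] {G : Type*} [Group G] [Fintype G]
    (hC : ∀ k ∈ K, k ≠ 1 → Subgroup.centralizer ({k} : Set N) ≤ K)
    (τ : (N → ℂ) → (G → ℂ)) (hτ : IsLinearIsometryOn (zspanOn (SKall K) {1}ᶜ) τ)
    (hτ1 : ∀ α ∈ zspanOn (SKall K) {1}ᶜ, τ α 1 = 0)
    (A B D : Subgroup N) [A.Normal] [B.Normal] (hBA : B ≤ A) (hAK : A ≤ K) (hBD : B ≤ D)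
    (hDK : D ≤ K) (hcent : ∀ d ∈ D, ∀ c ∈ K, d * c * d⁻¹ * c⁻¹ ∈ B)
    (hcoh : IsCoherent (SK K A) {1}ᶜ τ)
    (ψ : N → ℂ) (hψ : ψ ∈ SK K A) (hψd : degN ψ = K.index)
    (hineq : 4 * K.index ^ 2 * Nat.card K * Nat.card A ^ 2 <
      Nat.card D * (Nat.card K - Nat.card A) ^ 2) :
    IsCoherent (SK K B) {1}ᶜ τ := by
  classical
  have he0 : 0 < K.index := Nat.pos_of_ne_zero (Subgroup.index_ne_zero_of_finite)
  have hAB : SK K A ⊆ SK K B := SK_anti K hBA
  have hcoe : (↑((SK_finite K A).toFinset ∪ (SK_finite K B).toFinset) : Set (N → ℂ)) = SK K B := by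
    ext ξ
    rw [Finset.mem_coe, Finset.mem_union, Set.Finite.mem_toFinset, Set.Finite.mem_toFinset]
    constructor
    · rintro (h | h)
      · exact hAB h
      · exact h
    · exact fun h => Or.inr h
  rw [← hcoe]
  apply feit_criterion_many (SKall K) (fun ξ hξ => hξ.1) degN (fun ξ hξ => (degN_irr hξ.1).1) τ hτ
    hτ1
  · intro ξ hξ
    exact ((Set.Finite.mem_toFinset _).mp (Finset.mem_coe.mp hξ)).1
  · intro ξ hξ
    exact ((Set.Finite.mem_toFinset _).mp (Finset.mem_coe.mp hξ)).1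
  · rw [Set.Finite.coe_toFinset]
    exact hcoh
  · intro χ hχ hχ0
    rw [Set.Finite.mem_toFinset] at hχ
    refine ⟨ψ, (Set.Finite.mem_toFinset _).mpr hψ, ?_, ?_⟩
    · rw [hψd]
      exact SKall_dvd K hC hχ.1
    · rw [hψd]
      have hE5 := SK_sum_sq K A hAK
      have hE4 := SK_deg_bound K B D hBD hDK hcent hχ
      by_contra hcon
      push Not at hcon
      have hAB' : (4 * K.index ^ 2 * Nat.card K * Nat.card A ^ 2 : ℕ) <
          Nat.card D * (Nat.card K - Nat.card A) ^ 2 := hineq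
      generalize Nat.card K - Nat.card A = m at hE5 hAB'
      generalize ∑ ξ ∈ (SK_finite K A).toFinset, degN ξ ^ 2 = sm at hE5 hcon
      have h1 : K.index * m ≤ K.index * (2 * degN χ * Nat.card A) := by
        rw [← hE5]
        calc Nat.card A * sm ≤ Nat.card A * (2 * K.index * degN χ) := Nat.mul_le_mul_left _ hcon
          _ = K.index * (2 * degN χ * Nat.card A) := by ring
      have h2 : m ≤ 2 * degN χ * Nat.card A := Nat.le_of_mul_le_mul_left h1 he0
      have h3 : m ^ 2 ≤ (2 * degN χ * Nat.card A) ^ 2 := Nat.pow_le_pow_left h2 2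
      have h4 : Nat.card D * m ^ 2 ≤ Nat.card D * (2 * degN χ * Nat.card A) ^ 2 :=
        Nat.mul_le_mul_left _ h3
      have h5 : Nat.card D * (2 * degN χ * Nat.card A) ^ 2 =
          4 * Nat.card A ^ 2 * (degN χ ^ 2 * Nat.card D) := by ring
      have h6 : 4 * Nat.card A ^ 2 * (degN χ ^ 2 * Nat.card D) ≤
          4 * Nat.card A ^ 2 * (K.index ^ 2 * Nat.card K) := Nat.mul_le_mul_left _ hE4
      have h7 : 4 * Nat.card A ^ 2 * (K.index ^ 2 * Nat.card K) =
          4 * K.index ^ 2 * Nat.card K * Nat.card A ^ 2 := by ring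
      omega

end FrobChar

end Cfsg.Agent.H19
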