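import Mathlib
import Cfsg.Prelude.Def_OddOrderChar
import Cfsg.Agent.H19.CohE

set_option autoImplicit false
set_option linter.style.haveILetI false
set_option linter.unusedSectionVars false

namespace Cfsg.Agent.H19

open Cfsg Cfsg.Agent.H4 Cfsg.Agent.H32

open scoped commutatorElement

theorem arith_plain (e r' : ℕ) (h : 4 * e ^ 2 + 1 ≤ r') : 4 * e ^ 2 * (r' + 1) < r' ^ 2 := by
  nlinarith [Nat.mul_le_mul_right r' h]

theorem arith_st1 (e y w : ℕ) (he : 1 ≤ e) (hy : e + 1 ≤ y) (hw : e * (y + 1) ≤ w) :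
    4 * e ^ 2 * y < w ^ 2 := by
  have k1 : 4 * y < (y + 1) ^ 2 := by nlinarith
  have k2 : 4 * e ^ 2 * y < (e * (y + 1)) ^ 2 := by
    have h1 : e ^ 2 * (4 * y) < e ^ 2 * (y + 1) ^ 2 := Nat.mul_lt_mul_of_pos_left k1 (by positivity)
    nlinarith
  exact lt_of_lt_of_le k2 (Nat.pow_le_pow_left hw 2)

theorem arith_st2 (e x t' : ℕ) (he : 1 ≤ e) (hx : e + 1 ≤ x) (ht : e ^ 2 + 2 * e ≤ t') :
    4 * e ^ 2 * (t' + 1) < x * t' ^ 2 := by
  have h1 : (e ^ 2 + 2 * e) * t' ≤ t' ^ 2 := by nlinarith [Nat.mul_le_mul_right t' ht]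
  have h2 : (e + 1) * t' ^ 2 ≤ x * t' ^ 2 := Nat.mul_le_mul_right _ hx
  have h3 : (e + 1) * ((e ^ 2 + 2 * e) * t') ≤ (e + 1) * t' ^ 2 := Nat.mul_le_mul_left _ h1
  have h4 : e ^ 2 ≤ e ^ 3 := by nlinarith [Nat.pow_le_pow_left he 2]
  have h5 : 2 * e * (e ^ 2 + 2 * e) ≤ 2 * e * t' := Nat.mul_le_mul_left _ ht
  have h6 : e ^ 2 * t' ≤ e ^ 3 * t' := Nat.mul_le_mul_right _ h4
  nlinarith [Nat.pow_le_pow_left he 2, Nat.pow_le_pow_left he 3]

section Chains

variable {N : Type*} [Group N] [Fintype N] {G : Type*} [Group G] [Fintype G]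
  (K : Subgroup N) [K.Normal]

/-- Abelian kernel. -/
theorem coh_abelian (hC : ∀ k ∈ K, k ≠ 1 → Subgroup.centralizer ({k} : Set N) ≤ K)
    (τ : (N → ℂ) → (G → ℂ)) (hτ : IsLinearIsometryOn (zspanOn (SKall K) {1}ᶜ) τ)
    (hτ1 : ∀ α ∈ zspanOn (SKall K) {1}ᶜ, τ α 1 = 0)
    (hK1 : K ≠ ⊥) (hab : (⁅K, K⁆ : Subgroup N) = ⊥) (he : Nat.card K ≠ K.index + 1) :
    IsCoherent (SKall K) {1}ᶜ τ := by
  have h := coh_base K hC τ hτ hτ1
    (by rw [hab, Subgroup.card_bot]; exact (Subgroup.one_lt_card_iff_ne_bot K).mpr hK1)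
    (by rw [hab, Subgroup.card_bot, mul_one]; exact he)
  have h1 := h.1
  rw [hab, SK_bot] at h1
  exact h1

/-- Kernel with large abelianization. -/
theorem coh_plain (hC : ∀ k ∈ K, k ≠ 1 → Subgroup.centralizer ({k} : Set N) ≤ K)
    (τ : (N → ℂ) → (G → ℂ)) (hτ : IsLinearIsometryOn (zspanOn (SKall K) {1}ᶜ) τ)
    (hτ1 : ∀ α ∈ zspanOn (SKall K) {1}ᶜ, τ α 1 = 0)
    (hK1 : K ≠ ⊥) (hK2 : K ≠ ⊤)
    (hbig : (4 * K.index ^ 2 + 1) * Nat.card (⁅K, K⁆ : Subgroup N) < Nat.card K) :
    IsCoherent (SKall K) {1}ᶜ τ := by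
  classical
  haveI hnilK := frobK_nilpotent K hC hK1 hK2
  obtain ⟨n, hn⟩ := cser_self_eq_bot K
  have he0 : 0 < K.index := Nat.pos_of_ne_zero Subgroup.index_ne_zero_of_finite
  have hposΓ : 0 < Nat.card (⁅K, K⁆ : Subgroup N) := Nat.card_pos
  have hlt : Nat.card (⁅K, K⁆ : Subgroup N) < Nat.card K := by nlinarith
  have hne : Nat.card K ≠ (K.index + 1) * Nat.card (⁅K, K⁆ : Subgroup N) := by
    intro h
    rw [h] at hbig
    have h2 : K.index + 1 ≤ 4 * K.index ^ 2 + 1 := by nlinarith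
    have := Nat.mul_le_mul_right (Nat.card (⁅K, K⁆ : Subgroup N)) h2
    omega
  obtain ⟨hb, hdeg, ψ, hψ⟩ := coh_base K hC τ hτ hτ1 hlt hne
  have key : ∀ i, 1 ≤ i → IsCoherent (SK K (cser K K i)) {1}ᶜ τ := by
    intro i hi
    induction i, hi using Nat.le_induction with
    | base => exact hb
    | succ i hi ih =>
      haveI := cser_normal K K i
      haveI := cser_normal K K (i + 1)
      have hAK := cser_le_left K K i
      have hA1 : cser K K i ≤ ⁅K, K⁆ := cser_antitone K K hi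
      obtain ⟨r, hr⟩ := Subgroup.card_dvd_of_le hAK
      apply coh_step K hC τ hτ hτ1 (cser K K i) (cser K K (i + 1)) (cser K K i)
        (cser_succ_le K K i) hAK (cser_succ_le K K i) hAK
        (fun d hd c hc => cser_comm_mem K K i hd hc) ih ψ (SK_anti K hA1 hψ) (hdeg ψ hψ)
      have hposA : 0 < Nat.card (cser K K i) := Nat.card_pos
      have hA1c : Nat.card (cser K K i) ≤ Nat.card (⁅K, K⁆ : Subgroup N) :=
        Subgroup.card_le_of_le hA1
      have hr2 : 4 * K.index ^ 2 + 2 ≤ r := by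
        by_contra hcon
        push Not at hcon
        have h1 : r ≤ 4 * K.index ^ 2 + 1 := by omega
        have h2 : Nat.card K ≤ (4 * K.index ^ 2 + 1) * Nat.card (⁅K, K⁆ : Subgroup N) := by
          rw [hr]
          calc Nat.card (cser K K i) * r ≤ Nat.card (⁅K, K⁆ : Subgroup N) * (4 * K.index ^ 2 + 1) :=
                Nat.mul_le_mul hA1c h1
            _ = (4 * K.index ^ 2 + 1) * Nat.card (⁅K, K⁆ : Subgroup N) := mul_comm _ _
        omega
      obtain ⟨r', rfl⟩ : ∃ r', r = r' + 1 := ⟨r - 1, by omega⟩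
      rw [hr]
      have e1 : Nat.card (cser K K i) * (r' + 1) - Nat.card (cser K K i) =
          Nat.card (cser K K i) * r' := by
        rw [Nat.mul_succ, Nat.add_sub_cancel]
      rw [e1]
      have hkey := arith_plain K.index r' (by omega)
      calc 4 * K.index ^ 2 * (Nat.card (cser K K i) * (r' + 1)) * Nat.card (cser K K i) ^ 2
          = Nat.card (cser K K i) ^ 3 * (4 * K.index ^ 2 * (r' + 1)) := by ring
        _ < Nat.card (cser K K i) ^ 3 * r' ^ 2 := Nat.mul_lt_mul_of_pos_left hkey (by positivity)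
        _ = Nat.card (cser K K i) * (Nat.card (cser K K i) * r') ^ 2 := by ring
  have hn1 : 1 ≤ n := by
    rcases Nat.eq_zero_or_pos n with h | h
    · rw [h] at hn
      exact absurd hn hK1
    · exact h
  have h := key n hn1
  rw [hn, SK_bot] at h
  exact h

/-- Kernel which is not of prime power order: data `P` (a proper normal subgroup not inside the
derived subgroup) and `Z` (a nontrivial central normal subgroup meeting `P` trivially). -/
theorem coh_nonp (hC : ∀ k ∈ K, k ≠ 1 → Subgroup.centralizer ({k} : Set N) ≤ K)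
    (τ : (N → ℂ) → (G → ℂ)) (hτ : IsLinearIsometryOn (zspanOn (SKall K) {1}ᶜ) τ)
    (hτ1 : ∀ α ∈ zspanOn (SKall K) {1}ᶜ, τ α 1 = 0)
    (hK1 : K ≠ ⊥) (hK2 : K ≠ ⊤)
    (P Z : Subgroup N) [P.Normal] [Z.Normal] (hPK : P ≤ K) (hPne : P ≠ K)
    (hPd : ¬ P ≤ ⁅K, K⁆) (hZK : Z ≤ K) (hZ : Z ≠ ⊥) (hZc : (⁅Z, K⁆ : Subgroup N) = ⊥)
    (hZP : Z ⊓ P = ⊥) :
    IsCoherent (SKall K) {1}ᶜ τ := by
  classical
  haveI hnilK := frobK_nilpotent K hC hK1 hK2
  have hnil := cser_self_eq_bot K
  have he0 : 0 < K.index := Nat.pos_of_ne_zero Subgroup.index_ne_zero_of_finite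
  have hc : P ⊔ ⁅K, K⁆ ≠ K := sup_comm_ne_of_nilpotent K hnil P hPK hPne
  have hΓ1K : (⁅K, K⁆ : Subgroup N) ≤ K := Subgroup.commutator_le_left K K
  have hPΓ : P ⊔ ⁅K, K⁆ ≤ K := sup_le hPK hΓ1K
  have hlt1 : (⁅K, K⁆ : Subgroup N) < P ⊔ ⁅K, K⁆ :=
    lt_of_le_of_ne le_sup_right (fun h => hPd (by rw [h]; exact le_sup_left))
  have hlt2 : P ⊔ ⁅K, K⁆ < K := lt_of_le_of_ne hPΓ hc
  have hc1 := frobK_card_le K hC ⁅K, K⁆ (P ⊔ ⁅K, K⁆) hlt1 hPΓ
  have hc2 := frobK_card_le K hC (P ⊔ ⁅K, K⁆) K hlt2 le_rfl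
  have hposΓ : 0 < Nat.card (⁅K, K⁆ : Subgroup N) := Nat.card_pos
  have hlt : Nat.card (⁅K, K⁆ : Subgroup N) < Nat.card K := by nlinarith
  have hne : Nat.card K ≠ (K.index + 1) * Nat.card (⁅K, K⁆ : Subgroup N) := by
    intro h
    have h3 : (K.index + 1) * ((K.index + 1) * Nat.card (⁅K, K⁆ : Subgroup N)) ≤ Nat.card K :=
      (Nat.mul_le_mul_left _ hc1).trans hc2
    rw [h] at h3
    have h4 : 1 * ((K.index + 1) * Nat.card (⁅K, K⁆ : Subgroup N)) <
        (K.index + 1) * ((K.index + 1) * Nat.card (⁅K, K⁆ : Subgroup N)) :=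
      Nat.mul_lt_mul_of_pos_right (by omega) (by positivity)
    omega
  obtain ⟨hb, hdeg, ψ, hψ⟩ := coh_base K hC τ hτ hτ1 hlt hne
  have hMP : (⁅P, K⁆ : Subgroup N) ≤ P := Subgroup.commutator_le_left P K
  have hMΓ : (⁅P, K⁆ : Subgroup N) ≤ ⁅K, K⁆ := Subgroup.commutator_mono hPK le_rfl
  obtain ⟨n, hn⟩ := hnil
  have hn1 : 1 ≤ n := by
    rcases Nat.eq_zero_or_pos n with h | h
    · rw [h] at hn
      exact absurd hn hK1
    · exact h
  -- stage 1
  have st1 : ∀ i, 1 ≤ i → IsCoherent (SK K (⁅P, K⁆ ⊔ cser K K i)) {1}ᶜ τ := by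
    intro i hi
    induction i, hi using Nat.le_induction with
    | base =>
      have e : (⁅P, K⁆ ⊔ cser K K 1 : Subgroup N) = ⁅K, K⁆ := sup_eq_right.mpr hMΓ
      rw [e]
      exact hb
    | succ i hi ih =>
      haveI := cser_normal K K i
      haveI := cser_normal K K (i + 1)
      have hΓi1 : cser K K i ≤ ⁅K, K⁆ := cser_antitone K K hi
      have hΓiK : cser K K i ≤ K := cser_le_left K K i
      have hA1 : (⁅P, K⁆ ⊔ cser K K i : Subgroup N) ≤ ⁅K, K⁆ := sup_le hMΓ hΓi1
      have hAD : (⁅P, K⁆ ⊔ cser K K i : Subgroup N) ≤ P ⊔ cser K K i := sup_le_sup_right hMP _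
      have hDK : (P ⊔ cser K K i : Subgroup N) ≤ K := sup_le hPK hΓiK
      have hADlt : (⁅P, K⁆ ⊔ cser K K i : Subgroup N) < P ⊔ cser K K i :=
        lt_of_le_of_ne hAD (fun h => hPd (le_trans (by rw [h]; exact le_sup_left) hA1))
      have hDKlt : (P ⊔ cser K K i : Subgroup N) < K := by
        refine lt_of_le_of_ne hDK (fun h => hc (le_antisymm hPΓ ?_))
        calc K = P ⊔ cser K K i := h.symm
          _ ≤ P ⊔ ⁅K, K⁆ := sup_le_sup_left hΓi1 _
      have hx := frobK_card_le K hC _ _ hADlt hDK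
      have hy := frobK_card_le K hC _ K hDKlt le_rfl
      obtain ⟨x, hx'⟩ := Subgroup.card_dvd_of_le hAD
      obtain ⟨y, hy'⟩ := Subgroup.card_dvd_of_le hDK
      apply coh_step K hC τ hτ hτ1 (⁅P, K⁆ ⊔ cser K K i) (⁅P, K⁆ ⊔ cser K K (i + 1))
        (P ⊔ cser K K i) (sup_le_sup_left (cser_succ_le K K i) _) (hA1.trans hΓ1K)
        (sup_le_sup hMP (cser_succ_le K K i)) hDK ?_ ih ψ (SK_anti K hA1 hψ) (hdeg ψ hψ) ?_
      · intro d hd c hc'
        have h1 : ⁅d, c⁆ ∈ ⁅P ⊔ cser K K i, K⁆ := Subgroup.commutator_mem_commutator hd hc'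
        exact comm_sup_le P (cser K K i) K h1
      · have hposA : 0 < Nat.card (⁅P, K⁆ ⊔ cser K K i : Subgroup N) := Nat.card_pos
        have hposD : 0 < Nat.card (P ⊔ cser K K i : Subgroup N) := Nat.card_pos
        rw [hx'] at hx hy' hposD
        have hposx : 0 < x := by
          rcases Nat.eq_zero_or_pos x with h | h
          · rw [h, mul_zero] at hposD
            omega
          · exact h
        rw [hy', hx'] at hy
        have hx1 : K.index + 1 ≤ x := by
          have h1 : Nat.card (⁅P, K⁆ ⊔ cser K K i : Subgroup N) * (K.index + 1) ≤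
              Nat.card (⁅P, K⁆ ⊔ cser K K i : Subgroup N) * x := by rw [mul_comm]; exact hx
          exact Nat.le_of_mul_le_mul_left h1 hposA
        have hy1 : K.index + 1 ≤ y := by
          have h1 : Nat.card (⁅P, K⁆ ⊔ cser K K i : Subgroup N) * x * (K.index + 1) ≤
              Nat.card (⁅P, K⁆ ⊔ cser K K i : Subgroup N) * x * y := by rw [mul_comm]; exact hy
          exact Nat.le_of_mul_le_mul_left h1 (Nat.mul_pos hposA hposx)
        rw [hy', hx']
        obtain ⟨w, hw⟩ : ∃ w, x * y = w + 1 := by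
          have : 0 < x * y := Nat.mul_pos hposx (by omega)
          exact ⟨x * y - 1, by omega⟩
        have hw2 : K.index * (y + 1) ≤ w := by
          have h1 : (K.index + 1) * y ≤ x * y := Nat.mul_le_mul_right _ hx1
          have h2 : (K.index + 1) * y = K.index * y + y := by ring
          have h3 : K.index * (y + 1) = K.index * y + K.index := by ring
          omega
        have e1 : Nat.card (⁅P, K⁆ ⊔ cser K K i : Subgroup N) * x * y -
            Nat.card (⁅P, K⁆ ⊔ cser K K i : Subgroup N) =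
            Nat.card (⁅P, K⁆ ⊔ cser K K i : Subgroup N) * w := by
          rw [mul_assoc, hw, Nat.mul_succ, Nat.add_sub_cancel]
        rw [e1]
        have hkey := arith_st1 K.index y w he0 hy1 hw2
        calc 4 * K.index ^ 2 * (Nat.card (⁅P, K⁆ ⊔ cser K K i : Subgroup N) * x * y) *
              Nat.card (⁅P, K⁆ ⊔ cser K K i : Subgroup N) ^ 2
            = Nat.card (⁅P, K⁆ ⊔ cser K K i : Subgroup N) ^ 3 * x * (4 * K.index ^ 2 * y) := by
              ring
          _ < Nat.card (⁅P, K⁆ ⊔ cser K K i : Subgroup N) ^ 3 * x * w ^ 2 :=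
              Nat.mul_lt_mul_of_pos_left hkey (by positivity)
          _ = Nat.card (⁅P, K⁆ ⊔ cser K K i : Subgroup N) * x *
              (Nat.card (⁅P, K⁆ ⊔ cser K K i : Subgroup N) * w) ^ 2 := by ring
  have hst1 : IsCoherent (SK K (⁅P, K⁆ : Subgroup N)) {1}ᶜ τ := by
    have h := st1 n hn1
    rw [hn, sup_bot_eq] at h
    exact h
  -- stage 2
  have hPbot : P ≠ ⊥ := fun h => hPd (by rw [h]; exact bot_le)
  have hMlt : (⁅P, K⁆ : Subgroup N) < P := comm_lt_of_nilpotent K ⟨n, hn⟩ P hPK hPbot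
  have hPlt : P < K := lt_of_le_of_ne hPK hPne
  have hcM := frobK_card_le K hC ⁅P, K⁆ P hMlt hPK
  have hcP := frobK_card_le K hC P K hPlt le_rfl
  have st2 : ∀ i, 1 ≤ i → IsCoherent (SK K (cser P K i)) {1}ᶜ τ := by
    intro i hi
    induction i, hi using Nat.le_induction with
    | base => exact hst1
    | succ i hi ih =>
      haveI := cser_normal P K i
      haveI := cser_normal P K (i + 1)
      have hPiM : cser P K i ≤ ⁅P, K⁆ := cser_antitone P K hi
      have hPiP : cser P K i ≤ P := cser_le_left P K i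
      have hPiK : cser P K i ≤ K := hPiP.trans hPK
      have hPiΓ : cser P K i ≤ ⁅K, K⁆ := hPiM.trans hMΓ
      have hAD : cser P K i ≤ cser P K i ⊔ Z := le_sup_left
      have hDK : cser P K i ⊔ Z ≤ K := sup_le hPiK hZK
      have hADlt : cser P K i < cser P K i ⊔ Z := by
        refine lt_of_le_of_ne hAD (fun h => hZ ?_)
        have h1 : Z ≤ cser P K i := by rw [h]; exact le_sup_right
        have h2 : Z ≤ Z ⊓ P := le_inf le_rfl (h1.trans hPiP)
        rw [hZP] at h2
        exact le_bot_iff.mp h2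
      have hx := frobK_card_le K hC _ _ hADlt hDK
      obtain ⟨x, hx'⟩ := Subgroup.card_dvd_of_le hAD
      obtain ⟨t, ht'⟩ := Subgroup.card_dvd_of_le hPiK
      apply coh_step K hC τ hτ hτ1 (cser P K i) (cser P K (i + 1)) (cser P K i ⊔ Z)
        (cser_succ_le P K i) hPiK ((cser_succ_le P K i).trans hAD) hDK ?_ ih ψ
        (SK_anti K hPiΓ hψ) (hdeg ψ hψ) ?_
      · intro d hd c hc'
        have h1 : ⁅d, c⁆ ∈ ⁅cser P K i ⊔ Z, K⁆ := Subgroup.commutator_mem_commutator hd hc'
        have h2 := comm_sup_le (cser P K i) Z K h1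
        rw [hZc, sup_bot_eq] at h2
        exact h2
      · have hposA : 0 < Nat.card (cser P K i) := Nat.card_pos
        have hAM : Nat.card (cser P K i) ≤ Nat.card (⁅P, K⁆ : Subgroup N) :=
          Subgroup.card_le_of_le hPiM
        rw [hx'] at hx
        have hx1 : K.index + 1 ≤ x := by
          have h1 : Nat.card (cser P K i) * (K.index + 1) ≤ Nat.card (cser P K i) * x := by
            rw [mul_comm]; exact hx
          exact Nat.le_of_mul_le_mul_left h1 hposA
        have ht1 : (K.index + 1) * (K.index + 1) ≤ t := by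
          have h1 : (K.index + 1) * ((K.index + 1) * Nat.card (cser P K i)) ≤ Nat.card K :=
            ((Nat.mul_le_mul_left _ ((Nat.mul_le_mul_left _ hAM).trans hcM))).trans hcP
          rw [ht'] at h1
          have h2 : Nat.card (cser P K i) * ((K.index + 1) * (K.index + 1)) ≤
              Nat.card (cser P K i) * t := by
            calc Nat.card (cser P K i) * ((K.index + 1) * (K.index + 1))
                = (K.index + 1) * ((K.index + 1) * Nat.card (cser P K i)) := by ring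
              _ ≤ Nat.card (cser P K i) * t := h1
          exact Nat.le_of_mul_le_mul_left h2 hposA
        obtain ⟨t', rfl⟩ : ∃ t', t = t' + 1 := ⟨t - 1, by
          have : 1 ≤ (K.index + 1) * (K.index + 1) := Nat.mul_pos (by omega) (by omega)
          omega⟩
        have ht2 : K.index ^ 2 + 2 * K.index ≤ t' := by
          have : (K.index + 1) * (K.index + 1) = K.index ^ 2 + 2 * K.index + 1 := by ring
          omega
        rw [ht', hx']
        have e1 : Nat.card (cser P K i) * (t' + 1) - Nat.card (cser P K i) =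
            Nat.card (cser P K i) * t' := by
          rw [Nat.mul_succ, Nat.add_sub_cancel]
        rw [e1]
        have hkey := arith_st2 K.index x t' he0 hx1 ht2
        calc 4 * K.index ^ 2 * (Nat.card (cser P K i) * (t' + 1)) * Nat.card (cser P K i) ^ 2
            = Nat.card (cser P K i) ^ 3 * (4 * K.index ^ 2 * (t' + 1)) := by ring
          _ < Nat.card (cser P K i) ^ 3 * (x * t' ^ 2) :=
              Nat.mul_lt_mul_of_pos_left hkey (by positivity)
          _ = Nat.card (cser P K i) * x * (Nat.card (cser P K i) * t') ^ 2 := by ring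
  have h := st2 n hn1
  have hPin : cser P K n = ⊥ := le_bot_iff.mp ((cser_mono K hPK n).trans hn.le)
  rw [hPin, SK_bot] at h
  exact h

end Chains

end Cfsg.Agent.H19
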