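import Mathlib
import Cfsg.Prelude.Def_OddOrderChar
import Cfsg.Agent.H19.CohF

set_option autoImplicit false
set_option linter.style.haveILetI false
set_option linter.unusedSectionVars false

namespace Cfsg.Agent.H19

open Cfsg Cfsg.Agent.H4 Cfsg.Agent.H32

open scoped commutatorElement

section TwoExc

variable {N : Type*} [Group N] [Fintype N] (K : Subgroup N) [K.Normal]

/-- There is an exceptional character of degree `e`, and a second exceptional character unless
`|K| = e + 1`. -/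
theorem exists_two_exc (hC : ∀ k ∈ K, k ≠ 1 → Subgroup.centralizer ({k} : Set N) ≤ K)
    (hK1 : K ≠ ⊥) (hK2 : K ≠ ⊤) (hne : Nat.card K ≠ K.index + 1) :
    ∃ ψ ∈ SKall K, degN ψ = K.index ∧ ∃ ξ ∈ SKall K, ξ ≠ ψ := by
  classical
  haveI hnilK := frobK_nilpotent K hC hK1 hK2
  have hnil := cser_self_eq_bot K
  have he0 : 0 < K.index := Nat.pos_of_ne_zero Subgroup.index_ne_zero_of_finite
  have hlt : (⁅K, K⁆ : Subgroup N) < K := comm_lt_of_nilpotent K hnil K le_rfl hK1
  have hcl := frobK_card_le K hC ⁅K, K⁆ K hlt le_rfl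
  have hposΓ : 0 < Nat.card (⁅K, K⁆ : Subgroup N) := Nat.card_pos
  have hdeg : ∀ ξ ∈ SK K ⁅K, K⁆, degN ξ = K.index := by
    intro ξ hξ
    have h1 := SK_deg_bound K ⁅K, K⁆ K (Subgroup.commutator_le_left K K) le_rfl
      (fun d hd c hc => Subgroup.commutator_mem_commutator hd hc) hξ
    have h2 := SKall_dvd K hC hξ.1
    have h3 := (degN_irr hξ.1.1).2
    have hKpos : 0 < Nat.card K := Nat.card_pos
    have h4 : degN ξ ^ 2 ≤ K.index ^ 2 := Nat.le_of_mul_le_mul_right h1 hKpos
    have h5 : degN ξ ≤ K.index := by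
      by_contra hcon
      push Not at hcon
      have := Nat.pow_lt_pow_left hcon (n := 2) (by norm_num)
      omega
    exact le_antisymm h5 (Nat.le_of_dvd h3 h2)
  have hsum := SK_sum_sq K ⁅K, K⁆ (Subgroup.commutator_le_left K K)
  have hne' : (SK_finite K ⁅K, K⁆).toFinset.Nonempty := by
    by_contra hemp
    rw [Finset.not_nonempty_iff_eq_empty] at hemp
    rw [hemp, Finset.sum_empty, mul_zero] at hsum
    have h1 : (K.index + 1) * Nat.card (⁅K, K⁆ : Subgroup N) =
        K.index * Nat.card (⁅K, K⁆ : Subgroup N) + Nat.card (⁅K, K⁆ : Subgroup N) := by ring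
    have h2 : 0 < Nat.card K - Nat.card (⁅K, K⁆ : Subgroup N) := by
      have : 0 < K.index * Nat.card (⁅K, K⁆ : Subgroup N) := Nat.mul_pos he0 hposΓ
      omega
    have := Nat.mul_pos he0 h2
    omega
  obtain ⟨ψ, hψ⟩ := hne'
  rw [Set.Finite.mem_toFinset] at hψ
  refine ⟨ψ, hψ.1, hdeg ψ hψ, ?_⟩
  by_contra hcon
  push Not at hcon
  have hF : (SK_finite K ⊥).toFinset = {ψ} := by
    ext ξ
    rw [Set.Finite.mem_toFinset, Finset.mem_singleton, SK_bot]
    exact ⟨fun h => hcon ξ h, fun h => h ▸ hψ.1⟩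
  have hs := SK_sum_sq K ⊥ bot_le
  rw [hF, Finset.sum_singleton, hdeg ψ hψ, Subgroup.card_bot, one_mul] at hs
  have h1 : K.index * K.index = K.index * (Nat.card K - 1) := by rw [← hs]; ring
  have h2 := Nat.eq_of_mul_eq_mul_left he0 h1
  have hKpos : 0 < Nat.card K := Nat.card_pos
  omega

end TwoExc

end Cfsg.Agent.H19
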