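import Mathlib
import Cfsg.Agent.H19.CohC
import Cfsg.Agent.H19.CohD

/-!
# A Frobenius-type kernel that is not a `p`-group is large (helper19)

`frobK_big` : if `K ⊴ N` contains the centralizers of its non-identity elements, `K ≠ ⊥, ⊤`
and `|K|` is not a prime power, then `(e + 1) (2 e + 1) ≤ |K|` where `e = |N : K|`.
-/

set_option autoImplicit false
set_option linter.unusedSectionVars false
set_option linter.style.haveILetI false

namespace Cfsg.Agent.H19

theorem frobK_big_arith (e a r : ℕ) (ha : 2 ≤ a) (hr : 2 ≤ r) (har : a ≠ r)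
    (h1 : e ∣ a - 1) (h2 : e ∣ r - 1) : (e + 1) * (2 * e + 1) ≤ a * r := by
  obtain ⟨x, hx⟩ := h1
  obtain ⟨y, hy⟩ := h2
  have hx1 : 1 ≤ x := by
    rcases Nat.eq_zero_or_pos x with h | h
    · rw [h, mul_zero] at hx
      omega
    · exact h
  have hy1 : 1 ≤ y := by
    rcases Nat.eq_zero_or_pos y with h | h
    · rw [h, mul_zero] at hy
      omega
    · exact h
  have hxy : x ≠ y := by
    intro h
    rw [h] at hx
    omega
  have ha' : a = e * x + 1 := by omega
  have hr' : r = e * y + 1 := by omega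
  rw [ha', hr']
  rcases Nat.lt_or_gt_of_ne hxy with h | h
  · have h3 : e * 1 ≤ e * x := Nat.mul_le_mul_left e hx1
    have h4 : e * 2 ≤ e * y := Nat.mul_le_mul_left e (by omega)
    exact Nat.mul_le_mul (by omega) (by omega)
  · have h3 : e * 1 ≤ e * y := Nat.mul_le_mul_left e hy1
    have h4 : e * 2 ≤ e * x := Nat.mul_le_mul_left e (by omega)
    rw [mul_comm (e + 1) (2 * e + 1)]
    exact Nat.mul_le_mul (by omega) (by omega)

theorem frobK_big {N : Type*} [Group N] [Finite N] (K : Subgroup N) [K.Normal]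
    (hC : ∀ k ∈ K, k ≠ 1 → Subgroup.centralizer ({k} : Set N) ≤ K)
    (hK1 : K ≠ ⊥) (hK2 : K ≠ ⊤)
    (hnp : ∀ p : ℕ, p.Prime → ∀ m : ℕ, Nat.card K ≠ p ^ m) :
    (K.index + 1) * (2 * K.index + 1) ≤ Nat.card K := by
  classical
  haveI := frobK_nilpotent K hC hK1 hK2
  have hcard1 : Nat.card K ≠ 1 := by
    intro h
    exact hK1 (Subgroup.card_eq_one.mp h)
  obtain ⟨p, hp, hpdvd⟩ := Nat.exists_prime_and_dvd hcard1
  haveI : Fact p.Prime := ⟨hp⟩
  obtain ⟨P, hPn, hPK, hPp, hPcard⟩ := exists_normal_sylow K p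
  haveI := hPn
  have hP := frobK_card_modEq K hC P hPK
  have hKK := frobK_card_modEq K hC K le_rfl
  have hpos : 0 < Nat.card K := Nat.card_pos
  have hmul := Nat.ordProj_mul_ordCompl_eq_self (Nat.card K) p
  have hcop : Nat.Coprime p (Nat.card K / p ^ (Nat.card K).factorization p) :=
    Nat.coprime_ordCompl hp hpos.ne'
  obtain ⟨a, ha⟩ : ∃ a, a = p ^ (Nat.card K).factorization p := ⟨_, rfl⟩
  obtain ⟨r, hr⟩ : ∃ r, r = Nat.card K / p ^ (Nat.card K).factorization p := ⟨_, rfl⟩
  rw [← hr, ← ha] at hmul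
  rw [← ha] at hPcard
  rw [← hr] at hcop
  have hk1 : 1 ≤ (Nat.card K).factorization p :=
    (hp.factorization_pos_of_dvd hpos.ne' hpdvd)
  have ha2 : 2 ≤ a := by
    rw [ha]
    calc 2 ≤ p := hp.two_le
      _ = p ^ 1 := (pow_one p).symm
      _ ≤ p ^ (Nat.card K).factorization p := Nat.pow_le_pow_right hp.pos hk1
  have hr0 : r ≠ 0 := by
    intro h
    rw [h, mul_zero] at hmul
    omega
  have hr1 : r ≠ 1 := by
    intro h
    rw [h, mul_one] at hmul
    exact hnp p hp _ (by rw [← hmul, ha])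
  have hcop2 : Nat.Coprime a r := by
    rw [ha]
    exact Nat.Coprime.pow_left _ hcop
  have har : a ≠ r := by
    intro h
    rw [h, Nat.coprime_self] at hcop2
    exact hr1 hcop2
  have hre : K.index ∣ r - 1 := by
    rw [hPcard] at hP
    rw [← hmul] at hKK
    have h3 : a * r - 1 = (a - 1) * r + (r - 1) := by
      have : a * r = (a - 1) * r + r := by
        rw [Nat.sub_mul, one_mul]
        have : r ≤ a * r := Nat.le_mul_of_pos_left r (by omega)
        omega
      omega
    rw [h3] at hKK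
    exact (Nat.dvd_add_right (Dvd.dvd.mul_right hP r)).mp hKK
  rw [hPcard] at hP
  have := frobK_big_arith K.index a r ha2 (by omega) har hP hre
  rw [hmul] at this
  exact this

end Cfsg.Agent.H19
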