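import Mathlib
import Cfsg.Prelude.Def_OddOrderChar
import Cfsg.Agent.H19.CohE
import Cfsg.Agent.H4.OddSixteen
import Cfsg.Agent.H4.RealClasses
import Cfsg.Agent.S0161
import Cfsg.Agent.H67.FPF

/-!
# Coherence of the characters not trivial on a central subgroup of a non-abelian Sylow
Frobenius-type kernel (helper19)
-/

set_option autoImplicit false
set_option linter.style.haveILetI false
set_option linter.unusedSectionVars false

namespace Cfsg.Agent.H19

open Cfsg Cfsg.Agent.H4 Cfsg.Agent.H32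
open scoped ComplexConjugate

/-- The arithmetic behind the coherence: the squares of the degrees below `d χ` add up to at
least `d χ ^ 2`. -/
theorem coh_central_arith {ι : Type*} [DecidableEq ι] (F : Finset ι) (d : ι → ℕ)
    (e p n' q : ℕ) (hp : p.Prime) (hp3 : 3 ≤ p) (he : 0 < e) (hcop : Nat.Coprime e p)
    (hdeg : ∀ ξ ∈ F, ∃ k, d ξ = e * p ^ k ∧ 2 * k ≤ n')
    (hsum : ∑ ξ ∈ F, d ξ ^ 2 = e * p ^ n' * q) (χ ψ : ι) (hχ : χ ∈ F) (hψ : ψ ∈ F)
    (hlt : d ψ < d χ) :
    d ψ ∣ d χ ∧ 2 * d ψ * d χ < ∑ ξ ∈ F.filter (fun ξ => d ξ < d χ), d ξ ^ 2 := by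
  obtain ⟨t, ht, ht2⟩ := hdeg χ hχ
  obtain ⟨s, hs, hs2⟩ := hdeg ψ hψ
  have hp0 : 0 < p := hp.pos
  have hst : s < t := by
    by_contra hcon
    push Not at hcon
    have h1 : p ^ t ≤ p ^ s := Nat.pow_le_pow_right hp0 hcon
    have h2 : e * p ^ t ≤ e * p ^ s := Nat.mul_le_mul_left _ h1
    omega
  have hdvd : d ψ ∣ d χ := by
    rw [hs, ht]
    exact Nat.mul_dvd_mul_left _ (Nat.pow_dvd_pow _ hst.le)
  refine ⟨hdvd, ?_⟩
  have hsplit := Finset.sum_filter_add_sum_filter_not F (fun ξ => d ξ < d χ) (fun ξ => d ξ ^ 2)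
  generalize hA : ∑ ξ ∈ F.filter (fun ξ => d ξ < d χ), d ξ ^ 2 = A at hsplit ⊢
  generalize hB : ∑ ξ ∈ F.filter (fun ξ => ¬ d ξ < d χ), d ξ ^ 2 = B at hsplit
  have hBdvd : d χ ^ 2 ∣ B := by
    rw [← hB]
    apply Finset.dvd_sum
    intro ξ hξ
    rw [Finset.mem_filter] at hξ
    obtain ⟨k, hk, -⟩ := hdeg ξ hξ.1
    have htk : t ≤ k := by
      by_contra hcon
      push Not at hcon
      have h1 : p ^ k < p ^ t := Nat.pow_lt_pow_right hp.one_lt hcon
      have h2 : e * p ^ k < e * p ^ t := Nat.mul_lt_mul_of_pos_left h1 he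
      omega
    apply pow_dvd_pow_of_dvd
    rw [hk, ht]
    exact Nat.mul_dvd_mul_left _ (Nat.pow_dvd_pow _ htk)
  have hABdvd : e * p ^ (2 * t) ∣ A + B := by
    rw [hsplit, hsum]
    exact Dvd.dvd.mul_right (Nat.mul_dvd_mul_left _ (Nat.pow_dvd_pow _ ht2)) _
  have hχsq : d χ ^ 2 = e * p ^ (2 * t) * e := by rw [ht]; ring
  have h1 : e * p ^ (2 * t) ∣ B := Dvd.dvd.trans ⟨e, hχsq⟩ hBdvd
  have h2 : e * p ^ (2 * t) ∣ A := (Nat.dvd_add_left h1).mp hABdvd
  have h3 : e ^ 2 ∣ A := by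
    rw [← hA]
    apply Finset.dvd_sum
    intro ξ hξ
    rw [Finset.mem_filter] at hξ
    obtain ⟨k, hk, -⟩ := hdeg ξ hξ.1
    rw [hk]
    exact ⟨(p ^ k) ^ 2, by ring⟩
  have h4 : p ^ (2 * t) ∣ A := Dvd.dvd.trans (Dvd.intro_left _ rfl) h2
  have hcop2 : Nat.Coprime (e ^ 2) (p ^ (2 * t)) := Nat.Coprime.pow _ _ hcop
  have h5 : e ^ 2 * p ^ (2 * t) ∣ A := Nat.Coprime.mul_dvd_of_dvd_of_dvd hcop2 h3 h4
  have h6 : d χ ^ 2 ∣ A := by
    have h : d χ ^ 2 = e ^ 2 * p ^ (2 * t) := by rw [ht]; ring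
    rw [h]
    exact h5
  have hψpos : 0 < d ψ := by
    rw [hs]
    positivity
  have hApos : 0 < A := by
    have hmem : ψ ∈ F.filter (fun ξ => d ξ < d χ) := Finset.mem_filter.mpr ⟨hψ, hlt⟩
    have hle : d ψ ^ 2 ≤ A := by
      rw [← hA]
      exact Finset.single_le_sum (f := fun ξ => d ξ ^ 2) (fun _ _ => Nat.zero_le _) hmem
    have h : 0 < d ψ ^ 2 := by positivity
    omega
  have h7 : d χ ^ 2 ≤ A := Nat.le_of_dvd hApos h6
  have h8 : 3 * d ψ ≤ d χ := by
    rw [hs, ht]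
    have hts : t = s + (t - s) := by omega
    rw [hts, pow_add]
    have h9 : p ≤ p ^ (t - s) := Nat.le_self_pow (by omega) p
    have h10 : 3 ≤ p ^ (t - s) := le_trans hp3 h9
    calc 3 * (e * p ^ s) = e * p ^ s * 3 := by ring
      _ ≤ e * p ^ s * p ^ (t - s) := Nat.mul_le_mul_left _ h10
      _ = e * (p ^ s * p ^ (t - s)) := by ring
  have h11 : 3 * d ψ * d χ ≤ d χ * d χ := Nat.mul_le_mul_right _ h8
  have h12 : 0 < d ψ * d χ := Nat.mul_pos hψpos (by omega)
  nlinarith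

/-- A Frobenius-type group whose kernel is non-abelian of odd order has odd order. -/
theorem odd_of_fpf_nonabelian {N : Type*} [Group N] [Finite N] (K : Subgroup N) [K.Normal]
    (hfpf : ∀ x : N, x ∉ K → ∀ k ∈ K, x * k = k * x → k = 1)
    (hK : Odd (Nat.card K)) (hna : ∃ a ∈ K, ∃ b ∈ K, a * b ≠ b * a) : Odd (Nat.card N) := by
  by_contra hcon
  rw [Nat.not_odd_iff_even, even_iff_two_dvd] at hcon
  haveI : Fact (Nat.Prime 2) := ⟨Nat.prime_two⟩
  obtain ⟨t, ht⟩ := exists_prime_orderOf_dvd_card' 2 hcon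
  have htt : t * t = 1 := by
    rw [← sq, ← ht]
    exact pow_orderOf_eq_one t
  have htK : t ∉ K := by
    intro h
    have h1 : orderOf (⟨t, h⟩ : K) ∣ Nat.card K := orderOf_dvd_natCard _
    have h2 : orderOf (⟨t, h⟩ : K) = orderOf t := by
      rw [← Subgroup.orderOf_coe]
    rw [h2, ht] at h1
    exact (Nat.not_even_iff_odd.mpr hK) (even_iff_two_dvd.mpr h1)
  obtain ⟨a, ha, b, hb, hab⟩ := hna
  have hinvt : t⁻¹ = t := inv_eq_of_mul_eq_one_right htt
  have hcomm := Cfsg.Agent.H67.fpf_involution_comm (MulAut.conjNormal t : K ≃* K).toMonoidHom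
    (by
      intro k
      apply Subtype.ext
      simp only [MulEquiv.toMonoidHom_eq_coe, MonoidHom.coe_coe, MulAut.conjNormal_apply]
      rw [hinvt]
      calc t * (t * (k : N) * t) * t = (t * t) * (k : N) * (t * t) := by group
        _ = k := by rw [htt, one_mul, mul_one])
    (by
      intro k hk
      have h1 : ((MulAut.conjNormal t : K ≃* K) k : N) = k := congrArg Subtype.val hk
      rw [MulAut.conjNormal_apply] at h1
      have h2 : t * (k : N) = k * t := by
        calc t * (k : N) = t * k * t⁻¹ * t := by group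
          _ = k * t := by rw [h1]
      exact Subtype.ext (hfpf t htK k k.2 h2))
    ⟨a, ha⟩ ⟨b, hb⟩
  exact hab (congrArg Subtype.val hcomm)

section Central

variable {N : Type*} [Group N] [Fintype N] (K : Subgroup N)

set_option maxHeartbeats 1600000 in
/-- Let `K` be a normal Sylow `p`-subgroup (`p` odd) of the group `N` of odd order containing
the centralizers of its non-identity elements, and `Z ≠ 1` a normal subgroup of `N` central in
`K`.  Then the irreducible characters of `N` not having `Z` in their kernel form a coherent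
set. -/
theorem coh_central [K.Normal]
    (hC : ∀ k ∈ K, k ≠ 1 → Subgroup.centralizer ({k} : Set N) ≤ K)
    (p : ℕ) (hp : p.Prime) (hp2 : p ≠ 2) (n : ℕ) (hKp : Nat.card K = p ^ n)
    (hcop : Nat.Coprime K.index p) (hodd : Odd (Nat.card N))
    (Z : Subgroup N) [Z.Normal] (hZ1 : Z ≠ ⊥) (hZK : Z ≤ K)
    (hZc : ∀ z ∈ Z, ∀ k ∈ K, z * k = k * z)
    {G : Type*} [Group G] [Fintype G] (τ : (N → ℂ) → (G → ℂ))
    (hτ : IsLinearIsometryOn (zspanOn (SKall K) {1}ᶜ) τ)
    (hτ1 : ∀ α ∈ zspanOn (SKall K) {1}ᶜ, τ α 1 = 0) :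
    IsCoherent (SKall Z) {1}ᶜ τ := by
  classical
  have he0 : 0 < K.index := Nat.pos_of_ne_zero Subgroup.index_ne_zero_of_finite
  have hp3 : 3 ≤ p := by
    have := hp.two_le
    omega
  have hp0 : 0 < p := hp.pos
  obtain ⟨c, hc, hZcard⟩ : ∃ c ≤ n, Nat.card Z = p ^ c := by
    have h1 : Nat.card Z ∣ Nat.card K := Subgroup.card_dvd_of_le hZK
    rw [hKp] at h1
    exact (Nat.dvd_prime_pow hp).mp h1
  have hc1 : 1 ≤ c := by
    by_contra hcon
    have hc0 : c = 0 := by omega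
    rw [hc0, pow_zero] at hZcard
    exact hZ1 (Subgroup.card_eq_one.mp hZcard)
  have hsubZK : SKall Z ⊆ SKall K := by
    rintro χ ⟨hirr, h, hh, hne⟩
    exact ⟨hirr, h, hZK hh, hne⟩
  -- the degrees
  have hdeg : ∀ ξ ∈ SKall Z, ∃ k, degN ξ = K.index * p ^ k ∧ 2 * k ≤ n - c := by
    intro ξ hξ
    have hξK := hsubZK hξ
    obtain ⟨φ, hφ, rfl⟩ := Cfsg.Agent.S1528.result K hC ξ hξK.1 hξK.2
    obtain ⟨m, hmdvd, e1⟩ := irr_degree_dvd_card (⟨φ, hφ⟩ : IrrCharacter K)
    have e' : φ 1 = (m : ℂ) := e1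
    rw [hKp] at hmdvd
    obtain ⟨k, hk, rfl⟩ := (Nat.dvd_prime_pow hp).mp hmdvd
    have h1 : indFun K φ 1 = ((K.index * p ^ k : ℕ) : ℂ) := by
      rw [Cfsg.Agent.H82.indFun_one, e']
      push_cast
      ring
    have h2 : degN (indFun K φ) = K.index * p ^ k := by
      unfold degN
      rw [h1, Complex.natCast_re, Nat.floor_natCast]
    refine ⟨k, h2, ?_⟩
    have h3 := SK_deg_bound K ⊥ Z bot_le hZK (fun d hd c' hc' => by
      rw [Subgroup.mem_bot, hZc d hd c' hc']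
      group) (by rw [SK_bot]; exact hξK)
    rw [h2, hKp, hZcard] at h3
    have h4 : K.index ^ 2 * p ^ (2 * k + c) ≤ K.index ^ 2 * p ^ n := by
      calc K.index ^ 2 * p ^ (2 * k + c) = (K.index * p ^ k) ^ 2 * p ^ c := by ring
        _ ≤ K.index ^ 2 * p ^ n := h3
    have h5 : p ^ (2 * k + c) ≤ p ^ n := Nat.le_of_mul_le_mul_left h4 (by positivity)
    have h6 : 2 * k + c ≤ n := (Nat.pow_le_pow_iff_right hp.one_lt).mp h5
    omega
  -- the sum of the squares of the degrees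
  have hZidx : Z.index = K.index * p ^ (n - c) := by
    have h1 : Nat.card Z * Z.index = Nat.card N := Subgroup.card_mul_index Z
    have h2 : Nat.card K * K.index = Nat.card N := Subgroup.card_mul_index K
    rw [hZcard] at h1
    rw [hKp] at h2
    have h3 : p ^ c * Z.index = p ^ c * (K.index * p ^ (n - c)) := by
      rw [h1, ← h2]
      have h : p ^ n = p ^ c * p ^ (n - c) := by
        rw [← pow_add]
        congr 1
        omega
      rw [h]
      ring
    exact Nat.eq_of_mul_eq_mul_left (by positivity) h3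
  obtain ⟨F, hF⟩ : ∃ F : Finset (N → ℂ), F = (SKall_finite Z).toFinset := ⟨_, rfl⟩
  have hFmem : ∀ ξ, ξ ∈ F ↔ ξ ∈ SKall Z := by
    intro ξ
    rw [hF, Set.Finite.mem_toFinset]
  have hsum : ∑ ξ ∈ F, degN ξ ^ 2 = K.index * p ^ (n - c) * (p ^ c - 1) := by
    have h0 := SK_sum_sq Z ⊥ bot_le
    rw [Subgroup.card_bot, one_mul, hZcard, hZidx] at h0
    have hF' : (SK_finite Z ⊥).toFinset = F := by
      ext ξ
      rw [Set.Finite.mem_toFinset, SK_bot, hFmem]
    rw [hF'] at h0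
    exact h0
  -- conjugate characters
  have hconj : ∀ ξ ∈ SKall Z, (fun g => conj (ξ g)) ∈ SKall Z ∧ (fun g => conj (ξ g)) ≠ ξ ∧
      degN (fun g => conj (ξ g)) = degN ξ := by
    intro ξ hξ
    obtain ⟨hirr, h, hh, hne⟩ := hξ
    refine ⟨⟨isIrrCharacter_conj hirr, h, hh, fun heq => hne ((starRingEnd ℂ).injective heq)⟩,
      ?_, ?_⟩
    · intro heq
      have hreal : ∀ g : N, ((⟨ξ, hirr⟩ : IrrCharacter N).1 g).im = 0 := by
        intro g
        exact Complex.conj_eq_iff_im.mp (congrFun heq g)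
      have h1 := Cfsg.Agent.S0161.result hodd (⟨ξ, hirr⟩ : IrrCharacter N) hreal
      have h2 : ξ = fun _ => 1 := h1
      apply hne
      rw [h2]
    · unfold degN
      simp
  -- a character of minimal degree
  have hFne : F.Nonempty := by
    by_contra hcon
    rw [Finset.not_nonempty_iff_eq_empty] at hcon
    rw [hcon, Finset.sum_empty] at hsum
    have h1 : 0 < p ^ (n - c) := by positivity
    have h2 : 1 < p ^ c := Nat.one_lt_pow (by omega) hp.one_lt
    have h3 : 0 < K.index * p ^ (n - c) * (p ^ c - 1) :=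
      Nat.mul_pos (Nat.mul_pos he0 h1) (by omega)
    omega
  obtain ⟨ψ₀, hψ₀F, hψ₀min⟩ := Finset.exists_min_image F degN hFne
  have hψ₀ : ψ₀ ∈ SKall Z := (hFmem ψ₀).mp hψ₀F
  obtain ⟨hψ₀c, hψ₀ne, hψ₀deg⟩ := hconj ψ₀ hψ₀
  -- the levels
  obtain ⟨Slev, hSlev⟩ : ∃ Slev : ℕ → Set (N → ℂ), ∀ m, Slev m = {ξ | ξ ∈ SKall Z ∧ degN ξ ≤ m} :=
    ⟨_, fun m => rfl⟩
  have hfin : ∀ m, (Slev m).Finite := fun m =>
    (SKall_finite Z).subset (fun ξ hξ => by rw [hSlev] at hξ; exact hξ.1)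
  have hsubK : ∀ m, Slev m ⊆ SKall K := fun m ξ hξ => by
    rw [hSlev] at hξ
    exact hsubZK hξ.1
  have hmain : ∀ m, degN ψ₀ ≤ m → IsCoherent (Slev m) {1}ᶜ τ := by
    intro m hm
    induction m, hm using Nat.le_induction with
    | base =>
      have hdeq : ∀ ξ ∈ Slev (degN ψ₀), degN ξ = degN ψ₀ := by
        intro ξ hξ
        rw [hSlev] at hξ
        exact le_antisymm hξ.2 (hψ₀min ξ ((hFmem ξ).mpr hξ.1))
      exact coh_equal_degree (Slev (degN ψ₀)) (fun ξ hξ => (hsubK _ hξ).1) (degN ψ₀)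
        (fun ξ hξ => by rw [(degN_irr (hsubK _ hξ).1).1, hdeq ξ hξ])
        ⟨ψ₀, by rw [hSlev]; exact ⟨hψ₀, le_rfl⟩, fun g => conj (ψ₀ g),
          by rw [hSlev]; exact ⟨hψ₀c, hψ₀deg.le⟩, Ne.symm hψ₀ne⟩ τ
        (isLinearIsometryOn_mono hτ (fun f hf => zspanOn_mono (hsubK _) hf))
        (fun α hα => hτ1 α (zspanOn_mono (hsubK _) hα))
    | succ m hm ih =>
      have hcoe : (↑((hfin m).toFinset ∪ (hfin (m + 1)).toFinset) : Set (N → ℂ)) =
          Slev (m + 1) := by
        ext ξ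
        rw [Finset.mem_coe, Finset.mem_union, Set.Finite.mem_toFinset, Set.Finite.mem_toFinset,
          hSlev, hSlev]
        constructor
        · rintro (h | h)
          · exact ⟨h.1, by have := h.2; omega⟩
          · exact h
        · exact fun h => Or.inr h
      rw [← hcoe]
      apply feit_criterion_many (SKall K) (fun ξ hξ => hξ.1) degN
        (fun ξ hξ => (degN_irr hξ.1).1) τ hτ hτ1
      · intro ξ hξ
        exact hsubK m ((Set.Finite.mem_toFinset _).mp (Finset.mem_coe.mp hξ))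
      · intro ξ hξ
        exact hsubK (m + 1) ((Set.Finite.mem_toFinset _).mp (Finset.mem_coe.mp hξ))
      · rw [Set.Finite.coe_toFinset]
        exact ih
      · intro χ hχ hχ0
        rw [Set.Finite.mem_toFinset] at hχ hχ0
        rw [hSlev] at hχ hχ0
        have hχZ : χ ∈ SKall Z := hχ.1
        have hχdeg : degN χ = m + 1 := by
          have h1 := hχ.2
          have h2 : ¬ degN χ ≤ m := fun h => hχ0 ⟨hχZ, h⟩
          omega
        have hkey := coh_central_arith F degN K.index p (n - c) (p ^ c - 1) hp hp3 he0 hcop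
          (fun ξ hξ => hdeg ξ ((hFmem ξ).mp hξ)) hsum χ ψ₀ ((hFmem χ).mpr hχZ) hψ₀F
          (by omega)
        have hfilt : F.filter (fun ξ => degN ξ < degN χ) = (hfin m).toFinset := by
          ext ξ
          rw [Finset.mem_filter, Set.Finite.mem_toFinset, hSlev, hFmem, hχdeg]
          constructor
          · exact fun h => ⟨h.1, by have := h.2; omega⟩
          · exact fun h => ⟨h.1, by have := h.2; omega⟩
        rw [hfilt] at hkey
        exact ⟨ψ₀, (Set.Finite.mem_toFinset _).mpr (by rw [hSlev]; exact ⟨hψ₀, hm⟩), hkey.1,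
          hkey.2⟩
  -- conclusion: a level containing everything
  obtain ⟨M, hM⟩ : ∃ M, ∀ ξ ∈ F, degN ξ ≤ M := ⟨F.sup degN, fun ξ hξ => Finset.le_sup hξ⟩
  have hall : Slev (M + degN ψ₀) = SKall Z := by
    rw [hSlev]
    ext ξ
    constructor
    · exact fun h => h.1
    · exact fun h => ⟨h, by have := hM ξ ((hFmem ξ).mpr h); omega⟩
  rw [← hall]
  exact hmain _ (by omega)

end Central

end Cfsg.Agent.H19
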