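import Mathlib
import Cfsg.Prelude.Def_OddOrderChar
import Cfsg.Agent.H19.CohZ
import Cfsg.Agent.H19.FeitAb1
import Cfsg.Agent.H4.SemiReg
import Cfsg.Agent.H4.Induction
import Cfsg.Agent.H32.IndIrr

/-!
# Characters not trivial on a central subgroup: the general `p`-group case and the
description of the set (helper19)
-/

set_option autoImplicit false
set_option linter.style.haveILetI false
set_option linter.unusedSectionVars false

namespace Cfsg.Agent.H19

open Cfsg Cfsg.Agent.H4 Cfsg.Agent.H32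
open scoped ComplexConjugate

section Sub

variable {L : Type*} [Group L] [Fintype L] {G : Type*} [Group G] [Fintype G]

/-- A subset of a coherent set is coherent as soon as it carries a nonzero combination. -/
theorem coh_subset {S S' : Set (L → ℂ)} {A : Set L} {τ : (L → ℂ) → (G → ℂ)}
    (h : IsCoherent S A τ) (hsub : S' ⊆ S) (hne : ∃ α ∈ zspanOn S' A, α ≠ 0) :
    IsCoherent S' A τ := by
  obtain ⟨-, τ₁, hτ₁, hagree⟩ := h
  exact ⟨hne, τ₁, isLinearIsometryOn_mono hτ₁ (fun f hf => Submodule.span_mono hsub hf),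
    fun α hα => hagree α (zspanOn_mono hsub hα)⟩

end Sub

section IndZ

variable {L : Type*} [Group L] [Fintype L] (K : Subgroup L) (Z : Subgroup L) [Z.Normal]

/-- The difference of the values at `1` and at `z ∈ Z` of an induced function. -/
theorem indFun_one_sub (θ : K → ℂ) (z : L) :
    indFun K θ 1 - indFun K θ z =
      (Nat.card K : ℂ)⁻¹ * ∑ x : L, (θ 1 - extendByZero K θ (x⁻¹ * z * x)) := by
  rw [indFun_apply, indFun_apply, ← mul_sub, ← Finset.sum_sub_distrib]
  congr 1
  apply Finset.sum_congr rfl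
  intro x _
  have h1 : x⁻¹ * 1 * x = 1 := by group
  rw [h1, extendByZero_of_mem K θ K.one_mem]
  rfl

/-- A function induced from a function trivial on `Z` is trivial on `Z`. -/
theorem indFun_const_of_triv (hZK : Z ≤ K) (θ : K → ℂ)
    (htriv : ∀ a : K, (a : L) ∈ Z → θ a = θ 1) {z : L} (hz : z ∈ Z) :
    indFun K θ z = indFun K θ 1 := by
  have h := indFun_one_sub K θ z
  have h0 : ∑ x : L, (θ 1 - extendByZero K θ (x⁻¹ * z * x)) = 0 := by
    apply Finset.sum_eq_zero
    intro x _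
    have hmem : x⁻¹ * z * x ∈ Z := (inferInstance : Z.Normal).conj_mem' z hz x
    rw [extendByZero_of_mem K θ (hZK hmem), htriv ⟨_, hZK hmem⟩ hmem, sub_self]
  rw [h0, mul_zero] at h
  exact (sub_eq_zero.mp h).symm

/-- If the function induced from an irreducible character `θ` is trivial on `Z`, so is `θ`. -/
theorem triv_of_indFun_const (hZK : Z ≤ K) {θ : K → ℂ} (hθ : IsIrrCharacter K θ)
    (hconst : ∀ z ∈ Z, indFun K θ z = indFun K θ 1) :
    ∀ a : K, (a : L) ∈ Z → θ a = θ 1 := by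
  classical
  intro a ha
  obtain ⟨d, -, hd⟩ := irr_one_eq_natCast (⟨θ, hθ⟩ : IrrCharacter K)
  have hd' : θ 1 = (d : ℂ) := hd
  have hchar := isCharacter_of_isIrrCharacter hθ
  have h := indFun_one_sub K θ (a : L)
  rw [hconst _ ha, sub_self] at h
  have hK0 : (Nat.card K : ℂ)⁻¹ ≠ 0 := by
    apply inv_ne_zero
    exact_mod_cast (Nat.card_pos (α := K)).ne'
  have h0 : ∑ x : L, (θ 1 - extendByZero K θ (x⁻¹ * (a : L) * x)) = 0 := by
    rcases mul_eq_zero.mp h.symm with h1 | h1
    · exact absurd h1 hK0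
    · exact h1
  have hre : ∑ x : L, ((d : ℝ) - (extendByZero K θ (x⁻¹ * (a : L) * x)).re) = 0 := by
    have h1 := congrArg Complex.re h0
    rw [Complex.re_sum, Complex.zero_re] at h1
    rw [← h1]
    apply Finset.sum_congr rfl
    intro x _
    rw [Complex.sub_re, hd', Complex.natCast_re]
  have hbound : ∀ x : L, ‖extendByZero K θ (x⁻¹ * (a : L) * x)‖ ≤ d := by
    intro x
    have hmem : x⁻¹ * (a : L) * x ∈ Z := (inferInstance : Z.Normal).conj_mem' _ ha x
    rw [extendByZero_of_mem K θ (hZK hmem)]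
    exact norm_le_of_isCharacter hchar hd' _
  have hnonneg : ∀ x ∈ (Finset.univ : Finset L),
      0 ≤ (d : ℝ) - (extendByZero K θ (x⁻¹ * (a : L) * x)).re := by
    intro x _
    have h1 := Complex.re_le_norm (extendByZero K θ (x⁻¹ * (a : L) * x))
    have h2 := hbound x
    linarith
  have hzero := (Finset.sum_eq_zero_iff_of_nonneg hnonneg).mp hre 1 (Finset.mem_univ _)
  have h1 : (1 : L)⁻¹ * (a : L) * 1 = a := by group
  rw [h1, extendByZero_coe] at hzero
  have h2 := hbound 1
  rw [h1, extendByZero_coe] at h2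
  have hre' : (θ a).re = d := by linarith
  have him : (θ a).im = 0 := by
    have h3 : ‖θ a‖ ^ 2 = (θ a).re ^ 2 + (θ a).im ^ 2 := by
      rw [Complex.sq_norm, Complex.normSq_apply]
      ring
    have h4 : ‖θ a‖ ^ 2 ≤ (d : ℝ) ^ 2 := by
      have h5 : 0 ≤ ‖θ a‖ := norm_nonneg _
      nlinarith
    rw [h3, hre'] at h4
    have h6 : (θ a).im ^ 2 ≤ 0 := by linarith
    have h7 : 0 ≤ (θ a).im ^ 2 := sq_nonneg _
    have h8 : (θ a).im ^ 2 = 0 := le_antisymm h6 h7
    exact pow_eq_zero_iff (two_ne_zero) |>.mp h8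
  rw [hd']
  apply Complex.ext
  · rw [hre', Complex.natCast_re]
  · rw [him, Complex.natCast_im]

/-- The members of `S ∖ S(Z)`, when irreducible, are exactly the irreducible characters of `L`
not having `Z` in their kernel. -/
theorem induced_diff_eq (hZK : Z ≤ K)
    (hirr : ∀ χ ∈ inducedIrrAbove K ⊥ \ inducedIrrAbove K Z, IsIrrCharacter L χ) :
    inducedIrrAbove K ⊥ \ inducedIrrAbove K Z = SKall Z := by
  classical
  ext χ
  constructor
  · intro hχ
    refine ⟨hirr χ hχ, ?_⟩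
    by_contra hcon
    push Not at hcon
    obtain ⟨⟨θ, hθ, hθ1, -, rfl⟩, hnot⟩ := hχ
    exact hnot ⟨θ, hθ, hθ1, triv_of_indFun_const K Z hZK hθ hcon, rfl⟩
  · rintro ⟨hχ, z, hz, hne⟩
    letI := fintypeIrr K
    have hres : IsCharacter K (fun k : K => χ k) :=
      isCharacter_restrict K (isCharacter_of_isIrrCharacter hχ)
    have hexp := character_eq_sum_ncoef hres
    have hex : ∃ θ : IrrCharacter K, ncoef (fun k : K => χ k) θ ≠ 0 ∧
        ∃ a : K, (a : L) ∈ Z ∧ θ.1 a ≠ θ.1 1 := by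
      by_contra hno
      push Not at hno
      apply hne
      have h1 : χ z = ∑ θ : IrrCharacter K, (ncoef (fun k : K => χ k) θ : ℂ) *
          θ.1 ⟨z, hZK hz⟩ := hexp ⟨z, hZK hz⟩
      have h2 : χ 1 = ∑ θ : IrrCharacter K, (ncoef (fun k : K => χ k) θ : ℂ) * θ.1 1 :=
        hexp 1
      rw [h1, h2]
      apply Finset.sum_congr rfl
      intro θ _
      by_cases h0 : ncoef (fun k : K => χ k) θ = 0
      · rw [h0]
        simp
      · rw [hno θ h0 ⟨z, hZK hz⟩ hz]
    obtain ⟨θ, hθ0, a, haZ, hθa⟩ := hex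
    have hθne : θ.1 ≠ fun _ => 1 := by
      intro h
      apply hθa
      rw [h]
    have hmemS : indFun K θ.1 ∈ inducedIrrAbove K ⊥ := by
      refine ⟨θ.1, θ.2, hθne, fun b hb => ?_, rfl⟩
      have hb1 : b = 1 := Subtype.ext (Subgroup.mem_bot.mp hb)
      rw [hb1]
    have hnotSZ : indFun K θ.1 ∉ inducedIrrAbove K Z := by
      rintro ⟨θ', hθ', -, htriv, heq⟩
      apply hθa
      apply triv_of_indFun_const K Z hZK θ.2 _ a haZ
      intro w hw
      rw [heq]
      exact indFun_const_of_triv K Z hZK θ' htriv hw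
    have hirrInd := hirr _ ⟨hmemS, hnotSZ⟩
    have hrec := frobenius_reciprocity K θ.1 χ
      (isClassFunction_of_isCharacter (isCharacter_of_isIrrCharacter hχ))
    rw [ncoef_cast' hres θ] at hrec
    have hin := irr_inner (⟨indFun K θ.1, hirrInd⟩ : IrrCharacter L) ⟨χ, hχ⟩
    have heq : indFun K θ.1 = χ := by
      by_contra hneq
      rw [if_neg (fun h => hneq (congrArg Subtype.val h))] at hin
      have hin' : classInner (indFun K θ.1) χ = 0 := hin
      rw [hin'] at hrec
      exact hθ0 (by exact_mod_cast hrec.symm)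
    rw [← heq]
    exact ⟨hmemS, hnotSZ⟩

end IndZ

section Central2

variable {N : Type*} [Group N] [Fintype N] (K : Subgroup N)

/-- A nonzero combination vanishing at `1` of the characters not trivial on `Z`. -/
theorem SKall_exists_nonzero (hodd : Odd (Nat.card N)) (Z : Subgroup N) [Z.Normal]
    (hZ1 : Z ≠ ⊥) : ∃ α ∈ zspanOn (SKall Z) ({1}ᶜ : Set N), α ≠ 0 := by
  classical
  have hsum := SK_sum_sq Z ⊥ bot_le
  rw [Subgroup.card_bot, one_mul] at hsum
  have hZcard : 1 < Nat.card Z := by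
    have h1 : Nat.card Z ≠ 1 := fun h => hZ1 (Subgroup.card_eq_one.mp h)
    have h2 : 0 < Nat.card Z := Nat.card_pos
    omega
  have hidx : 0 < Z.index := Nat.pos_of_ne_zero Subgroup.index_ne_zero_of_finite
  have hne : ((SK_finite Z ⊥).toFinset).Nonempty := by
    by_contra hcon
    rw [Finset.not_nonempty_iff_eq_empty] at hcon
    rw [hcon, Finset.sum_empty] at hsum
    have h3 : 0 < Z.index * (Nat.card Z - 1) := Nat.mul_pos hidx (by omega)
    omega
  obtain ⟨χ, hχ⟩ := hne
  rw [Set.Finite.mem_toFinset, SK_bot] at hχ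
  obtain ⟨hirr, h, hh, hne'⟩ := hχ
  have hχ' : (fun g => conj (χ g)) ∈ SKall Z :=
    ⟨isIrrCharacter_conj hirr, h, hh, fun heq => hne' ((starRingEnd ℂ).injective heq)⟩
  have hneq : (fun g => conj (χ g)) ≠ χ := by
    intro heq
    have hreal : ∀ g : N, ((⟨χ, hirr⟩ : IrrCharacter N).1 g).im = 0 := by
      intro g
      exact Complex.conj_eq_iff_im.mp (congrFun heq g)
    have h1 := Cfsg.Agent.S0161.result hodd (⟨χ, hirr⟩ : IrrCharacter N) hreal
    have h2 : χ = fun _ => 1 := h1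
    apply hne'
    rw [h2]
  refine ⟨χ - fun g => conj (χ g), ?_, ?_⟩
  · apply mem_zspanOn_compl_one
    · exact Submodule.sub_mem _ (Submodule.subset_span ⟨hirr, h, hh, hne'⟩)
        (Submodule.subset_span hχ')
    · rw [Pi.sub_apply, (degN_irr hirr).1, Complex.conj_natCast, sub_self]
  · intro h0
    exact hneq (sub_eq_zero.mp h0).symm

set_option maxHeartbeats 1600000 in
/-- The `p`-group case in general: `K` a normal `p`-subgroup (`p` odd) of index prime to `p` of
the group `N` of odd order, `Z ≠ 1` normal in `N` and central in `K`, all irreducible characters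
of `N` not trivial on `Z` induced from `K`. -/
theorem coh_central_gen [K.Normal]
    (p : ℕ) (hp : p.Prime) (hp2 : p ≠ 2) (n : ℕ) (hKp : Nat.card K = p ^ n)
    (hcop : Nat.Coprime K.index p) (hodd : Odd (Nat.card N))
    (Z : Subgroup N) [Z.Normal] (hZ1 : Z ≠ ⊥) (hZK : Z ≤ K)
    (hZc : ∀ z ∈ Z, ∀ k ∈ K, z * k = k * z)
    (hind : ∀ ξ ∈ SKall Z, ∃ φ : K → ℂ, IsIrrCharacter K φ ∧ ξ = indFun K φ)
    {G : Type*} [Group G] [Fintype G] (τ : (N → ℂ) → (G → ℂ))
    (hτ : IsLinearIsometryOn (zspanOn (SKall Z) {1}ᶜ) τ)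
    (hτ1 : ∀ α ∈ zspanOn (SKall Z) {1}ᶜ, τ α 1 = 0) :
    IsCoherent (SKall Z) {1}ᶜ τ := by
  classical
  have he0 : 0 < K.index := Nat.pos_of_ne_zero Subgroup.index_ne_zero_of_finite
  have hp3 : 3 ≤ p := by
    have := hp.two_le
    omega
  have hp0 : 0 < p := hp.pos
  obtain ⟨c, hc, hZcard⟩ : ∃ c ≤ n, Nat.card Z = p ^ c := by
    have h1 : Nat.card Z ∣ Nat.card K := Subgroup.card_dvd_of_le hZK
    rw [hKp] at h1
    exact (Nat.dvd_prime_pow hp).mp h1
  have hc1 : 1 ≤ c := by
    by_contra hcon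
    have hc0 : c = 0 := by omega
    rw [hc0, pow_zero] at hZcard
    exact hZ1 (Subgroup.card_eq_one.mp hZcard)
  have hsubZK : SKall Z ⊆ SKall K := by
    rintro χ ⟨hirr, h, hh, hne⟩
    exact ⟨hirr, h, hZK hh, hne⟩
  -- the degrees
  have hdeg : ∀ ξ ∈ SKall Z, ∃ k, degN ξ = K.index * p ^ k ∧ 2 * k ≤ n - c := by
    intro ξ hξ
    have hξK := hsubZK hξ
    obtain ⟨φ, hφ, rfl⟩ := hind ξ hξ
    obtain ⟨m, hmdvd, e1⟩ := irr_degree_dvd_card (⟨φ, hφ⟩ : IrrCharacter K)
    have e' : φ 1 = (m : ℂ) := e1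
    rw [hKp] at hmdvd
    obtain ⟨k, hk, rfl⟩ := (Nat.dvd_prime_pow hp).mp hmdvd
    have h1 : indFun K φ 1 = ((K.index * p ^ k : ℕ) : ℂ) := by
      rw [Cfsg.Agent.H82.indFun_one, e']
      push_cast
      ring
    have h2 : degN (indFun K φ) = K.index * p ^ k := by
      unfold degN
      rw [h1, Complex.natCast_re, Nat.floor_natCast]
    refine ⟨k, h2, ?_⟩
    have h3 := SK_deg_bound K ⊥ Z bot_le hZK (fun d hd c' hc' => by
      rw [Subgroup.mem_bot, hZc d hd c' hc']
      group) (by rw [SK_bot]; exact hξK)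
    rw [h2, hKp, hZcard] at h3
    have h4 : K.index ^ 2 * p ^ (2 * k + c) ≤ K.index ^ 2 * p ^ n := by
      calc K.index ^ 2 * p ^ (2 * k + c) = (K.index * p ^ k) ^ 2 * p ^ c := by ring
        _ ≤ K.index ^ 2 * p ^ n := h3
    have h5 : p ^ (2 * k + c) ≤ p ^ n := Nat.le_of_mul_le_mul_left h4 (by positivity)
    have h6 : 2 * k + c ≤ n := (Nat.pow_le_pow_iff_right hp.one_lt).mp h5
    omega
  -- the sum of the squares of the degrees
  have hZidx : Z.index = K.index * p ^ (n - c) := by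
    have h1 : Nat.card Z * Z.index = Nat.card N := Subgroup.card_mul_index Z
    have h2 : Nat.card K * K.index = Nat.card N := Subgroup.card_mul_index K
    rw [hZcard] at h1
    rw [hKp] at h2
    have h3 : p ^ c * Z.index = p ^ c * (K.index * p ^ (n - c)) := by
      rw [h1, ← h2]
      have h : p ^ n = p ^ c * p ^ (n - c) := by
        rw [← pow_add]
        congr 1
        omega
      rw [h]
      ring
    exact Nat.eq_of_mul_eq_mul_left (by positivity) h3
  obtain ⟨F, hF⟩ : ∃ F : Finset (N → ℂ), F = (SKall_finite Z).toFinset := ⟨_, rfl⟩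
  have hFmem : ∀ ξ, ξ ∈ F ↔ ξ ∈ SKall Z := by
    intro ξ
    rw [hF, Set.Finite.mem_toFinset]
  have hsum : ∑ ξ ∈ F, degN ξ ^ 2 = K.index * p ^ (n - c) * (p ^ c - 1) := by
    have h0 := SK_sum_sq Z ⊥ bot_le
    rw [Subgroup.card_bot, one_mul, hZcard, hZidx] at h0
    have hF' : (SK_finite Z ⊥).toFinset = F := by
      ext ξ
      rw [Set.Finite.mem_toFinset, SK_bot, hFmem]
    rw [hF'] at h0
    exact h0
  -- conjugate characters
  have hconj : ∀ ξ ∈ SKall Z, (fun g => conj (ξ g)) ∈ SKall Z ∧ (fun g => conj (ξ g)) ≠ ξ ∧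
      degN (fun g => conj (ξ g)) = degN ξ := by
    intro ξ hξ
    obtain ⟨hirr, h, hh, hne⟩ := hξ
    refine ⟨⟨isIrrCharacter_conj hirr, h, hh, fun heq => hne ((starRingEnd ℂ).injective heq)⟩,
      ?_, ?_⟩
    · intro heq
      have hreal : ∀ g : N, ((⟨ξ, hirr⟩ : IrrCharacter N).1 g).im = 0 := by
        intro g
        exact Complex.conj_eq_iff_im.mp (congrFun heq g)
      have h1 := Cfsg.Agent.S0161.result hodd (⟨ξ, hirr⟩ : IrrCharacter N) hreal
      have h2 : ξ = fun _ => 1 := h1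
      apply hne
      rw [h2]
    · unfold degN
      simp
  -- a character of minimal degree
  have hFne : F.Nonempty := by
    by_contra hcon
    rw [Finset.not_nonempty_iff_eq_empty] at hcon
    rw [hcon, Finset.sum_empty] at hsum
    have h1 : 0 < p ^ (n - c) := by positivity
    have h2 : 1 < p ^ c := Nat.one_lt_pow (by omega) hp.one_lt
    have h3 : 0 < K.index * p ^ (n - c) * (p ^ c - 1) :=
      Nat.mul_pos (Nat.mul_pos he0 h1) (by omega)
    omega
  obtain ⟨ψ₀, hψ₀F, hψ₀min⟩ := Finset.exists_min_image F degN hFne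
  have hψ₀ : ψ₀ ∈ SKall Z := (hFmem ψ₀).mp hψ₀F
  obtain ⟨hψ₀c, hψ₀ne, hψ₀deg⟩ := hconj ψ₀ hψ₀
  -- the levels
  obtain ⟨Slev, hSlev⟩ : ∃ Slev : ℕ → Set (N → ℂ), ∀ m, Slev m = {ξ | ξ ∈ SKall Z ∧ degN ξ ≤ m} :=
    ⟨_, fun m => rfl⟩
  have hfin : ∀ m, (Slev m).Finite := fun m =>
    (SKall_finite Z).subset (fun ξ hξ => by rw [hSlev] at hξ; exact hξ.1)
  have hsubK : ∀ m, Slev m ⊆ SKall Z := fun m ξ hξ => by
    rw [hSlev] at hξ
    exact hξ.1
  have hmain : ∀ m, degN ψ₀ ≤ m → IsCoherent (Slev m) {1}ᶜ τ := by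
    intro m hm
    induction m, hm using Nat.le_induction with
    | base =>
      have hdeq : ∀ ξ ∈ Slev (degN ψ₀), degN ξ = degN ψ₀ := by
        intro ξ hξ
        rw [hSlev] at hξ
        exact le_antisymm hξ.2 (hψ₀min ξ ((hFmem ξ).mpr hξ.1))
      exact coh_equal_degree (Slev (degN ψ₀)) (fun ξ hξ => (hsubK _ hξ).1) (degN ψ₀)
        (fun ξ hξ => by rw [(degN_irr (hsubK _ hξ).1).1, hdeq ξ hξ])
        ⟨ψ₀, by rw [hSlev]; exact ⟨hψ₀, le_rfl⟩, fun g => conj (ψ₀ g),
          by rw [hSlev]; exact ⟨hψ₀c, hψ₀deg.le⟩, Ne.symm hψ₀ne⟩ τ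
        (isLinearIsometryOn_mono hτ (fun f hf => zspanOn_mono (hsubK _) hf))
        (fun α hα => hτ1 α (zspanOn_mono (hsubK _) hα))
    | succ m hm ih =>
      have hcoe : (↑((hfin m).toFinset ∪ (hfin (m + 1)).toFinset) : Set (N → ℂ)) =
          Slev (m + 1) := by
        ext ξ
        rw [Finset.mem_coe, Finset.mem_union, Set.Finite.mem_toFinset, Set.Finite.mem_toFinset,
          hSlev, hSlev]
        constructor
        · rintro (h | h)
          · exact ⟨h.1, by have := h.2; omega⟩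
          · exact h
        · exact fun h => Or.inr h
      rw [← hcoe]
      apply feit_criterion_many (SKall Z) (fun ξ hξ => hξ.1) degN
        (fun ξ hξ => (degN_irr hξ.1).1) τ hτ hτ1
      · intro ξ hξ
        exact hsubK m ((Set.Finite.mem_toFinset _).mp (Finset.mem_coe.mp hξ))
      · intro ξ hξ
        exact hsubK (m + 1) ((Set.Finite.mem_toFinset _).mp (Finset.mem_coe.mp hξ))
      · rw [Set.Finite.coe_toFinset]
        exact ih
      · intro χ hχ hχ0
        rw [Set.Finite.mem_toFinset] at hχ hχ0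
        rw [hSlev] at hχ hχ0
        have hχZ : χ ∈ SKall Z := hχ.1
        have hχdeg : degN χ = m + 1 := by
          have h1 := hχ.2
          have h2 : ¬ degN χ ≤ m := fun h => hχ0 ⟨hχZ, h⟩
          omega
        have hkey := coh_central_arith F degN K.index p (n - c) (p ^ c - 1) hp hp3 he0 hcop
          (fun ξ hξ => hdeg ξ ((hFmem ξ).mp hξ)) hsum χ ψ₀ ((hFmem χ).mpr hχZ) hψ₀F
          (by omega)
        have hfilt : F.filter (fun ξ => degN ξ < degN χ) = (hfin m).toFinset := by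
          ext ξ
          rw [Finset.mem_filter, Set.Finite.mem_toFinset, hSlev, hFmem, hχdeg]
          constructor
          · exact fun h => ⟨h.1, by have := h.2; omega⟩
          · exact fun h => ⟨h.1, by have := h.2; omega⟩
        rw [hfilt] at hkey
        exact ⟨ψ₀, (Set.Finite.mem_toFinset _).mpr (by rw [hSlev]; exact ⟨hψ₀, hm⟩), hkey.1,
          hkey.2⟩
  -- conclusion: a level containing everything
  obtain ⟨M, hM⟩ : ∃ M, ∀ ξ ∈ F, degN ξ ≤ M := ⟨F.sup degN, fun ξ hξ => Finset.le_sup hξ⟩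
  have hall : Slev (M + degN ψ₀) = SKall Z := by
    rw [hSlev]
    ext ξ
    constructor
    · exact fun h => h.1
    · exact fun h => ⟨h, by have := hM ξ ((hFmem ξ).mpr h); omega⟩
  rw [← hall]
  exact hmain _ (by omega)

end Central2

end Cfsg.Agent.H19
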