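import Mathlib
import Cfsg.Agent.H19.FeitAb5
import Cfsg.Agent.H5.Coherent
import Cfsg.Agent.H32.Coherence
import Cfsg.Agent.H4.BrauerBasic

/-!
# Exceptional characters for a T.I. Frobenius kernel, general (non-abelian) kernel (helper19)
-/

set_option autoImplicit false
set_option linter.unusedSectionVars false
set_option linter.style.haveILetI false

namespace Cfsg.Agent.H19

open Cfsg Cfsg.Agent.H4 Cfsg.Agent.H5
open scoped ComplexConjugate

universe u

section GenG

variable {G : Type u} [Group G] [Fintype G] (K : Subgroup G)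

theorem indFun_zsmul (H : Subgroup G) (n : ℤ) (θ : H → ℂ) :
    indFun H (n • θ) = n • indFun H θ := by
  classical
  have key : ∀ y : G, extendByZero H (n • θ) y = (n : ℂ) * extendByZero H θ y := by
    intro y
    by_cases hy : y ∈ H
    · rw [extendByZero_of_mem _ _ hy, extendByZero_of_mem _ _ hy, Pi.smul_apply, zsmul_eq_mul]
    · rw [extendByZero_of_not_mem _ _ hy, extendByZero_of_not_mem _ _ hy, mul_zero]
  funext g
  rw [Pi.smul_apply, indFun_apply, indFun_apply]
  simp only [key]
  rw [zsmul_eq_mul, ← Finset.mul_sum]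
  ring

theorem zspan_relSet_genChar {L : Type*} [Group L] [Fintype L] (H : Subgroup L) {α : L → ℂ}
    (hα : α ∈ zspan (relSet H)) : IsGeneralizedCharacter L α := by
  unfold zspan at hα
  induction hα using Submodule.span_induction with
  | mem χ hχ =>
    exact Cfsg.Agent.H32.isGeneralizedCharacter_of_isCharacter (isCharacter_of_isIrrCharacter hχ.1)
  | zero => exact Cfsg.Agent.H32.isGeneralizedCharacter_zero
  | add a b _ _ ha hb => exact Cfsg.Agent.H32.isGeneralizedCharacter_add ha hb
  | smul n a _ ha => exact Cfsg.Agent.H32.isGeneralizedCharacter_zsmul n ha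

variable (hTI : ∀ g : G, g ∉ Subgroup.normalizer (K : Set G) → ∀ k ∈ K, g * k * g⁻¹ ∈ K → k = 1)
  (hC : ∀ k ∈ K, k ≠ 1 → Subgroup.centralizer ({k} : Set G) ≤ K)

include hTI hC in
/-- Induction from the normalizer of a T.I. kernel is a linear isometry on the integer
combinations of exceptional characters vanishing at `1`. -/
theorem indFun_linIso [Fintype ↥(Subgroup.normalizer (K : Set G))] :
    IsLinearIsometryOn (zspanOn (relSet (K.subgroupOf (Subgroup.normalizer (K : Set G))))
      ({1}ᶜ : Set ↥(Subgroup.normalizer (K : Set G))))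
      (fun α => indFun (Subgroup.normalizer (K : Set G)) α) ∧
    ∀ α ∈ zspanOn (relSet (K.subgroupOf (Subgroup.normalizer (K : Set G))))
      ({1}ᶜ : Set ↥(Subgroup.normalizer (K : Set G))),
      indFun (Subgroup.normalizer (K : Set G)) α 1 = 0 := by
  refine ⟨⟨fun α _ β _ => indFun_add _ α β, fun α _ n => indFun_zsmul _ n α, ?_, ?_⟩, ?_⟩
  · intro α hα β hβ
    exact classInner_indFun_TI (K : Set G) hTI α β (zspan_relSet_isClassFunction _ hβ.1)
      (fun x hx => zspan_relSet_vanish _ (normalizer_fpf K hC) hα.1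
        (by rwa [Subgroup.mem_subgroupOf]))
      (fun x hx => zspan_relSet_vanish _ (normalizer_fpf K hC) hβ.1
        (by rwa [Subgroup.mem_subgroupOf]))
      (Cfsg.Agent.H32.zspanOn_compl_one_apply hα)
  · intro α hα
    obtain ⟨χ₁, χ₂, h1, h2, rfl⟩ := zspan_relSet_genChar _ hα.1
    exact ⟨indFun _ χ₁, indFun _ χ₂, isCharacter_indFun _ _ h1, isCharacter_indFun _ _ h2,
      indFun_sub _ _ _⟩
  · intro α hα
    rw [indFun_one_eq, Cfsg.Agent.H32.zspanOn_compl_one_apply hα, mul_zero]

variable (h e : ℕ) (hK : Nat.card K = h)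
  (hN : Nat.card (Subgroup.normalizer (K : Set G)) = h * e)
  (hG : Nat.card G = (h + 1) * (h * e)) (hh : 0 < h) (he : 0 < e)

include hTI hC hK hN hG hh he in
theorem excInd_norm' {ξ : IrrCharacter (Subgroup.normalizer (K : Set G))} (hξ : InExc K ξ) :
    classInner (indFun (Subgroup.normalizer (K : Set G)) ξ.1)
      (indFun (Subgroup.normalizer (K : Set G)) ξ.1) = 1 + ξ.1 1 * ξ.1 1 / (e : ℂ) := by
  classical
  haveI : Fintype ↥(Subgroup.normalizer (K : Set G)) := Fintype.ofFinite _
  obtain ⟨d, hd0, hd⟩ := irr_one_eq_natCast ξ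
  rw [frobenius_reciprocity (Subgroup.normalizer (K : Set G)) ξ.1 _ (indFun_isClassFunction _ _)]
  have key : ∀ n : Subgroup.normalizer (K : Set G),
      ξ.1 n * conj (indFun (Subgroup.normalizer (K : Set G)) ξ.1 (n : G)) =
      ξ.1 n * conj (ξ.1 n) + if n = 1 then (d : ℂ) * ((h : ℂ) * d) else 0 := by
    intro n
    by_cases hn1 : n = 1
    · subst hn1
      rw [if_pos rfl, OneMemClass.coe_one, indFun_one_eq, (feit_index K h e hK hN hG hh he).2.1, hd]
      simp only [map_mul, map_natCast]
      push_cast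
      ring
    · rw [if_neg hn1, add_zero]
      by_cases hnK : (n : G) ∈ K
      · rw [excInd_of_mem K hTI hC hξ n hnK hn1]
      · rw [exc_vanish K hC hξ n hnK, zero_mul, zero_mul]
  have hself := irr_inner_self ξ
  unfold classInner at hself ⊢
  simp only [key]
  rw [Finset.sum_add_distrib, Finset.sum_ite_eq', if_pos (Finset.mem_univ _), mul_add, hself, hN,
    hd]
  have h1 : (h : ℂ) ≠ 0 := by exact_mod_cast hh.ne'
  have h2 : (e : ℂ) ≠ 0 := by exact_mod_cast he.ne'
  push_cast
  field_simp

include hTI hC hK hN hG hh he in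
theorem kerInd_excInd' {ξ : IrrCharacter (Subgroup.normalizer (K : Set G))} (hξ : InExc K ξ) :
    classInner (indFun K (fun _ => (1 : ℂ))) (indFun (Subgroup.normalizer (K : Set G)) ξ.1) =
      ξ.1 1 := by
  classical
  haveI : Fintype K := Fintype.ofFinite _
  haveI : Fintype ↥(Subgroup.normalizer (K : Set G)) := Fintype.ofFinite _
  obtain ⟨d, hd0, hd⟩ := irr_one_eq_natCast ξ
  rw [frobenius_reciprocity K _ _ (indFun_isClassFunction _ _)]
  have key : ∀ k : K, (1 : ℂ) * conj (indFun (Subgroup.normalizer (K : Set G)) ξ.1 (k : G)) =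
      conj (ξ.1 ⟨(k : G), Subgroup.le_normalizer k.2⟩) + if k = 1 then (h : ℂ) * d else 0 := by
    intro k
    by_cases hk1 : k = 1
    · subst hk1
      rw [if_pos rfl]
      change (1 : ℂ) * conj (indFun (Subgroup.normalizer (K : Set G)) ξ.1 (1 : G)) =
        conj (ξ.1 (1 : Subgroup.normalizer (K : Set G))) + (h : ℂ) * d
      rw [indFun_one_eq, (feit_index K h e hK hN hG hh he).2.1, hd]
      simp only [map_mul, map_natCast]
      push_cast
      ring
    · rw [if_neg hk1, add_zero, one_mul]
      have := excInd_of_mem K hTI hC hξ ⟨(k : G), Subgroup.le_normalizer k.2⟩ k.2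
        (fun hc => hk1 (Subtype.ext (show (k : G) = 1 from
          congrArg (fun x : Subgroup.normalizer (K : Set G) => (x : G)) hc)))
      rw [← this]
  unfold classInner
  simp only [key]
  rw [Finset.sum_add_distrib, Finset.sum_ite_eq', if_pos (Finset.mem_univ _), ← map_sum,
    sum_ker_irr K hC ξ, if_pos hξ, map_zero, zero_add, hK, hd]
  have h1 : (h : ℂ) ≠ 0 := by exact_mod_cast hh.ne'
  field_simp

include hC in
/-- The degree of a character in terms of its multiplicities in the induced characters. -/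
theorem degree_formula'
    [Fintype {ξ : IrrCharacter (Subgroup.normalizer (K : Set G)) // InExc K ξ}]
    {A : G → ℂ} (hA : IsCharacter G A) :
    A 1 = ∑ ζ : {ξ : IrrCharacter (Subgroup.normalizer (K : Set G)) // InExc K ξ},
        ζ.1.1 1 * classInner (indFun (Subgroup.normalizer (K : Set G)) ζ.1.1) A +
      classInner (indFun K (fun _ => (1 : ℂ))) A := by
  classical
  haveI : Fintype ↥(Subgroup.normalizer (K : Set G)) := Fintype.ofFinite _
  letI := fintypeIrr (Subgroup.normalizer (K : Set G))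
  have hRc : IsCharacter (Subgroup.normalizer (K : Set G))
      (fun n : Subgroup.normalizer (K : Set G) => A n) := isCharacter_restrict _ hA
  have h1 : A 1 = ∑ ξ : IrrCharacter (Subgroup.normalizer (K : Set G)),
      (ncoef (fun n : Subgroup.normalizer (K : Set G) => A n) ξ : ℂ) * ξ.1 1 :=
    character_eq_sum_ncoef hRc 1
  have h4 : ∑ ζ : {ξ : IrrCharacter (Subgroup.normalizer (K : Set G)) // InExc K ξ},
      ζ.1.1 1 * classInner (indFun (Subgroup.normalizer (K : Set G)) ζ.1.1) A =
      ∑ ξ : IrrCharacter (Subgroup.normalizer (K : Set G)), if InExc K ξ then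
        ξ.1 1 * (ncoef (fun n : Subgroup.normalizer (K : Set G) => A n) ξ : ℂ) else 0 := by
    rw [← Finset.sum_filter]
    rw [Finset.sum_subtype (p := InExc K) (Finset.univ.filter (InExc K))
      (fun x => by
        rw [Finset.mem_filter]
        exact ⟨fun h => h.2, fun h => ⟨Finset.mem_univ _, h⟩⟩)
      (fun ξ => ξ.1 1 * (ncoef (fun n : Subgroup.normalizer (K : Set G) => A n) ξ : ℂ))]
    exact Finset.sum_congr rfl fun ζ _ => by rw [classInner_excInd_eq_ncoef K ζ.1 hA]
  rw [h1, classInner_kerInd_eq K hC hA, h4, ← Finset.sum_add_distrib]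
  refine Finset.sum_congr rfl fun ξ _ => ?_
  by_cases hξ : InExc K ξ
  · rw [if_pos hξ, if_pos hξ, add_zero]
    ring
  · rw [if_neg hξ, if_neg hξ, zero_add]

include hC hK hN hh in
/-- The character `χ₁ * conj χ₁` for an irreducible `χ₁` restricting to an exceptional `ζ₁` of
degree `e`. -/
theorem feit_product' {ζ₁ : IrrCharacter (Subgroup.normalizer (K : Set G))} (hζ₁ : InExc K ζ₁)
    (hdeg : ζ₁.1 1 = (e : ℂ)) (χ₁ : IrrCharacter G)
    (hres : ∀ n : Subgroup.normalizer (K : Set G), χ₁.1 n = ζ₁.1 n) :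
    IsCharacter G (χ₁.1 * fun g => conj (χ₁.1 g)) ∧
    classInner (χ₁.1 * fun g => conj (χ₁.1 g)) (fun _ => (1 : ℂ)) = 1 ∧
    classInner (indFun K (fun _ => (1 : ℂ))) (χ₁.1 * fun g => conj (χ₁.1 g)) = e ∧
    (χ₁.1 * fun g => conj (χ₁.1 g)) 1 = (e : ℂ) * e := by
  classical
  haveI : Fintype ↥(Subgroup.normalizer (K : Set G)) := Fintype.ofFinite _
  haveI : Fintype K := Fintype.ofFinite _
  have hχc := isCharacter_of_isIrrCharacter χ₁.2
  have hPi : IsCharacter G (χ₁.1 * fun g => conj (χ₁.1 g)) :=
    isCharacter_mul hχc (isCharacter_conj hχc)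
  refine ⟨hPi, ?_, ?_, ?_⟩
  · have := irr_inner_self χ₁
    unfold classInner at this ⊢
    simp only [Pi.mul_apply, map_one, mul_one]
    exact this
  · rw [frobenius_reciprocity K _ _ (isClassFunction_of_isCharacter hPi)]
    unfold classInner
    have key : ∀ k : K, (1 : ℂ) * conj ((χ₁.1 * fun g => conj (χ₁.1 g)) (k : G)) =
        ζ₁.1 ⟨(k : G), Subgroup.le_normalizer k.2⟩ *
          conj (ζ₁.1 ⟨(k : G), Subgroup.le_normalizer k.2⟩) := by
      intro k
      have h1 := hres ⟨(k : G), Subgroup.le_normalizer k.2⟩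
      change χ₁.1 (k : G) = _ at h1
      simp only [Pi.mul_apply, one_mul, map_mul, Complex.conj_conj]
      rw [← h1]
      ring
    simp only [key]
    rw [← sum_normalizer_eq_sum_ker K (fun n => ζ₁.1 n * conj (ζ₁.1 n))
      (fun n hn => by rw [exc_vanish K hC hζ₁ n hn, zero_mul])]
    have hself := irr_inner_self ζ₁
    unfold classInner at hself
    have hNne : (Nat.card (Subgroup.normalizer (K : Set G)) : ℂ) ≠ 0 :=
      (neZero_card_complex _).out
    have hsum : ∑ n : Subgroup.normalizer (K : Set G), ζ₁.1 n * conj (ζ₁.1 n) =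
        (Nat.card (Subgroup.normalizer (K : Set G)) : ℂ) := by
      field_simp at hself
      exact hself
    rw [hsum, hK, hN]
    have h1 : (h : ℂ) ≠ 0 := by exact_mod_cast hh.ne'
    push_cast
    field_simp
  · simp only [Pi.mul_apply]
    have h1 := hres 1
    change χ₁.1 (1 : G) = ζ₁.1 1 at h1
    rw [h1, hdeg]
    simp

end GenG

end Cfsg.Agent.H19
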