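import Mathlib

/-!
# The arithmetic core of Feit's theorem on Zassenhaus groups for a coherent set of exceptional
characters of varying degrees (helper19)
-/

set_option autoImplicit false
set_option linter.unusedSectionVars false
set_option linter.style.haveILetI false

namespace Cfsg.Agent.H19

set_option maxHeartbeats 1600000 in
/-- Arithmetic core: exceptional characters `ζ ∈ S` of degrees `e ℓ ζ`, multiplicities `b ζ χ` of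
the irreducible characters `χ ∈ I` of `G` in the induced characters, `f χ` in the character
induced from the trivial character of the kernel; coherence relation `R5`. -/
theorem feit_arith2 {S I : Type*} [Fintype S] [Fintype I] [DecidableEq S] [DecidableEq I]
    (e h : ℕ) (ℓ : S → ℕ) (b : S → I → ℕ) (f n deg : I → ℕ) (one : I) (Θ : S → I)
    (hinj : Function.Injective Θ) (ε : ℤ) (hε : ε = 1 ∨ ε = -1) (ψ : S) (hψ : ℓ ψ = 1)
    (hℓ : ∀ ζ, 0 < ℓ ζ)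
    (hL : e * ∑ ζ, ℓ ζ ^ 2 + 1 = h) (he2 : 2 ≤ e)
    (hbig : (e + 1) * (2 * e + 1) ≤ h)
    (R1 : ∀ ζ, ∑ χ, b ζ χ ^ 2 = 1 + e * ℓ ζ ^ 2)
    (R2 : ∑ χ, f χ ^ 2 = 2 * e)
    (R3 : ∀ ζ, ∑ χ, f χ * b ζ χ = e * ℓ ζ)
    (R4 : ∀ χ, deg χ = e * ∑ ζ, ℓ ζ * b ζ χ + f χ)
    (R5 : ∀ ζ ξ χ, (ℓ ξ : ℤ) * b ζ χ - ℓ ζ * b ξ χ =
      ε * (ℓ ξ * (if χ = Θ ζ then 1 else 0) - ℓ ζ * (if χ = Θ ξ then 1 else 0)))
    (A : ∀ χ, (∀ ζ, b ζ χ = 0) → χ = one)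
    (A1 : ∀ ζ, b ζ one = 0) (A2 : f one = 1)
    (C1 : b ψ (Θ ψ) = 1 → (∀ ξ, ξ ≠ ψ → b ξ (Θ ψ) = 0) → f (Θ ψ) = 0 →
      n one = 1 ∧ ∑ χ, f χ * n χ = e ∧ ∑ χ, n χ * deg χ = e ^ 2) : False := by
  classical
  obtain ⟨Δ, hΔ⟩ : ∃ Δ : I → ℤ, Δ = fun χ => (b ψ χ : ℤ) - ε * (if χ = Θ ψ then 1 else 0) :=
    ⟨_, rfl⟩
  have hstar : ∀ ζ χ, (b ζ χ : ℤ) = ε * (if χ = Θ ζ then 1 else 0) + ℓ ζ * Δ χ := by
    intro ζ χ
    have h1 := R5 ζ ψ χ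
    rw [hψ] at h1
    rw [hΔ]
    push_cast at h1 ⊢
    linear_combination h1
  have hε2 : ε * ε = 1 := by rcases hε with h | h <;> rw [h] <;> norm_num
  obtain ⟨D, hD⟩ : ∃ D : ℤ, D = ∑ χ, Δ χ ^ 2 := ⟨_, rfl⟩
  obtain ⟨L, hLdef⟩ : ∃ L : ℤ, L = ∑ ζ, (ℓ ζ : ℤ) ^ 2 := ⟨_, rfl⟩
  have hLh : (e : ℤ) * L + 1 = h := by
    rw [hLdef]
    exact_mod_cast hL
  have hLnn : 0 ≤ L := by
    rw [hLdef]
    exact Finset.sum_nonneg (fun _ _ => sq_nonneg _)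
  have he0 : (0 : ℤ) ≤ e := Int.natCast_nonneg e
  have hbigZ : ((e : ℤ) + 1) * (2 * e + 1) ≤ h := by exact_mod_cast hbig
  have he2Z : (2 : ℤ) ≤ e := by exact_mod_cast he2
  -- the norm identity
  have hnorm : ∀ ζ, 2 * ε * Δ (Θ ζ) = ℓ ζ * ((e : ℤ) - D) := by
    intro ζ
    have h1 : (∑ χ, (b ζ χ : ℤ) ^ 2) = 1 + (e : ℤ) * (ℓ ζ : ℤ) ^ 2 := by exact_mod_cast R1 ζ
    have h2 : (∑ χ, (b ζ χ : ℤ) ^ 2) =
        (1 + 2 * ε * ℓ ζ * Δ (Θ ζ)) + (ℓ ζ : ℤ) ^ 2 * D := by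
      have hterm : ∀ χ, (b ζ χ : ℤ) ^ 2 =
          (if χ = Θ ζ then 1 + 2 * ε * ℓ ζ * Δ (Θ ζ) else 0) + (ℓ ζ : ℤ) ^ 2 * Δ χ ^ 2 := by
        intro χ
        rw [hstar ζ χ]
        by_cases hc : χ = Θ ζ
        · rw [if_pos hc, if_pos hc, hc]
          linear_combination hε2
        · rw [if_neg hc, if_neg hc]
          ring
      rw [Finset.sum_congr rfl (fun χ _ => hterm χ), Finset.sum_add_distrib, Finset.sum_ite_eq',
        if_pos (Finset.mem_univ _), ← Finset.mul_sum, ← hD]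
    have h3 : (ℓ ζ : ℤ) * (2 * ε * Δ (Θ ζ)) = (ℓ ζ : ℤ) * (ℓ ζ * ((e : ℤ) - D)) := by
      linear_combination h2.symm.trans h1
    exact mul_left_cancel₀ (by exact_mod_cast (hℓ ζ).ne') h3
  obtain ⟨c, hc⟩ : ∃ c : ℤ, c = Δ (Θ ψ) := ⟨_, rfl⟩
  have hDc : 2 * ε * c = (e : ℤ) - D := by
    have h1 := hnorm ψ
    rw [hψ] at h1
    rw [hc]
    push_cast at h1
    linarith
  have ha : ∀ ζ, Δ (Θ ζ) = ℓ ζ * c := by
    intro ζ
    have h1 := hnorm ζ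
    rw [← hDc] at h1
    have h2 : ε * (2 * ε * Δ (Θ ζ)) = ε * (ℓ ζ * (2 * ε * c)) := by rw [h1]
    have h3 : 2 * Δ (Θ ζ) = 2 * (ℓ ζ * c) := by
      linear_combination h2 - (2 * Δ (Θ ζ) - 2 * ℓ ζ * c) * hε2
    linarith
  -- Bessel
  have hBes : c ^ 2 * L ≤ D := by
    have h1 : ∑ ζ, Δ (Θ ζ) ^ 2 ≤ D := by
      rw [hD, ← Finset.sum_image (f := fun χ => Δ χ ^ 2) (s := Finset.univ) (g := Θ)
        (fun x _ y _ hxy => hinj hxy)]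
      exact Finset.sum_le_sum_of_subset_of_nonneg (Finset.subset_univ _)
        (fun χ _ _ => sq_nonneg _)
    have h2 : ∑ ζ, Δ (Θ ζ) ^ 2 = c ^ 2 * L := by
      rw [hLdef, Finset.mul_sum]
      exact Finset.sum_congr rfl (fun ζ _ => by rw [ha ζ]; ring)
    rw [← h2]
    exact h1
  have hc0 : c = 0 := by
    by_contra hne
    have hc1 : 1 ≤ c ^ 2 := by
      have h1 : 0 < c ^ 2 := by positivity
      omega
    have h1 : c ^ 2 * L ≤ (e : ℤ) - 2 * ε * c := by linarith [hBes, hDc]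
    have h2 : c ^ 2 * ((h : ℤ) - 1) ≤ (e : ℤ) ^ 2 - 2 * ε * c * e := by
      have e1 : c ^ 2 * ((h : ℤ) - 1) = e * (c ^ 2 * L) := by rw [← hLh]; ring
      rw [e1]
      nlinarith [mul_le_mul_of_nonneg_left h1 he0]
    have h3 : -(2 * ε * c) ≤ 2 * c ^ 2 := by nlinarith [sq_nonneg (c + ε), hε2]
    have h4 : c ^ 2 * ((h : ℤ) - 1) ≤ c ^ 2 * ((e : ℤ) ^ 2 + 2 * e) := by
      nlinarith [mul_le_mul_of_nonneg_left h3 he0, mul_le_mul_of_nonneg_right hc1 (sq_nonneg (e : ℤ))]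
    have h5 : (h : ℤ) - 1 ≤ (e : ℤ) ^ 2 + 2 * e := le_of_mul_le_mul_left h4 (by positivity)
    nlinarith
  have haz : ∀ ζ, Δ (Θ ζ) = 0 := fun ζ => by rw [ha ζ, hc0, mul_zero]
  have hε1 : ε = 1 := by
    rcases hε with h | h
    · exact h
    · exfalso
      have h1 := hstar ψ (Θ ψ)
      rw [if_pos rfl, haz ψ, h] at h1
      have h2 : (0 : ℤ) ≤ b ψ (Θ ψ) := Int.natCast_nonneg _
      linarith
  have hb : ∀ ζ χ, (b ζ χ : ℤ) = (if χ = Θ ζ then 1 else 0) + ℓ ζ * Δ χ := by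
    intro ζ χ
    have h1 := hstar ζ χ
    rw [hε1, one_mul] at h1
    exact h1
  have hbψ : b ψ (Θ ψ) = 1 := by
    have h1 := hb ψ (Θ ψ)
    rw [if_pos rfl, haz ψ, mul_zero, add_zero] at h1
    exact_mod_cast h1
  have hbξ : ∀ ξ, ξ ≠ ψ → b ξ (Θ ψ) = 0 := by
    intro ξ hξ
    have h1 := hb ξ (Θ ψ)
    rw [if_neg (fun hc => hξ (hinj hc).symm), haz ψ, mul_zero, add_zero] at h1
    exact_mod_cast h1
  obtain ⟨g, hg⟩ : ∃ g : ℤ, g = (e : ℤ) - ∑ χ, (f χ : ℤ) * Δ χ := ⟨_, rfl⟩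
  have hf : ∀ ξ, (f (Θ ξ) : ℤ) = ℓ ξ * g := by
    intro ξ
    have h1 : (∑ χ, (f χ : ℤ) * b ξ χ) = (e : ℤ) * ℓ ξ := by exact_mod_cast R3 ξ
    have h2 : (∑ χ, (f χ : ℤ) * b ξ χ) = f (Θ ξ) + ℓ ξ * ∑ χ, (f χ : ℤ) * Δ χ := by
      have hterm : ∀ χ, (f χ : ℤ) * b ξ χ =
          (if χ = Θ ξ then (f (Θ ξ) : ℤ) else 0) + ℓ ξ * ((f χ : ℤ) * Δ χ) := by
        intro χ
        rw [hb ξ χ]
        by_cases hc : χ = Θ ξ
        · rw [if_pos hc, if_pos hc, hc]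
          ring
        · rw [if_neg hc, if_neg hc]
          ring
      rw [Finset.sum_congr rfl (fun χ _ => hterm χ), Finset.sum_add_distrib, Finset.sum_ite_eq',
        if_pos (Finset.mem_univ _), ← Finset.mul_sum]
    have h3 : (f (Θ ξ) : ℤ) + ℓ ξ * ∑ χ, (f χ : ℤ) * Δ χ = (e : ℤ) * ℓ ξ := by rw [← h2, h1]
    rw [hg]
    linear_combination h3
  have hone : ∀ ξ, Θ ξ ≠ one := by
    intro ξ hc
    have h1 := hb ξ (Θ ξ)
    rw [if_pos rfl, haz ξ, mul_zero, add_zero, hc, A1 ξ] at h1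
    norm_num at h1
  have hg0 : g = 0 := by
    by_contra hne
    have hg1 : 1 ≤ g ^ 2 := by
      have h1 : 0 < g ^ 2 := by positivity
      omega
    have h1 : ∑ ξ, (f (Θ ξ) : ℤ) ^ 2 + 1 ≤ 2 * e := by
      have hsum : ∑ χ, (f χ : ℤ) ^ 2 = 2 * e := by exact_mod_cast R2
      rw [← hsum]
      have himg : ∑ ξ, (f (Θ ξ) : ℤ) ^ 2 = ∑ χ ∈ Finset.univ.image Θ, (f χ : ℤ) ^ 2 :=
        (Finset.sum_image (f := fun χ => (f χ : ℤ) ^ 2) (s := Finset.univ) (g := Θ)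
          (fun x _ y _ hxy => hinj hxy)).symm
      have hnot : one ∉ Finset.univ.image Θ := by
        intro hmem
        obtain ⟨ξ, -, hξ⟩ := Finset.mem_image.mp hmem
        exact hone ξ hξ
      have h3 : ∑ χ ∈ insert one (Finset.univ.image Θ), (f χ : ℤ) ^ 2 ≤ ∑ χ, (f χ : ℤ) ^ 2 :=
        Finset.sum_le_sum_of_subset_of_nonneg (Finset.subset_univ _) (fun _ _ _ => sq_nonneg _)
      rw [Finset.sum_insert hnot, A2] at h3
      rw [himg]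
      push_cast at h3
      linarith
    have h2 : ∑ ξ, (f (Θ ξ) : ℤ) ^ 2 = g ^ 2 * L := by
      rw [hLdef, Finset.mul_sum]
      exact Finset.sum_congr rfl (fun ξ _ => by rw [hf ξ]; ring)
    have h3 : L ≤ 2 * (e : ℤ) - 1 := by nlinarith [mul_le_mul_of_nonneg_right hg1 hLnn]
    nlinarith [mul_le_mul_of_nonneg_left h3 he0]
  have hfψ : f (Θ ψ) = 0 := by
    have h1 := hf ψ
    rw [hg0, mul_zero] at h1
    exact_mod_cast h1
  obtain ⟨hn1, hfn, hnd⟩ := C1 hbψ hbξ hfψ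
  have hex : ∃ χ₀, χ₀ ≠ one ∧ 0 < f χ₀ * n χ₀ := by
    by_contra hcon
    push Not at hcon
    have h1 : ∑ χ, f χ * n χ = f one * n one := by
      rw [Finset.sum_eq_single one]
      · intro χ _ hne
        have := hcon χ hne
        omega
      · intro h
        exact absurd (Finset.mem_univ _) h
    rw [hfn, A2, hn1] at h1
    omega
  obtain ⟨χ₀, hχ₀, hpos⟩ := hex
  have hfpos : 0 < f χ₀ := Nat.pos_of_ne_zero (fun h => by rw [h, zero_mul] at hpos; omega)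
  have hnpos : 0 < n χ₀ := Nat.pos_of_ne_zero (fun h => by rw [h, mul_zero] at hpos; omega)
  have hχ₀Θ : ∀ ξ, χ₀ ≠ Θ ξ := by
    intro ξ hc
    have h1 := hf ξ
    rw [hg0, mul_zero, ← hc] at h1
    have h2 : f χ₀ = 0 := by exact_mod_cast h1
    omega
  have hbχ₀ : ∀ ζ, (b ζ χ₀ : ℤ) = ℓ ζ * Δ χ₀ := by
    intro ζ
    rw [hb ζ χ₀, if_neg (hχ₀Θ ζ), zero_add]
  have hΔpos : 1 ≤ Δ χ₀ := by
    by_contra hlt
    push Not at hlt
    have h1 := hbχ₀ ψ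
    rw [hψ] at h1
    have h2 : (0 : ℤ) ≤ b ψ χ₀ := Int.natCast_nonneg _
    have h3 : Δ χ₀ = 0 := by
      push_cast at h1
      linarith
    apply hχ₀
    apply A
    intro ζ
    have h4 := hbχ₀ ζ
    rw [h3, mul_zero] at h4
    exact_mod_cast h4
  have hdeg : (h : ℤ) ≤ deg χ₀ := by
    have h1 : (deg χ₀ : ℤ) = e * ∑ ζ, (ℓ ζ : ℤ) * b ζ χ₀ + f χ₀ := by exact_mod_cast R4 χ₀
    have h2 : ∑ ζ, (ℓ ζ : ℤ) * b ζ χ₀ = Δ χ₀ * L := by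
      rw [hLdef, Finset.mul_sum]
      exact Finset.sum_congr rfl (fun ζ _ => by rw [hbχ₀ ζ]; ring)
    rw [h2] at h1
    have h4 : (1 : ℤ) ≤ f χ₀ := by exact_mod_cast hfpos
    nlinarith [mul_le_mul_of_nonneg_right hΔpos (mul_nonneg he0 hLnn)]
  have h7 : n χ₀ * deg χ₀ ≤ e ^ 2 := by
    rw [← hnd]
    exact Finset.single_le_sum (f := fun χ => n χ * deg χ) (fun _ _ => Nat.zero_le _)
      (Finset.mem_univ χ₀)
  have h8 : deg χ₀ ≤ e ^ 2 := le_trans (Nat.le_mul_of_pos_left _ hnpos) h7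
  have h9 : (h : ℤ) ≤ (e : ℤ) ^ 2 := by
    have h10 : (deg χ₀ : ℤ) ≤ (e : ℤ) ^ 2 := by exact_mod_cast h8
    linarith
  nlinarith

end Cfsg.Agent.H19
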