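import Mathlib
import Cfsg.Agent.H19.FeitG1
import Cfsg.Agent.H19.FeitG2
import Cfsg.Agent.H19.CohG
import Cfsg.Agent.S1535
import Cfsg.Agent.S1529
import Cfsg.Agent.H19.FeitG3

/-!
# Feit's theorem on Zassenhaus groups: a coherent T.I. Frobenius kernel in a simple group of
order `(h + 1) h e` is small (helper19)
-/

set_option autoImplicit false
set_option linter.unusedSectionVars false
set_option linter.style.haveILetI false

namespace Cfsg.Agent.H19

open Cfsg Cfsg.Agent.H4 Cfsg.Agent.H5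
open scoped ComplexConjugate

universe u

section Core

variable {G : Type u} [Group G] [Fintype G] (K : Subgroup G)

local notation "NK" => Subgroup.normalizer (K : Set G)
local notation "HK" => Subgroup.subgroupOf K (Subgroup.normalizer (K : Set G))
local notation "Exc" => {ξ : IrrCharacter (Subgroup.normalizer (K : Set G)) // InExc K ξ}

set_option maxHeartbeats 1600000 in
/-- In a simple group `G` of order `(h + 1) h e` with a T.I. subgroup `K` of order `h`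
containing the centralizers of its non-identity elements and with normalizer of order `h e`:
`(e + 1) (2 e + 1) ≤ h` is impossible when the characters of the normalizer not containing `K`
in their kernel are coherent. -/
theorem feit_coherent_core2 [IsSimpleGroup G]
    (hTI : ∀ g : G, g ∉ Subgroup.normalizer (K : Set G) → ∀ k ∈ K, g * k * g⁻¹ ∈ K → k = 1)
    (hC : ∀ k ∈ K, k ≠ 1 → Subgroup.centralizer ({k} : Set G) ≤ K)
    (h e : ℕ) (hK : Nat.card K = h)
    (hN : Nat.card (Subgroup.normalizer (K : Set G)) = h * e)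
    (hG : Nat.card G = (h + 1) * (h * e)) (he2 : 2 ≤ e)
    (hbig : (e + 1) * (2 * e + 1) ≤ h)
    [Fintype ↥(Subgroup.normalizer (K : Set G))]
    (hcoh : IsCoherent (relSet (K.subgroupOf (Subgroup.normalizer (K : Set G))))
      ({1}ᶜ : Set ↥(Subgroup.normalizer (K : Set G)))
      (fun α => indFun (Subgroup.normalizer (K : Set G)) α)) : False := by
  classical
  have he : 0 < e := by omega
  have hh15 : 15 ≤ h := by nlinarith
  have hh : 0 < h := by omega
  have hh2 : 2 ≤ h := by omega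
  letI := fintypeIrr NK
  letI := fintypeIrr G
  obtain ⟨hidx, hNidx, hKidx⟩ := feit_index K h e hK hN hG hh he
  have hH'card : Nat.card HK = h := by
    rw [← hK]
    exact Nat.card_congr (Subgroup.subgroupOfEquivOfLe Subgroup.le_normalizer).toEquiv
  have hC' : ∀ k ∈ HK, k ≠ 1 → Subgroup.centralizer ({k} : Set ↥NK) ≤ HK := by
    intro k hk hk1 x hx
    by_contra hxK
    have hcomm : x * k = k * x := (Subgroup.mem_centralizer_iff.mp hx k rfl).symm
    exact hk1 (normalizer_fpf K hC x hxK k hk hcomm)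
  have hH1 : HK ≠ ⊥ := by
    intro hbot
    rw [hbot, Subgroup.card_bot] at hH'card
    omega
  have hH2 : HK ≠ ⊤ := by
    intro htop
    rw [htop, Subgroup.index_top] at hidx
    omega
  have hne1 : Nat.card HK ≠ (HK).index + 1 := by
    rw [hH'card, hidx]
    nlinarith
  obtain ⟨hτ, hτ1⟩ := indFun_linIso K hTI hC
  obtain ⟨-, τ₁, hτ₁, hagree⟩ := hcoh
  obtain ⟨ψ, hψS, hψdeg, ξ₀, hξ₀S, hξ₀ne⟩ := exists_two_exc HK hC' hH1 hH2 hne1
  have hirrS : ∀ χ ∈ relSet HK, IsIrrCharacter ↥NK χ := fun χ hχ => hχ.1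
  obtain ⟨ε, hε, hΘirr, hτinj⟩ := Cfsg.Agent.S1529.result NK (relSet HK) hirrS
    ⟨ψ, hψS, ξ₀, hξ₀S, Ne.symm hξ₀ne⟩ τ₁ hτ₁ (by
      intro α hα hα1
      have hmem := Cfsg.Agent.H32.mem_zspanOn_compl_one hα hα1
      have h1 : τ₁ α = indFun NK α := hagree α hmem
      rw [h1]
      exact hτ1 α hmem)
  have hε0 : ε ≠ 0 := by rcases hε with h | h <;> rw [h] <;> norm_num
  have hεε : ε * ε = 1 := by rcases hε with h | h <;> rw [h] <;> norm_num
  have hmemS : ∀ ζ : Exc, ζ.1.1 ∈ relSet HK := fun ζ => exc_mem_relSet K ζ.2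
  obtain ⟨Θ, hΘ⟩ : ∃ Θ : Exc → IrrCharacter G, ∀ ζ, (Θ ζ).1 = ε • τ₁ ζ.1.1 :=
    ⟨fun ζ => ⟨ε • τ₁ ζ.1.1, hΘirr _ (hmemS ζ)⟩, fun ζ => rfl⟩
  have hΘinj : Function.Injective Θ := by
    intro ζ ξ hζξ
    have h1 : ε • τ₁ ζ.1.1 = ε • τ₁ ξ.1.1 := by rw [← hΘ ζ, ← hΘ ξ, hζξ]
    have h2 : τ₁ ζ.1.1 = τ₁ ξ.1.1 := smul_right_injective _ hε0 h1
    exact Subtype.ext (Subtype.ext (hτinj _ (hmemS ζ) _ (hmemS ξ) h2))
  have hτΘ : ∀ ζ : Exc, τ₁ ζ.1.1 = ε • (Θ ζ).1 := by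
    intro ζ
    rw [hΘ ζ, smul_smul, hεε, one_smul]
  have hdvd : ∀ ζ : Exc, e ∣ degN ζ.1.1 := by
    intro ζ
    have h1 := SKall_dvd HK hC' (hmemS ζ)
    rwa [hidx] at h1
  choose ℓ hℓdef using hdvd
  have hℓpos : ∀ ζ, 0 < ℓ ζ := by
    intro ζ
    have h1 := (degN_irr ζ.1.2).2
    rw [hℓdef ζ] at h1
    exact Nat.pos_of_ne_zero (fun h0 => by rw [h0, mul_zero] at h1; omega)
  have hdegC : ∀ ζ : Exc, ζ.1.1 1 = (e : ℂ) * (ℓ ζ : ℂ) := by
    intro ζ
    rw [(degN_irr ζ.1.2).1, hℓdef ζ]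
    push_cast
    ring
  obtain ⟨ψ', hψ'⟩ : ∃ ψ' : Exc, ψ'.1.1 = ψ := by
    obtain ⟨k, hk, hne⟩ := hψS.2
    exact ⟨⟨⟨ψ, hψS.1⟩, ⟨k, Subgroup.mem_subgroupOf.mp hk, hne⟩⟩, rfl⟩
  have hℓψ : ℓ ψ' = 1 := by
    have h1 := hℓdef ψ'
    rw [hψ', hψdeg, hidx] at h1
    exact Nat.eq_of_mul_eq_mul_left he (by rw [mul_one]; exact h1.symm)
  have hL : e * ∑ ζ : Exc, ℓ ζ ^ 2 + 1 = h := by
    have hs := SK_sum_sq HK ⊥ bot_le
    rw [Subgroup.card_bot, one_mul, hidx, hH'card] at hs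
    have hF : (SK_finite HK ⊥).toFinset = (Finset.univ : Finset Exc).map
        ⟨fun ζ => ζ.1.1, fun a b hab => Subtype.ext (Subtype.ext hab)⟩ := by
      ext ξ
      rw [Set.Finite.mem_toFinset, SK_bot, Finset.mem_map]
      constructor
      · intro hξ
        obtain ⟨k, hk, hne⟩ := hξ.2
        exact ⟨⟨⟨ξ, hξ.1⟩, ⟨k, Subgroup.mem_subgroupOf.mp hk, hne⟩⟩, Finset.mem_univ _, rfl⟩
      · rintro ⟨ζ, -, rfl⟩
        exact hmemS ζ
    rw [hF, Finset.sum_map] at hs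
    have h1 : ∑ ζ : Exc, degN ζ.1.1 ^ 2 = e * (e * ∑ ζ : Exc, ℓ ζ ^ 2) := by
      rw [Finset.mul_sum, Finset.mul_sum]
      exact Finset.sum_congr rfl (fun ζ _ => by rw [hℓdef ζ]; ring)
    have hs' : ∑ ζ : Exc, degN ζ.1.1 ^ 2 = e * (h - 1) := hs
    rw [h1] at hs'
    have h2 := Nat.eq_of_mul_eq_mul_left he hs'
    omega
  have hT : IsCharacter G (indFun K (fun _ => (1 : ℂ))) :=
    isCharacter_indFun K _ (isCharacter_of_isIrrCharacter (trivialIrr K).2)
  have hZ : ∀ ζ : Exc, IsCharacter G (indFun NK ζ.1.1) :=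
    fun ζ => isCharacter_indFun _ _ (isCharacter_of_isIrrCharacter ζ.1.2)
  have hdegG : ∀ ξ : IrrCharacter G, ∃ d : ℕ, 0 < d ∧ ξ.1 1 = d := fun ξ => irr_one_eq_natCast ξ
  choose dG hdG0 hdG using hdegG
  have heC : (e : ℂ) ≠ 0 := by exact_mod_cast he.ne'
  refine feit_arith2 e h ℓ
    (fun ζ χ => ncoef (indFun NK ζ.1.1) χ)
    (fun χ => ncoef (indFun K (fun _ => (1 : ℂ))) χ)
    (fun χ => ncoef ((Θ ψ').1 * fun g => conj ((Θ ψ').1 g)) χ) dG (trivialIrr G) Θ hΘinj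
    (if ε = 1 then 1 else -1) ?_ ψ' hℓψ hℓpos hL he2 hbig ?_ ?_ ?_ ?_ ?_ ?_ ?_ ?_ ?_
  · split_ifs <;> simp
  · -- R1
    intro ζ
    have h1 := classInner_eq_sum_ncoef (hZ ζ) (hZ ζ)
    rw [excInd_norm' K hTI hC h e hK hN hG hh he ζ.2, hdegC ζ] at h1
    have h2 : ((∑ χ : IrrCharacter G,
        ncoef (indFun NK ζ.1.1) χ * ncoef (indFun NK ζ.1.1) χ : ℕ) : ℂ) =
        ((1 + e * ℓ ζ ^ 2 : ℕ) : ℂ) := by
      rw [← h1]
      push_cast
      field_simp
    have h3 : (∑ χ : IrrCharacter G,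
        ncoef (indFun NK ζ.1.1) χ * ncoef (indFun NK ζ.1.1) χ) = 1 + e * ℓ ζ ^ 2 := by
      exact_mod_cast h2
    rw [← h3]
    exact Finset.sum_congr rfl (fun χ _ => sq _)
  · -- R2
    have h1 := classInner_eq_sum_ncoef hT hT
    rw [kerInd_norm K hTI h e hK hN hG hh he] at h1
    have h2 : (∑ χ : IrrCharacter G,
        ncoef (indFun K (fun _ => (1 : ℂ))) χ * ncoef (indFun K (fun _ => (1 : ℂ))) χ) =
        2 * e := by
      exact_mod_cast h1.symm
    rw [← h2]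
    exact Finset.sum_congr rfl (fun χ _ => sq _)
  · -- R3
    intro ζ
    have h1 := classInner_eq_sum_ncoef hT (hZ ζ)
    rw [kerInd_excInd' K hTI hC h e hK hN hG hh he ζ.2, hdegC ζ] at h1
    have h2 : ((∑ χ : IrrCharacter G,
        ncoef (indFun K (fun _ => (1 : ℂ))) χ * ncoef (indFun NK ζ.1.1) χ : ℕ) : ℂ) =
        ((e * ℓ ζ : ℕ) : ℂ) := by
      rw [← h1]
      push_cast
      rfl
    exact_mod_cast h2
  · -- R4
    intro χ
    have h3 := degree_formula' K hC (isCharacter_of_isIrrCharacter χ.2)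
    rw [Finset.sum_congr rfl (fun ζ _ => by rw [← ncoef_cast (hZ ζ) χ, hdegC ζ]),
      ← ncoef_cast hT χ, hdG χ] at h3
    have h4 : ((dG χ : ℕ) : ℂ) = ((e * ∑ ζ : Exc, ℓ ζ * ncoef (indFun NK ζ.1.1) χ +
        ncoef (indFun K (fun _ => (1 : ℂ))) χ : ℕ) : ℂ) := by
      rw [h3]
      push_cast
      rw [Finset.mul_sum]
      congr 1
      exact Finset.sum_congr rfl (fun ζ _ => by ring)
    exact_mod_cast h4
  · -- R5
    intro ζ ξ χ
    have hα : ((ℓ ξ : ℤ) • ζ.1.1 - (ℓ ζ : ℤ) • ξ.1.1) ∈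
        zspanOn (relSet HK) ({1}ᶜ : Set ↥NK) := by
      apply Cfsg.Agent.H32.mem_zspanOn_compl_one
      · exact Submodule.sub_mem _ (Submodule.smul_mem _ _ (Submodule.subset_span (hmemS ζ)))
          (Submodule.smul_mem _ _ (Submodule.subset_span (hmemS ξ)))
      · rw [Pi.sub_apply, Pi.smul_apply, Pi.smul_apply, hdegC ζ, hdegC ξ, zsmul_eq_mul,
          zsmul_eq_mul]
        push_cast
        ring
    have h1 : τ₁ ((ℓ ξ : ℤ) • ζ.1.1 - (ℓ ζ : ℤ) • ξ.1.1) =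
        indFun NK ((ℓ ξ : ℤ) • ζ.1.1 - (ℓ ζ : ℤ) • ξ.1.1) := hagree _ hα
    rw [Cfsg.Agent.H32.linIso_zspan_sub hτ₁ (Submodule.subset_span (hmemS ζ))
      (Submodule.subset_span (hmemS ξ)), indFun_sub, indFun_zsmul, indFun_zsmul, hτΘ ζ,
      hτΘ ξ] at h1
    have h2 := congrArg (fun F => classInner F χ.1) h1
    simp only [classInner_sub_left, Cfsg.Agent.H32.classInner_zsmul_left, classInner_smul_left,
      irr_inner] at h2
    rw [← ncoef_cast (hZ ζ) χ, ← ncoef_cast (hZ ξ) χ] at h2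
    have e1 : (if Θ ζ = χ then (1 : ℂ) else 0) = ((if χ = Θ ζ then 1 else 0 : ℤ) : ℂ) := by
      by_cases hc : χ = Θ ζ
      · rw [if_pos hc, if_pos hc.symm]
        norm_num
      · rw [if_neg hc, if_neg (fun h => hc h.symm)]
        norm_num
    have e2 : (if Θ ξ = χ then (1 : ℂ) else 0) = ((if χ = Θ ξ then 1 else 0 : ℤ) : ℂ) := by
      by_cases hc : χ = Θ ξ
      · rw [if_pos hc, if_pos hc.symm]
        norm_num
      · rw [if_neg hc, if_neg (fun h => hc h.symm)]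
        norm_num
    have e3 : ε = ((if ε = 1 then 1 else -1 : ℤ) : ℂ) := by
      rcases hε with h | h
      · rw [if_pos h, h]
        norm_num
      · have : ¬ (ε = 1) := by
          rw [h]
          norm_num
        rw [if_neg this, h]
        norm_num
    rw [e1, e2, e3] at h2
    have h3 : ((ℓ ξ : ℤ) * ((if ε = 1 then 1 else -1 : ℤ) * (if χ = Θ ζ then 1 else 0 : ℤ)) -
        (ℓ ζ : ℤ) * ((if ε = 1 then 1 else -1 : ℤ) * (if χ = Θ ξ then 1 else 0 : ℤ)) : ℤ) =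
        (ℓ ξ : ℤ) * (ncoef (indFun NK ζ.1.1) χ : ℤ) -
          (ℓ ζ : ℤ) * (ncoef (indFun NK ξ.1.1) χ : ℤ) := by
      exact_mod_cast h2
    linear_combination -h3
  · -- A
    intro χ h0
    obtain ⟨k, hk, hk1⟩ := exists_ne_one_of_card K h hK hh2
    have hconst := const_on_ker_of_orth K (isCharacter_of_isIrrCharacter χ.2) (fun ξ hξ => by
      rw [← ncoef_cast (hZ ⟨ξ, hξ⟩) χ, h0 ⟨ξ, hξ⟩, Nat.cast_zero]) k hk
    exact Subtype.ext (irr_eq_one_of_const χ.2 k hk1 hconst)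
  · -- A1
    intro ζ
    have h1 := ncoef_cast (hZ ζ) (trivialIrr G)
    have h2 := classInner_indFun_trivial K ζ.1
    change classInner (indFun NK ζ.1.1) (trivialIrr G).1 = _ at h2
    rw [h2, if_neg (by
      intro hc
      obtain ⟨k, -, hk⟩ := ζ.2
      rw [← hc] at hk
      exact hk rfl)] at h1
    exact_mod_cast h1
  · -- A2
    have h1 := ncoef_cast hT (trivialIrr G)
    have h2 : classInner (indFun K (fun _ => (1 : ℂ))) (trivialIrr G).1 = 1 := by
      haveI : Fintype K := Fintype.ofFinite _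
      rw [frobenius_reciprocity K _ _ (irr_isClassFunction _)]
      exact irr_inner_self (trivialIrr K)
    rw [h2] at h1
    exact_mod_cast h1
  · -- C1
    intro hb1 hb0 hf0
    have hres := restrict_eq_of_coef K hC (isCharacter_of_isIrrCharacter (Θ ψ').2) ψ'.1
      (by rw [← ncoef_cast (hZ ψ') _, hb1, Nat.cast_one])
      (fun ξ hξ hne => by
        rw [← ncoef_cast (hZ ⟨ξ, hξ⟩) _,
          hb0 ⟨ξ, hξ⟩ (fun hc => hne (congrArg Subtype.val hc)), Nat.cast_zero])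
      (by rw [← ncoef_cast hT _, hf0, Nat.cast_zero])
    obtain ⟨hPi, hPi1, hPiT, hPid⟩ :=
      feit_product' K hC h e hK hN hh ψ'.2 (by rw [hdegC ψ', hℓψ]; simp) (Θ ψ') hres
    refine ⟨?_, ?_, ?_⟩
    · have h1 := ncoef_cast hPi (trivialIrr G)
      change _ = classInner ((Θ ψ').1 * fun g => conj ((Θ ψ').1 g)) (fun _ => (1 : ℂ)) at h1
      rw [hPi1] at h1
      exact_mod_cast h1
    · have h1 := classInner_eq_sum_ncoef hT hPi
      rw [hPiT] at h1
      exact_mod_cast h1.symm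
    · have h3 := character_eq_sum_ncoef hPi 1
      rw [hPid] at h3
      simp only [hdG] at h3
      have h4 : ((∑ χ : IrrCharacter G,
          ncoef ((Θ ψ').1 * fun g => conj ((Θ ψ').1 g)) χ * dG χ : ℕ) : ℂ) =
          ((e ^ 2 : ℕ) : ℂ) := by
        push_cast
        rw [← h3]
        ring
      exact_mod_cast h4

end Core

end Cfsg.Agent.H19
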