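import Cfsg.Agent.H77.TmDefs2

/-!
# S5987-ANISOISO (helper19, for helper77): two anisotropic binary forms over a finite field are
equivalent by a triangular substitution.
-/

set_option autoImplicit false

namespace Cfsg.Agent.H19.Tm

open Cfsg.Agent.H77.Tm Cfsg.Agent.H77.Tq

universe u

section
variable {F : Type u} [Field F]

theorem aniso_no_root {a b : F} (h : Aniso a b) (x : F) : x ^ 2 + a * x + b ≠ 0 := by
  intro hx
  have := h x 1 (by rw [← hx]; ring)
  exact one_ne_zero this.2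

/-- odd characteristic: the discriminant of an anisotropic form is a nonsquare. -/
theorem aniso_disc_not_sq (h2 : (2 : F) ≠ 0) {a b : F} (h : Aniso a b) :
    ¬ IsSquare (a ^ 2 - 4 * b) := by
  rintro ⟨c, hc⟩
  apply aniso_no_root h ((-a + c) / 2)
  field_simp
  linear_combination (-1 : F) * hc

theorem ringChar_ne_two_of (h2 : (2 : F) ≠ 0) : ringChar F ≠ 2 := by
  intro h
  apply h2
  have := CharP.cast_eq_zero F (ringChar F)
  rw [h] at this
  exact_mod_cast this

theorem ringChar_eq_two_of (h2 : (2 : F) = 0) : ringChar F = 2 :=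
  CharP.ringChar_of_prime_eq_zero Nat.prime_two (by exact_mod_cast h2)

/-- the substitution identity from the two coefficient identities. -/
theorem subst_of_coeff {a b a' b' u v : F} (h1 : 2 * u + a' * v = a)
    (h2 : u ^ 2 + a' * u * v + b' * v ^ 2 = b) (z₁ z₂ : F) :
    z₁ ^ 2 + a * z₁ * z₂ + b * z₂ ^ 2 =
      (z₁ + u * z₂) ^ 2 + a' * (z₁ + u * z₂) * (v * z₂) + b' * (v * z₂) ^ 2 := by
  linear_combination (-(z₁ * z₂)) * h1 - z₂ ^ 2 * h2

end

section Fin
variable {F : Type u} [Field F] [Fintype F]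

theorem anisoIso_odd (h2 : (2 : F) ≠ 0) {a b a' b' : F} (h : Aniso a b) (h' : Aniso a' b') :
    ∃ u v : F, v ≠ 0 ∧ 2 * u + a' * v = a ∧ u ^ 2 + a' * u * v + b' * v ^ 2 = b := by
  classical
  have hD := aniso_disc_not_sq h2 h
  have hD' := aniso_disc_not_sq h2 h'
  have hD0 : a ^ 2 - 4 * b ≠ 0 := fun h0 => hD (h0 ▸ IsSquare.zero)
  have hD0' : a' ^ 2 - 4 * b' ≠ 0 := fun h0 => hD' (h0 ▸ IsSquare.zero)
  have hχ : quadraticChar F ((a ^ 2 - 4 * b) * (a' ^ 2 - 4 * b')) = 1 := by
    rw [map_mul, quadraticChar_neg_one_iff_not_isSquare.mpr hD,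
      quadraticChar_neg_one_iff_not_isSquare.mpr hD']
    norm_num
  obtain ⟨w, hw⟩ := (quadraticChar_one_iff_isSquare (mul_ne_zero hD0 hD0')).mp hχ
  have hw0 : w ≠ 0 := by
    rintro rfl
    exact mul_ne_zero hD0 hD0' (by simpa using hw)
  refine ⟨(a - a' * (w / (a' ^ 2 - 4 * b'))) / 2, w / (a' ^ 2 - 4 * b'),
    div_ne_zero hw0 hD0', ?_, ?_⟩
  · field_simp
    ring
  · field_simp
    linear_combination (a' ^ 2 - 4 * b') * hw

/-- Artin–Schreier map in characteristic two. -/
def asHom (h2 : (2 : F) = 0) : F →+ F where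
  toFun s := s * s + s
  map_zero' := by simp
  map_add' s t := by linear_combination (s * t) * h2

omit [Fintype F] in
theorem asHom_apply (h2 : (2 : F) = 0) (s : F) : asHom h2 s = s * s + s := rfl

omit [Fintype F] in
theorem asHom_ker_card (h2 : (2 : F) = 0) : Nat.card (asHom h2).ker = 2 := by
  rw [Nat.card_eq_two_iff]
  refine ⟨⟨0, by simp⟩, ⟨1, ?_⟩, ?_, ?_⟩
  · rw [AddMonoidHom.mem_ker, asHom_apply]
    linear_combination h2
  · intro h
    exact zero_ne_one (congrArg Subtype.val h)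
  · ext ⟨s, hs⟩
    simp only [Set.mem_insert_iff, Set.mem_singleton_iff, Set.mem_univ, iff_true, Subtype.mk.injEq]
    rw [AddMonoidHom.mem_ker, asHom_apply] at hs
    have : s * (s + 1) = 0 := by linear_combination hs
    rcases mul_eq_zero.mp this with h | h
    · exact Or.inl h
    · right
      linear_combination h - h2

theorem asHom_range_index (h2 : (2 : F) = 0) : (asHom h2).range.index = 2 := by
  have h1 := AddSubgroup.card_mul_index (asHom h2).ker
  have h3 := AddSubgroup.card_mul_index (asHom h2).range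
  rw [AddSubgroup.index_ker, asHom_ker_card] at h1
  have hpos : 0 < Nat.card (asHom h2).range := Nat.card_pos
  rw [← h1, mul_comm] at h3
  exact Nat.eq_of_mul_eq_mul_right hpos h3

theorem aniso_a_ne_zero_two (h2 : (2 : F) = 0) {a b : F} (h : Aniso a b) : a ≠ 0 := by
  rintro rfl
  obtain ⟨c, hc⟩ := FiniteField.isSquare_of_char_two (ringChar_eq_two_of h2) b
  have := h c 1 (by rw [hc]; linear_combination (c * c) * h2)
  exact one_ne_zero this.2

theorem aniso_not_mem_range (h2 : (2 : F) = 0) {a b : F} (h : Aniso a b) :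
    b / a ^ 2 ∉ (asHom h2).range := by
  have ha := aniso_a_ne_zero_two h2 h
  rintro ⟨s, hs⟩
  rw [asHom_apply] at hs
  have hb : b = a ^ 2 * (s * s + s) := by
    rw [hs]; field_simp
  apply aniso_no_root h (a * s)
  rw [hb]
  linear_combination (a ^ 2 * (s * s + s)) * h2

theorem anisoIso_two (h2 : (2 : F) = 0) {a b a' b' : F} (h : Aniso a b) (h' : Aniso a' b') :
    ∃ u v : F, v ≠ 0 ∧ 2 * u + a' * v = a ∧ u ^ 2 + a' * u * v + b' * v ^ 2 = b := by
  have ha := aniso_a_ne_zero_two h2 h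
  have ha' := aniso_a_ne_zero_two h2 h'
  have hm : b / a ^ 2 + b' / a' ^ 2 ∈ (asHom h2).range := by
    rw [AddSubgroup.add_mem_iff_of_index_two (asHom_range_index h2)]
    exact iff_of_false (aniso_not_mem_range h2 h) (aniso_not_mem_range h2 h')
  obtain ⟨s, hs⟩ := hm
  rw [asHom_apply] at hs
  refine ⟨a * s, a / a', div_ne_zero ha ha', ?_, ?_⟩
  · have : a' * (a / a') = a := by field_simp
    linear_combination (a * s) * h2 + this
  · have e1 : a' * (a * s) * (a / a') = a ^ 2 * s := by field_simp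
    have e2 : a ^ 2 * (b / a ^ 2 + b' / a' ^ 2) = b + b' * (a / a') ^ 2 := by field_simp
    linear_combination e1 + a ^ 2 * hs + e2 + (b' * (a / a') ^ 2) * h2

theorem anisoIso : StAnisoIso.{u} := by
  intro F _ _ a b a' b' h h'
  by_cases h2 : (2 : F) = 0
  · obtain ⟨u, v, hv, h1, h3⟩ := anisoIso_two h2 h h'
    exact ⟨u, v, hv, subst_of_coeff h1 h3⟩
  · obtain ⟨u, v, hv, h1, h3⟩ := anisoIso_odd h2 h h'
    exact ⟨u, v, hv, subst_of_coeff h1 h3⟩

end Fin

example : Cfsg.Agent.H77.Tm.StAnisoIso.{u} := anisoIso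

end Cfsg.Agent.H19.Tm
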