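import Cfsg.Agent.H85.PtExDefs
import Cfsg.Agent.H19.TmAnisoIso

/-!
# S5973-EX-ANISOEX (helper19, for helper85): every finite field has an anisotropic binary form.
-/

set_option autoImplicit false

namespace Cfsg.Agent.H19.PtEx

open Cfsg.Agent.H77.Tq Cfsg.Agent.H19.Tm

universe u

section
variable {F : Type u} [Field F] [Fintype F]

theorem anisoEx_odd (h2 : (2 : F) ≠ 0) : ∃ a b : F, Aniso a b := by
  obtain ⟨δ, hδ⟩ := FiniteField.exists_nonsquare (ringChar_ne_two_of h2)
  refine ⟨0, -δ, ?_⟩
  intro x y hxy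
  have hy : y = 0 := by
    by_contra hy
    apply hδ
    refine ⟨x / y, ?_⟩
    field_simp
    linear_combination -hxy
  subst hy
  refine ⟨?_, rfl⟩
  have : x ^ 2 = 0 := by linear_combination hxy
  exact pow_eq_zero_iff (two_ne_zero) |>.mp this

theorem anisoEx_two (h2 : (2 : F) = 0) : ∃ a b : F, Aniso a b := by
  obtain ⟨b, hb⟩ : ∃ b : F, b ∉ (asHom h2).range := by
    by_contra hcon
    push Not at hcon
    have htop : (asHom h2).range = ⊤ := eq_top_iff.mpr fun x _ => hcon x
    have := asHom_range_index h2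
    rw [htop, AddSubgroup.index_top] at this
    omega
  refine ⟨1, b, ?_⟩
  intro x y hxy
  have hy : y = 0 := by
    by_contra hy
    apply hb
    refine ⟨x / y, ?_⟩
    rw [asHom_apply]
    field_simp
    linear_combination hxy - (b * y ^ 2) * h2
  subst hy
  refine ⟨?_, rfl⟩
  have : x ^ 2 = 0 := by linear_combination hxy
  exact pow_eq_zero_iff (two_ne_zero) |>.mp this

theorem anisoEx : Cfsg.Agent.H85.PtEx.StAnisoEx.{u} := by
  intro F _ _
  by_cases h2 : (2 : F) = 0
  · exact anisoEx_two h2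
  · exact anisoEx_odd h2

end

example : Cfsg.Agent.H85.PtEx.StAnisoEx.{u} := anisoEx

end Cfsg.Agent.H19.PtEx
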