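import Cfsg.Agent.H19.TmAnisoIso

/-!
# S5987-ANISOSTD (helper19, for helper77): an anisotropic plane over a finite field has a basis
in which the form is `z₁² + a z₁ z₂ + b z₂²`.
-/

set_option autoImplicit false

namespace Cfsg.Agent.H19.Tm

open Cfsg.Agent.H77.Tm Cfsg.Agent.H77.Tq Polynomial

universe u v

section
variable {F : Type u} [Field F] {P : Type v} [AddCommGroup P] [Module F P]

theorem quad_pair (Q : QuadraticForm F P) (u w : P) (z₁ z₂ : F) :
    Q (z₁ • u + z₂ • w) =
      z₁ ^ 2 * Q u + QuadraticMap.polar (⇑Q) u w * z₁ * z₂ + z₂ ^ 2 * Q w := by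
  rw [QuadraticMap.map_add Q (z₁ • u) (z₂ • w), QuadraticMap.map_smul, QuadraticMap.map_smul,
    QuadraticMap.polar_smul_left, QuadraticMap.polar_smul_right]
  simp only [smul_eq_mul]
  ring

/-- a nonzero vector of a plane has a vector outside its span; the pair is independent and
spanning. -/
theorem exists_compl_vec (hd : Module.finrank F P = 2) {u : P} (hu : u ≠ 0) :
    ∃ w : P, (∀ s t : F, s • u + t • w = 0 → s = 0 ∧ t = 0) ∧
      ∀ x : P, ∃ z₁ z₂ : F, x = z₁ • u + z₂ • w := by
  haveI : FiniteDimensional F P := Module.finite_of_finrank_eq_succ hd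
  have h1 : Module.finrank F (Submodule.span F {u}) = 1 := finrank_span_singleton hu
  have hne : Submodule.span F {u} ≠ ⊤ := by
    intro h
    rw [h, finrank_top, hd] at h1
    omega
  obtain ⟨w, hw⟩ : ∃ w : P, w ∉ Submodule.span F {u} := by
    by_contra hcon
    push Not at hcon
    exact hne (eq_top_iff.mpr fun x _ => hcon x)
  have hind : ∀ s t : F, s • u + t • w = 0 → s = 0 ∧ t = 0 := by
    intro s t hst
    have ht : t = 0 := by
      by_contra ht
      apply hw
      rw [Submodule.mem_span_singleton]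
      refine ⟨-(t⁻¹ * s), ?_⟩
      have : t • w = -(s • u) := by
        rw [eq_neg_iff_add_eq_zero, add_comm]; exact hst
      have h2 : w = t⁻¹ • (t • w) := by rw [smul_smul, inv_mul_cancel₀ ht, one_smul]
      rw [h2, this, smul_neg, smul_smul, neg_smul]
    subst ht
    rw [zero_smul, add_zero] at hst
    exact ⟨(smul_eq_zero.mp hst).resolve_right hu, rfl⟩
  refine ⟨w, hind, ?_⟩
  have hli : LinearIndependent F ![u, w] := LinearIndependent.pair_iff.mpr hind
  have hsp := hli.span_eq_top_of_card_eq_finrank' (by simp [hd])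
  intro x
  have hx : x ∈ Submodule.span F (Set.range ![u, w]) := by rw [hsp]; trivial
  rw [Matrix.range_cons, Matrix.range_cons, Matrix.range_empty, Set.union_empty,
    Set.singleton_union, Submodule.mem_span_pair] at hx
  obtain ⟨c, d, hcd⟩ := hx
  exact ⟨c, d, hcd.symm⟩

end

section Fin
variable {F : Type u} [Field F] [Fintype F] {P : Type v} [AddCommGroup P] [Module F P]

/-- odd characteristic: `X² + δ y² = c` is solvable for `δ ≠ 0`. -/
theorem sq_add_mul_sq (h2 : (2 : F) ≠ 0) {δ : F} (hδ : δ ≠ 0) (c : F) :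
    ∃ X y : F, X ^ 2 + δ * y ^ 2 = c := by
  classical
  have hodd : Fintype.card F % 2 = 1 := FiniteField.odd_card_of_char_ne_two (ringChar_ne_two_of h2)
  have hf : (X ^ 2 : F[X]).degree = 2 := by simp
  have hg : (C δ * X ^ 2 - C c : F[X]).degree = 2 := by
    rw [degree_sub_eq_left_of_degree_lt]
    · rw [degree_C_mul_X_pow 2 hδ]; rfl
    · rw [degree_C_mul_X_pow 2 hδ]
      exact lt_of_le_of_lt degree_C_le (by norm_num)
  obtain ⟨x, y, hxy⟩ := FiniteField.exists_root_sum_quadratic hf hg hodd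
  refine ⟨x, y, ?_⟩
  simp only [eval_pow, eval_X, eval_sub, eval_mul, eval_C] at hxy
  linear_combination hxy

/-- an anisotropic plane over a finite field represents `1`. -/
theorem exists_quad_eq_one (Q : QuadraticForm F P) (hd : Module.finrank F P = 2)
    (hQ : ∀ v, Q v = 0 → v = 0) : ∃ u : P, Q u = 1 := by
  haveI : FiniteDimensional F P := Module.finite_of_finrank_eq_succ hd
  obtain ⟨e₁, he₁⟩ : ∃ x : P, x ≠ 0 :=
    Module.finrank_pos_iff_exists_ne_zero.mp (by rw [hd]; norm_num)
  have hα : Q e₁ ≠ 0 := fun h => he₁ (hQ _ h)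
  by_cases h2 : (2 : F) = 0
  · obtain ⟨d, hd'⟩ := FiniteField.isSquare_of_char_two (ringChar_eq_two_of h2) (Q e₁)
    have hd0 : d ≠ 0 := by
      rintro rfl
      exact hα (by simpa using hd')
    refine ⟨d⁻¹ • e₁, ?_⟩
    rw [QuadraticMap.map_smul, hd', smul_eq_mul]
    field_simp
  · obtain ⟨e₂, hind, -⟩ := exists_compl_vec hd he₁
    set α := Q e₁ with hαd
    set β := Q e₂ with hβd
    set γ := QuadraticMap.polar (⇑Q) e₁ e₂ with hγd
    have hform : ∀ x y : F, Q (x • e₁ + y • e₂) = x ^ 2 * α + γ * x * y + y ^ 2 * β :=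
      fun x y => quad_pair Q e₁ e₂ x y
    have hδ : 4 * α * β - γ ^ 2 ≠ 0 := by
      intro h0
      have hz : Q ((-γ) • e₁ + (2 * α) • e₂) = 0 := by
        rw [hform]
        linear_combination α * h0
      have := (hind _ _ (hQ _ hz)).2
      exact (mul_ne_zero h2 hα) this
    obtain ⟨X, y, hXy⟩ := sq_add_mul_sq h2 hδ (4 * α)
    refine ⟨((X - γ * y) / (2 * α)) • e₁ + y • e₂, ?_⟩
    rw [hform]
    field_simp
    linear_combination hXy

theorem anisoStd : StAnisoStd.{u, v} := by
  intro F _ _ P _ _ Q hd hQ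
  obtain ⟨u, hu⟩ := exists_quad_eq_one Q hd hQ
  have hu0 : u ≠ 0 := by
    rintro rfl
    rw [QuadraticMap.map_zero] at hu
    exact zero_ne_one hu
  obtain ⟨w, hind, hspan⟩ := exists_compl_vec hd hu0
  have hform : ∀ z₁ z₂ : F, Q (z₁ • u + z₂ • w) =
      z₁ ^ 2 + QuadraticMap.polar (⇑Q) u w * z₁ * z₂ + Q w * z₂ ^ 2 := by
    intro z₁ z₂
    rw [quad_pair, hu]
    ring
  refine ⟨u, w, QuadraticMap.polar (⇑Q) u w, Q w, ?_, hspan, hform⟩
  intro x y hxy
  rw [← hform] at hxy
  exact hind _ _ (hQ _ hxy)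

end Fin

example : Cfsg.Agent.H77.Tm.StAnisoStd.{u, v} := anisoStd

end Cfsg.Agent.H19.Tm
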