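import Cfsg.Agent.H99.I2Defs
import Cfsg.Agent.H19.PtExAnisoEx
import Cfsg.Agent.H19.TmAnisoStd

/-!
# I2-X4 (helper19, for helper99): characteristic 2 involutions — the orthogonal sum of two
invariant nondegenerate planes with `rank (T - 1) = 1` contains invariant nondegenerate planes
of both types.
-/

set_option autoImplicit false

namespace Cfsg.Agent.H19.I2

open Cfsg.Agent.H45 Cfsg.Agent.H48.Ep Cfsg.Agent.H99.I2 Cfsg.Agent.H77.Tq Cfsg.Agent.H19.Tm Module

universe u v

section Basic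

variable {F : Type u} [Field F] {V : Type v} [AddCommGroup V] [Module F V]
  {Q : QuadraticForm F V} {T : Module.End F V}

theorem TT_apply (h : I2Ctx Q T) (v : V) : T (T v) = v := by
  have := congrArg (fun f : Module.End F V => f v) h.sq
  simpa using this

theorem neg_eq_self_V (h2 : (2 : F) = 0) (w : V) : -w = w := by
  have : (2 : F) • w = 0 := by rw [h2, zero_smul]
  rw [two_smul] at this
  exact (eq_neg_of_add_eq_zero_left this).symm

theorem N_apply (v : V) : (T - 1) v = T v - v := by simp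

theorem polar_self_zero (h2 : (2 : F) = 0) (x : V) : QuadraticMap.polar (⇑Q) x x = 0 := by
  rw [QuadraticMap.polar_self, two_smul]
  linear_combination (Q x) * h2

theorem polar_T (hT : ∀ v, Q (T v) = Q v) (x y : V) :
    QuadraticMap.polar (⇑Q) (T x) (T y) = QuadraticMap.polar (⇑Q) x y := by
  unfold QuadraticMap.polar
  rw [← map_add, hT, hT, hT]

theorem Q_N (h : I2Ctx Q T) (v : V) : Q ((T - 1) v) = QuadraticMap.polar (⇑Q) v (T v) := by
  have h1 := QuadraticMap.map_add Q (T v - v) v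
  rw [sub_add_cancel, h.isom, QuadraticMap.polar_sub_left, polar_self_zero h.two, sub_zero] at h1
  rw [N_apply, QuadraticMap.polar_comm]
  linear_combination (-1 : F) * h1 - (QuadraticMap.polar (⇑Q) (T v) v) * h.two

theorem T_N (h : I2Ctx Q T) (v : V) : T ((T - 1) v) = (T - 1) v := by
  rw [N_apply, map_sub, TT_apply h, ← neg_sub, neg_eq_self_V h.two]

theorem polar_N_symm (h : I2Ctx Q T) (u v : V) :
    QuadraticMap.polar (⇑Q) u ((T - 1) v) = QuadraticMap.polar (⇑Q) v ((T - 1) u) := by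
  rw [N_apply, N_apply, QuadraticMap.polar_sub_right, QuadraticMap.polar_sub_right,
    ← polar_T h.isom u (T v), TT_apply h, QuadraticMap.polar_comm (⇑Q) (T u) v,
    QuadraticMap.polar_comm (⇑Q) u v]

theorem polar_N_self (h : I2Ctx Q T) (v : V) :
    QuadraticMap.polar (⇑Q) v ((T - 1) v) = Q ((T - 1) v) := by
  rw [Q_N h, N_apply, QuadraticMap.polar_sub_right, polar_self_zero h.two, sub_zero]

/-- an invariant nondegenerate subspace on which `T - 1` has rank one contains a vector `v`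
with `Q ((T - 1) v) ≠ 0`. -/
theorem exists_vec (h : I2Ctx Q T) (P : Submodule F V) (hP : Inv Q T P) (hrk : rk T P = 1) :
    ∃ v ∈ P, Q ((T - 1) v) ≠ 0 := by
  have h1 : Module.finrank F ↥(P.map (T - 1)) = 1 := hrk
  obtain ⟨n, hn0, hn⟩ := finrank_eq_one_iff'.mp h1
  obtain ⟨v₁, hv₁, hnv⟩ := Submodule.mem_map.mp n.2
  refine ⟨v₁, hv₁, ?_⟩
  intro hQ
  apply hn0
  have hinv : ∀ x ∈ P, T x ∈ P := hP.1
  have hnP : (n : V) ∈ P := by
    rw [← hnv, N_apply]
    exact P.sub_mem (hinv _ hv₁) hv₁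
  have hperp : (n : V) ∈ perp (QuadraticMap.polarBilin Q) P := by
    intro u hu
    rw [QuadraticMap.polarBilin_apply_apply, ← hnv, polar_N_symm h]
    obtain ⟨c, hc⟩ := hn ⟨(T - 1) u, Submodule.mem_map_of_mem hu⟩
    have hc' : (T - 1) u = c • (T - 1) v₁ := by
      have := congrArg Subtype.val hc
      simp only [Submodule.coe_smul] at this
      rw [hnv, this]
    rw [hc', QuadraticMap.polar_smul_right, polar_N_self h, hQ, smul_zero]
  have hq : P ⊓ perp (QuadraticMap.polarBilin Q) P = ⊥ := hP.2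
  have hmem : (n : V) ∈ P ⊓ perp (QuadraticMap.polarBilin Q) P := ⟨hnP, hperp⟩
  rw [hq] at hmem
  exact Subtype.ext ((Submodule.mem_bot F).mp hmem)

end Basic

section Plane

variable {F : Type u} [Field F] {V : Type v} [AddCommGroup V] [Module F V]
  {Q : QuadraticForm F V} {T : Module.End F V}

theorem plane_mem (u x : V) (hx : x ∈ Submodule.span F {u, T u}) :
    ∃ a b : F, x = a • u + b • T u := by
  obtain ⟨a, b, hab⟩ := Submodule.mem_span_pair.mp hx
  exact ⟨a, b, hab.symm⟩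

theorem plane_polar_left (h : I2Ctx Q T) (u : V) (a b : F) :
    QuadraticMap.polar (⇑Q) u (a • u + b • T u) = b * QuadraticMap.polar (⇑Q) u (T u) := by
  rw [QuadraticMap.polar_add_right, QuadraticMap.polar_smul_right, QuadraticMap.polar_smul_right,
    polar_self_zero h.two]
  simp

theorem plane_polar_right (h : I2Ctx Q T) (u : V) (a b : F) :
    QuadraticMap.polar (⇑Q) (T u) (a • u + b • T u) = a * QuadraticMap.polar (⇑Q) u (T u) := by
  rw [QuadraticMap.polar_add_right, QuadraticMap.polar_smul_right, QuadraticMap.polar_smul_right,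
    polar_self_zero h.two, QuadraticMap.polar_comm (⇑Q) (T u) u]
  simp

theorem plane_inv (h : I2Ctx Q T) (u : V) : Submodule.span F {u, T u} ∈ T.invtSubmodule := by
  intro x hx
  obtain ⟨a, b, rfl⟩ := plane_mem u x hx
  show T (a • u + b • T u) ∈ Submodule.span F {u, T u}
  rw [map_add, map_smul, map_smul, TT_apply h]
  exact Submodule.add_mem _ (Submodule.smul_mem _ _ (Submodule.subset_span (by simp)))
    (Submodule.smul_mem _ _ (Submodule.subset_span (by simp)))

theorem plane_qnd (h : I2Ctx Q T) (u : V) (hβ : QuadraticMap.polar (⇑Q) u (T u) ≠ 0) :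
    QNd Q (Submodule.span F {u, T u}) := by
  show _ ⊓ perp _ _ = ⊥
  rw [eq_bot_iff]
  rintro x ⟨hx, hxp⟩
  obtain ⟨a, b, rfl⟩ := plane_mem u x hx
  have h1 := hxp u (Submodule.subset_span (by simp))
  have h2 := hxp (T u) (Submodule.subset_span (by simp))
  rw [QuadraticMap.polarBilin_apply_apply, plane_polar_left h] at h1
  rw [QuadraticMap.polarBilin_apply_apply, plane_polar_right h] at h2
  have ha : a = 0 := (mul_eq_zero.mp h2).resolve_right hβ
  have hb : b = 0 := (mul_eq_zero.mp h1).resolve_right hβ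
  rw [ha, hb]
  simp

theorem plane_finrank (h : I2Ctx Q T) (u : V) (hβ : QuadraticMap.polar (⇑Q) u (T u) ≠ 0) :
    Module.finrank F ↥(Submodule.span F {u, T u}) = 2 := by
  have hli : LinearIndependent F ![u, T u] := by
    rw [LinearIndependent.pair_iff]
    intro a b hab
    have h1 : QuadraticMap.polar (⇑Q) u (a • u + b • T u) = 0 := by rw [hab]; simp
    have h2 : QuadraticMap.polar (⇑Q) (T u) (a • u + b • T u) = 0 := by rw [hab]; simp
    rw [plane_polar_left h] at h1
    rw [plane_polar_right h] at h2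
    exact ⟨(mul_eq_zero.mp h2).resolve_right hβ, (mul_eq_zero.mp h1).resolve_right hβ⟩
  have := finrank_span_eq_card hli
  rw [Matrix.range_cons, Matrix.range_cons, Matrix.range_empty, Set.union_empty,
    Set.singleton_union] at this
  simpa using this

theorem plane_Q (h : I2Ctx Q T) (u : V) (a b : F) :
    Q (a • u + b • T u) = (a ^ 2 + b ^ 2) * Q u + a * b * QuadraticMap.polar (⇑Q) u (T u) := by
  rw [quad_pair, h.isom]
  ring

theorem plane_plus (h : I2Ctx Q T) (u : V) (hβ : QuadraticMap.polar (⇑Q) u (T u) ≠ 0)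
    (hQ : Q u = 0) : QPlus Q (Submodule.span F {u, T u}) := by
  have hu0 : u ≠ 0 := by
    rintro rfl
    apply hβ
    simp
  refine ⟨Submodule.span F {u}, Submodule.span_mono (by simp), ?_, ?_⟩
  · intro w hw
    obtain ⟨c, rfl⟩ := Submodule.mem_span_singleton.mp hw
    rw [QuadraticMap.map_smul, hQ]
    simp
  · rw [finrank_span_singleton hu0, plane_finrank h u hβ]

theorem plane_not_plus (h : I2Ctx Q T) (u : V) (hβ : QuadraticMap.polar (⇑Q) u (T u) ≠ 0)
    (han : ∀ a b : F, (a ^ 2 + b ^ 2) * Q u + a * b * QuadraticMap.polar (⇑Q) u (T u) = 0 →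
      a = 0 ∧ b = 0) : ¬ QPlus Q (Submodule.span F {u, T u}) := by
  rintro ⟨U, hU, hTS, hfin⟩
  rw [plane_finrank h u hβ] at hfin
  have hU1 : Module.finrank F ↥U = 1 := by omega
  have hne : U ≠ ⊥ := by
    rintro rfl
    rw [finrank_bot] at hU1
    omega
  obtain ⟨w, hw, hw0⟩ := Submodule.exists_mem_ne_zero_of_ne_bot hne
  obtain ⟨a, b, rfl⟩ := plane_mem u w (hU hw)
  have hz := hTS _ hw
  rw [plane_Q h] at hz
  obtain ⟨ha, hb⟩ := han a b hz
  apply hw0
  rw [ha, hb]
  simp

end Plane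

theorem x4 : StI2X4.{u, v} := by
  intro F _ _ V _ _ _ Q T h P₁ P₂ hP₁ hP₂ _ _ hr₁ hr₂ hperp pl
  obtain ⟨v₁, hv₁, hβ₁⟩ := exists_vec h P₁ hP₁ hr₁
  obtain ⟨v₂, hv₂, hβ₂⟩ := exists_vec h P₂ hP₂ hr₂
  have hinv₁ : ∀ x ∈ P₁, T x ∈ P₁ := hP₁.1
  have hinv₂ : ∀ x ∈ P₂, T x ∈ P₂ := hP₂.1
  obtain ⟨f, hf⟩ : ∃ f : V, f = (T - 1) v₂ := ⟨_, rfl⟩
  rw [← hf] at hβ₂
  have hfP : f ∈ P₂ := by
    rw [hf, N_apply]
    exact P₂.sub_mem (hinv₂ _ hv₂) hv₂
  have hTf : T f = f := by
    rw [hf]
    exact T_N h v₂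
  have key : ∀ c : F, ∃ u : V, u ∈ P₁ ⊔ P₂ ∧ T u ∈ P₁ ⊔ P₂ ∧
      QuadraticMap.polar (⇑Q) u (T u) = Q ((T - 1) v₁) ∧ Q u = c := by
    intro c
    obtain ⟨lam, hlam⟩ :=
      FiniteField.isSquare_of_char_two (ringChar_eq_two_of h.two) ((c + Q v₁) / Q f)
    have hTu : T (v₁ + lam • f) = T v₁ + lam • f := by rw [map_add, map_smul, hTf]
    refine ⟨v₁ + lam • f, ?_, ?_, ?_, ?_⟩
    · exact Submodule.add_mem _ (Submodule.mem_sup_left hv₁)
        (Submodule.mem_sup_right (P₂.smul_mem _ hfP))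
    · rw [hTu]
      exact Submodule.add_mem _ (Submodule.mem_sup_left (hinv₁ _ hv₁))
        (Submodule.mem_sup_right (P₂.smul_mem _ hfP))
    · rw [hTu, Q_N h]
      simp only [QuadraticMap.polar_add_left, QuadraticMap.polar_add_right,
        QuadraticMap.polar_smul_left, QuadraticMap.polar_smul_right, smul_eq_mul]
      rw [hperp v₁ hv₁ f hfP, QuadraticMap.polar_comm (⇑Q) f (T v₁),
        hperp (T v₁) (hinv₁ _ hv₁) f hfP, polar_self_zero h.two]
      ring
    · rw [QuadraticMap.map_add Q v₁ (lam • f), QuadraticMap.map_smul,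
        QuadraticMap.polar_smul_right, hperp v₁ hv₁ f hfP]
      simp only [smul_eq_mul, mul_zero, add_zero]
      have h3 : lam * lam * Q f = c + Q v₁ := by
        rw [← hlam]
        field_simp
      linear_combination h3 + (Q v₁) * h.two
  have hsub : ∀ u : V, u ∈ P₁ ⊔ P₂ → T u ∈ P₁ ⊔ P₂ → Submodule.span F {u, T u} ≤ P₁ ⊔ P₂ := by
    intro u hu hTu
    rw [Submodule.span_le]
    intro x hx
    rcases hx with rfl | rfl
    · exact hu
    · exact hTu
  by_cases hpl : pl
  · obtain ⟨u, hu, hTu, hβ, hQu⟩ := key 0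
    have hβ' : QuadraticMap.polar (⇑Q) u (T u) ≠ 0 := by rw [hβ]; exact hβ₁
    exact ⟨Submodule.span F {u, T u}, hsub u hu hTu, ⟨plane_inv h u, plane_qnd h u hβ'⟩,
      plane_finrank h u hβ', iff_of_true (plane_plus h u hβ' hQu) hpl⟩
  · obtain ⟨a', b', hab⟩ := Cfsg.Agent.H19.PtEx.anisoEx_two h.two
    obtain ⟨e, he⟩ := FiniteField.isSquare_of_char_two (ringChar_eq_two_of h.two) b'
    have hb0 : b' ≠ 0 := by
      rintro rfl
      have := hab 0 1 (by ring)
      exact one_ne_zero this.2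
    have he0 : e ≠ 0 := by
      rintro rfl
      apply hb0
      simpa using he
    have han : Aniso (a' / e) 1 := by
      intro x y hxy
      have h5 : x ^ 2 + a' * x * (y / e) + b' * (y / e) ^ 2 = 0 := by
        rw [he]
        field_simp
        field_simp at hxy
        linear_combination hxy
      obtain ⟨hx, hy⟩ := hab x (y / e) h5
      exact ⟨hx, (div_eq_zero_iff.mp hy).resolve_right he0⟩
    have ha0 : a' / e ≠ 0 := aniso_a_ne_zero_two h.two han
    have ha'0 : a' ≠ 0 := fun h0 => ha0 (by rw [h0, zero_div])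
    obtain ⟨u, hu, hTu, hβ, hQu⟩ := key (Q ((T - 1) v₁) / (a' / e))
    have hβ' : QuadraticMap.polar (⇑Q) u (T u) ≠ 0 := by rw [hβ]; exact hβ₁
    refine ⟨Submodule.span F {u, T u}, hsub u hu hTu, ⟨plane_inv h u, plane_qnd h u hβ'⟩,
      plane_finrank h u hβ', iff_of_false (plane_not_plus h u hβ' ?_) hpl⟩
    intro x y hxy
    rw [hβ, hQu] at hxy
    apply han x y
    have h6 : (Q ((T - 1) v₁) / (a' / e)) * (x ^ 2 + a' / e * x * y + 1 * y ^ 2) = 0 := by
      have h7 : (Q ((T - 1) v₁) / (a' / e)) * (x ^ 2 + a' / e * x * y + 1 * y ^ 2) =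
          (x ^ 2 + y ^ 2) * (Q ((T - 1) v₁) / (a' / e)) + x * y * Q ((T - 1) v₁) := by
        field_simp
        ring
      rw [h7, hxy]
    exact (mul_eq_zero.mp h6).resolve_left (div_ne_zero hβ₁ ha0)

example : Cfsg.Agent.H99.I2.StI2X4.{u, v} := x4

end Cfsg.Agent.H19.I2
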