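import Cfsg.Agent.H64.JyDefs
import Cfsg.Agent.H19.JyGoodA
import Cfsg.Agent.H97.JyPFacts
import Cfsg.Agent.H51.Amalgam
import Cfsg.Agent.S2952

/-!
# S2953, kill sub-project JX of helper52: the P-side input `StPSide` of the KB glue

For a configuration `Base S M T K L`, with `D := O₂(K ⊔ T)`: `D` has index 2 in `T` (elementwise),
every `x ∈ T ∖ D` inverts `K` modulo `D`, and `K` has an element `k` with `k ^ 3 = 1` outside `M`.
-/

set_option autoImplicit false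
open Cfsg

namespace Cfsg.Agent.H19.Jx

open Cfsg.Agent.H64.Jz Cfsg.Agent.Helper55 Cfsg.Agent.Helper55.J48

universe u

/-- `N_G(K) ≤ N_G(O₂(K))`. -/
theorem normalizer_le_normalizer_pCoreOf {G : Type u} [Group G] (K : Subgroup G) :
    Subgroup.normalizer (K : Set G) ≤ Subgroup.normalizer (pCoreOf 2 K : Set G) := by
  intro t ht
  have hKt : K.map (MulAut.conj t).toMonoidHom = K := by
    ext y
    constructor
    · rintro ⟨k, hk, rfl⟩
      exact (Subgroup.mem_normalizer_iff.mp ht k).mp hk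
    · intro hy
      refine ⟨t⁻¹ * y * t, (Subgroup.mem_normalizer_iff''.mp ht y).mp hy, ?_⟩
      simp [mul_assoc]
  have hOt : (pCoreOf 2 K).map (MulAut.conj t).toMonoidHom = pCoreOf 2 K := by
    have h := Cfsg.Agent.H51.pCoreOf_map 2 K (MulAut.conj t)
    rw [hKt] at h
    exact h.symm
  rw [Subgroup.mem_normalizer_iff]
  intro h
  constructor
  · intro hh
    rw [← hOt]
    exact ⟨h, hh, rfl⟩
  · intro hh
    rw [← hOt] at hh
    obtain ⟨o, ho, hoe⟩ := hh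
    have : o = h := by
      have h2 : t * o * t⁻¹ = t * h * t⁻¹ := hoe
      exact mul_left_cancel (mul_right_cancel h2)
    exact this ▸ ho

/-- The P-side facts (explicit form of `StPSide`). -/
theorem pside {G : Type u} [Group G] [Finite G] (S : Sylow 2 G) (M T K L : Subgroup G)
    (hB : Base S M T K L) :
    (∀ a ∈ T, ∀ b ∈ T, a ∉ pCoreOf 2 (K ⊔ T) → b ∉ pCoreOf 2 (K ⊔ T) →
      a * b ∈ pCoreOf 2 (K ⊔ T)) ∧
    (∀ x ∈ T, x ∉ pCoreOf 2 (K ⊔ T) → ∀ g ∈ K, x * g * x⁻¹ * g ∈ pCoreOf 2 (K ⊔ T)) ∧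
    ∃ k ∈ K, k ^ 3 = 1 ∧ k ∉ M := by
  obtain ⟨hcent, hsyl, _⟩ := Cfsg.Agent.H19.Jy.goodA S M T K L hB
  obtain ⟨⟨hc2, hsolv, hZ⟩, hO, hM, hMJ, hT, hTS, hK, hLmax, hKL⟩ := hB
  have hT2 : IsPGroup 2 ↥T := hT.1.1
  have hTM : T ≤ M := hT.1.2.2.1
  have hKc : IsJComponent T K := hK.1.1
  have hKM : ¬ K ≤ M := hK.2.1
  obtain ⟨hgen, _, hO3, _, _, _⟩ := hKc
  have hKn : (K.subgroupOf (K ⊔ T)).Normal :=
    Cfsg.Agent.S2952.result hc2 hsolv hZ hO S M hM hMJ T hT K hK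
  have hPK : K ⊔ T ≤ Subgroup.normalizer (K : Set G) :=
    (Subgroup.normal_subgroupOf_iff_le_normalizer le_sup_left).mp hKn
  have hTK : T ≤ Subgroup.normalizer (K : Set G) := le_sup_right.trans hPK
  have hPO : K ⊔ T ≤ Subgroup.normalizer (pCoreOf 2 K : Set G) :=
    hPK.trans (normalizer_le_normalizer_pCoreOf K)
  have hOK : pCoreOf 2 K ≤ K := Cfsg.Agent.H51.pCoreOf_le 2 K
  have hQT : pCoreOf 2 (K ⊔ T) ≤ T := pCoreOf_le_of_sylowIn hsyl
  have hOQ : pCoreOf 2 K ≤ pCoreOf 2 (K ⊔ T) :=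
    Cfsg.Agent.H19.Jy.le_pCoreOf_of_normal (hOK.trans le_sup_left)
      (Cfsg.Agent.Helper55.Uq.pCoreOf_isPGroup K) hPO
  have hOT : pCoreOf 2 K ≤ T := hOQ.trans hQT
  obtain ⟨D, k, hDT, hOD, hKD, hTD, hD2, hinv, _, _, hkK, hkO, hk3, hKO, hdich⟩ :=
    Cfsg.Agent.H97.Jy.pfacts K T (pCoreOf 2 K) hT2 hTK hOK hOT hO3
      (le_sup_left.trans hPO) (le_sup_right.trans hPO) hgen
  have hk1 : k ≠ 1 := fun h => hkO (h ▸ one_mem _)
  have hDeq : D = pCoreOf 2 (K ⊔ T) := by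
    apply le_antisymm
    · exact Cfsg.Agent.H19.Jy.le_pCoreOf_of_normal (hDT.trans le_sup_right) (hT2.to_le hDT)
        (sup_le hKD hTD)
    · rcases hdich (pCoreOf 2 (K ⊔ T)) (Cfsg.Agent.H51.pCoreOf_le 2 _)
          (le_normalizer_pCoreOf (K ⊔ T)) with h | h
      · exact h
      · exfalso
        have hkT : k ∈ T := hQT (h hkK)
        have hodd : Odd (orderOf k) :=
          Odd.of_dvd_nat (by decide : Odd 3) (orderOf_dvd_of_pow_eq_one hk3)
        exact hk1 (Cfsg.Agent.H97.Jy.eq_one_of_odd_of_two hT2 hkT hodd)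
  subst hDeq
  refine ⟨hD2, fun x hx hxD g hg => hOD (hinv x hx hxD g hg), k, hkK, hk3, ?_⟩
  intro hkM
  apply hKM
  intro g hg
  obtain ⟨o, ho, i, rfl⟩ := hKO g hg
  exact mul_mem (hTM (hOT ho)) (pow_mem hkM i)

end Cfsg.Agent.H19.Jx

#print axioms Cfsg.Agent.H19.Jx.pside
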