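import Cfsg.Agent.H64.JyDefs
import Cfsg.Agent.H19.JyPair
import Cfsg.Agent.H7.JyNotin

/-!
# S2953 (team project JY, kill sub-project JX of helper52): the piece (X1) STAR

For a configuration `Base S M T K L` with `T ≠ S`: no nontrivial subgroup `F ≤ T` is normalized
by `K ⊔ T` and by `N_S(T)`.  (`N_G(F)` is a 2-local over `K ⊔ J(T)`, so it lies in `L` by the
uniqueness of S2950; but some `x ∈ N_S(T)` is outside `L`.)
-/

set_option autoImplicit false
open Cfsg

namespace Cfsg.Agent.H19.Jx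

open Cfsg.Agent.H64.Jz

universe u

/-- For a configuration, every 2-local containing `K ⊔ J(T)` lies in `L`. -/
theorem twoLocal_le {G : Type u} [Group G] [Finite G] (S : Sylow 2 G) (M T K L : Subgroup G)
    (h : Base S M T K L) (N : Subgroup G) (hN : IsTwoLocal N)
    (hle : K ⊔ thompsonSubgroupOf 2 T ≤ N) : N ≤ L := by
  obtain ⟨L', hL'max, hL'⟩ := Cfsg.Agent.Helper55.Uq.exists_maximalTwoLocal hN
  have e : L' = L := Cfsg.Agent.H19.Jy.base_unique S M T K L h L' hL'max (hle.trans hL')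
  exact e ▸ hL'

/-- (X1) STAR, explicit form. -/
theorem star' {G : Type u} [Group G] [Finite G] (S : Sylow 2 G) (M T K L : Subgroup G)
    (h : Base S M T K L) (hne : T ≠ (S : Subgroup G)) (F : Subgroup G) (hF : F ≠ ⊥)
    (hFT : F ≤ T) (hKT : K ⊔ T ≤ Subgroup.normalizer (F : Set G))
    (hx : ∀ x ∈ (S : Subgroup G), x ∈ Subgroup.normalizer (T : Set G) →
      x ∈ Subgroup.normalizer (F : Set G)) : False := by
  have hT2 : IsPGroup 2 ↥T := h.2.2.2.2.1.1.1
  have hF2 : IsPGroup 2 ↥F := hT2.to_le hFT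
  have hloc : IsTwoLocal (Subgroup.normalizer (F : Set G)) := ⟨F, hF2, hF, rfl⟩
  have hJT : thompsonSubgroupOf 2 T ≤ T := Cfsg.Agent.Helper55.ThJ.J_le T
  have hNL : Subgroup.normalizer (F : Set G) ≤ L :=
    twoLocal_le S M T K L h _ hloc ((sup_le_sup_left hJT K).trans hKT)
  obtain ⟨x, hxS, hxN, hxL⟩ := Cfsg.Agent.H7.JyNotin.notin S M T K L h hne
  exact hxL (hNL (hx x hxS hxN))

end Cfsg.Agent.H19.Jx

#print axioms Cfsg.Agent.H19.Jx.star'
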