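import Cfsg.Agent.H52.JxDefs
import Cfsg.Agent.H19.JxStar
import Cfsg.Agent.H19.JyGoodA

/-!
# S2953, kill sub-project JX of helper52: (X1) STAR and (X2) PF as the exact Props
-/

set_option autoImplicit false
open Cfsg

namespace Cfsg.Agent.H19.Jx

open Cfsg.Agent.H64.Jz Cfsg.Agent.Helper55 Cfsg.Agent.Helper55.J48

universe u

/-- (X1) STAR. -/
theorem star : Cfsg.Agent.H52.Jx.StStar.{u} := by
  intro G _ _ S M T K L h hne F hF hFT hKT hx
  exact star' S M T K L h hne F hF hFT hKT hx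

/-- (X2) PF. -/
theorem pf : Cfsg.Agent.H52.Jx.StPF.{u} := by
  intro G _ _ S M T K L h
  obtain ⟨hcent, hsyl, _⟩ := Cfsg.Agent.H19.Jy.goodA S M T K L h
  refine ⟨pCoreOf_le_of_sylowIn hsyl, ?_, le_normalizer_pCoreOf (K ⊔ T)⟩
  intro h0
  have hTne : T ≠ ⊥ := h.2.2.2.2.1.1.2.1
  apply hTne
  rw [eq_bot_iff]
  intro t _
  have h1 : t ∈ Subgroup.centralizer ((pCoreOf 2 (K ⊔ T) : Subgroup G) : Set G) := by
    rw [h0, Subgroup.mem_centralizer_iff]
    intro y hy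
    rw [Subgroup.coe_bot, Set.mem_singleton_iff] at hy
    rw [hy, one_mul, mul_one]
  have h2 := hcent h1
  rwa [h0] at h2

example : Cfsg.Agent.H52.Jx.StStar.{u} := star
example : Cfsg.Agent.H52.Jx.StPF.{u} := pf

end Cfsg.Agent.H19.Jx

#print axioms Cfsg.Agent.H19.Jx.star
#print axioms Cfsg.Agent.H19.Jx.pf
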