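import Cfsg.Agent.H52.JxKB
import Cfsg.Agent.H19.JxPSide
import Cfsg.Agent.H19.JxStarSt
import Cfsg.Agent.H48.JxVne

/-!
# S2953, kill sub-project JX of helper52: `StPSide` (exact Prop), and from it KB-NORM and KB

`psideSt : StPSide`, then `kbNorm : StKBNorm` by helper52's `kbNorm_of` (with helper48's `stVne`
and `pf`), and `kb : StKB` by helper52's `kb_of` (with `star`, `pf`).
-/

set_option autoImplicit false
open Cfsg

namespace Cfsg.Agent.H19.Jx

universe u

/-- The P-side input of the KB glue, exact Prop. -/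
theorem psideSt : Cfsg.Agent.H52.Jx.StPSide.{u} := by
  intro G _ _ S M T K L hB
  exact pside S M T K L hB

/-- (X5) KB-NORM. -/
theorem kbNorm : Cfsg.Agent.H52.Jx.StKBNorm.{u} :=
  Cfsg.Agent.H52.Jx.kbNorm_of psideSt Cfsg.Agent.H48.Jx.stVne pf

/-- KB: the case `V ⊄ Q₁` is impossible. -/
theorem kb : Cfsg.Agent.H52.Jx.StKB.{u} :=
  Cfsg.Agent.H52.Jx.kb_of star pf kbNorm

example : Cfsg.Agent.H52.Jx.StPSide.{u} := psideSt
example : Cfsg.Agent.H52.Jx.StKBNorm.{u} := kbNorm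
example : Cfsg.Agent.H52.Jx.StKB.{u} := kb

end Cfsg.Agent.H19.Jx

#print axioms Cfsg.Agent.H19.Jx.psideSt
#print axioms Cfsg.Agent.H19.Jx.kbNorm
#print axioms Cfsg.Agent.H19.Jx.kb
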