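import Cfsg.Agent.H64.JzDefs
import Cfsg.Agent.H26.JzAEq
import Cfsg.Agent.H63.SnIfV
import Cfsg.Agent.S2946

/-!
# JZ-RESA (piece of S2951): in the residual situation, `a(T') = a(S)` gives clause 1
-/

set_option autoImplicit false
open Cfsg

namespace Cfsg.Agent.H19.Jz

universe u

open Cfsg.Agent.H64.Jz

/-- Elements of a join of two elementwise commuting subgroups are products. -/
theorem mem_sup_comm {G : Type u} [Group G] {A B : Subgroup G}
    (hc : ∀ a ∈ A, ∀ b ∈ B, a * b = b * a) {x : G} (hx : x ∈ A ⊔ B) :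
    ∃ a ∈ A, ∃ b ∈ B, x = a * b := by
  rw [Subgroup.sup_eq_closure] at hx
  induction hx using Subgroup.closure_induction with
  | mem y hy =>
    rcases hy with hy | hy
    · exact ⟨y, hy, 1, one_mem _, by rw [mul_one]⟩
    · exact ⟨1, one_mem _, y, hy, by rw [one_mul]⟩
  | one => exact ⟨1, one_mem _, 1, one_mem _, by rw [mul_one]⟩
  | mul x y _ _ hx hy =>
    obtain ⟨a, ha, b, hb, rfl⟩ := hx
    obtain ⟨a', ha', b', hb', rfl⟩ := hy
    refine ⟨a * a', mul_mem ha ha', b * b', mul_mem hb hb', ?_⟩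
    have e : b * a' = a' * b := (hc a' ha' b hb).symm
    calc a * b * (a' * b') = a * (b * a') * b' := by simp only [mul_assoc]
      _ = a * (a' * b) * b' := by rw [e]
      _ = a * a' * (b * b') := by simp only [mul_assoc]
  | inv x _ hx =>
    obtain ⟨a, ha, b, hb, rfl⟩ := hx
    refine ⟨a⁻¹, inv_mem ha, b⁻¹, inv_mem hb, ?_⟩
    rw [mul_inv_rev]
    exact (hc a⁻¹ (inv_mem ha) b⁻¹ (inv_mem hb)).symm

/-- An element commuting with `y` normalizes `⟨y⟩`. -/
theorem mem_normalizer_zpowers_of_comm {G : Type u} [Group G] {y g : G} (h : g * y = y * g) :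
    g ∈ Subgroup.normalizer ((Subgroup.zpowers y : Subgroup G) : Set G) := by
  have key : ∀ n ∈ Subgroup.zpowers y, g * n * g⁻¹ = n := by
    intro n hn
    obtain ⟨k, rfl⟩ := Subgroup.mem_zpowers_iff.mp hn
    have hc : Commute g y := h
    have h2 : g * y ^ k = y ^ k * g := (hc.zpow_right k).eq
    rw [h2, mul_inv_cancel_right]
  rw [Subgroup.mem_normalizer_iff]
  intro n
  constructor
  · intro hn
    rw [key n hn]
    exact hn
  · intro hn
    have h2 : g * (g * n * g⁻¹) * g⁻¹ = g * n * g⁻¹ := key _ hn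
    have e : g * n * g⁻¹ = n := by
      calc g * n * g⁻¹ = g⁻¹ * (g * (g * n * g⁻¹) * g⁻¹) * g := by group
        _ = g⁻¹ * (g * n * g⁻¹) * g := by rw [h2]
        _ = n := by group
    rw [e] at hn
    exact hn

/-- `Ω₁(Z(S)) ≠ 1` for a nontrivial 2-subgroup `S`. -/
theorem omegaCenterOf_ne_bot {G : Type u} [Group G] [Finite G] {S : Subgroup G}
    (hS : IsPGroup 2 ↥S) (hS1 : S ≠ ⊥) : omegaCenterOf S ≠ ⊥ := by
  haveI : Nontrivial ↥S := (Subgroup.nontrivial_iff_ne_bot S).mpr hS1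
  haveI : Fact (Nat.Prime 2) := ⟨Nat.prime_two⟩
  have hcn : Nontrivial ↥(Subgroup.center ↥S) := hS.center_nontrivial
  have hcp : IsPGroup 2 ↥(Subgroup.center ↥S) := hS.to_subgroup _
  have hdvd : 2 ∣ Nat.card ↥(Subgroup.center ↥S) := by
    rcases hcp.card_eq_or_dvd with h | h
    · exfalso
      have h1 : 1 < Nat.card ↥(Subgroup.center ↥S) := Finite.one_lt_card_iff_nontrivial.mpr hcn
      omega
    · exact h
  obtain ⟨c, hc⟩ := exists_prime_orderOf_dvd_card' 2 hdvd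
  intro hbot
  have hmem : (((c : ↥(Subgroup.center ↥S)) : ↥S) : G) ∈ omegaCenterOf S := by
    apply Cfsg.Agent.H63.Sn.omegaCenterOf_mem S (c : ↥S).2
    · rw [Subgroup.mem_centralizer_iff]
      intro h hh
      have h1 := Subgroup.mem_center_iff.mp c.2 ⟨h, hh⟩
      exact congrArg Subtype.val h1
    · have h1 : c ^ 2 = 1 := by
        rw [← hc]
        exact pow_orderOf_eq_one c
      have h2 := congrArg (fun z : ↥(Subgroup.center ↥S) => ((z : ↥S) : G)) h1
      simpa using h2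
  rw [hbot, Subgroup.mem_bot] at hmem
  have h1 : c = 1 := by
    apply Subtype.ext
    apply Subtype.ext
    simpa using hmem
  rw [h1, orderOf_one] at hc
  omega

/-- `Ω₁(Z(S)) ≤ Ω₁(Z(J(S)))`. -/
theorem omegaCenterOf_le_J {G : Type u} [Group G] [Finite G] (S : Subgroup G) :
    omegaCenterOf S ≤ omegaCenterOf (thompsonSubgroupOf 2 S) := by
  intro x hx
  obtain ⟨hxS, hxC, hx2⟩ := Cfsg.Agent.H63.Sn.mem_omegaCenterOf _ hx
  obtain ⟨A, hA⟩ := Cfsg.Agent.Helper55.ThJ.gens_nonempty S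
  have hxA : x ∈ A :=
    Cfsg.Agent.H26.Jz.mem_gen_of_commute hA hxS
      (fun a ha => Subgroup.mem_centralizer_iff.mp hxC a (hA.1 ha)) hx2
  refine Cfsg.Agent.H63.Sn.omegaCenterOf_mem _ (Cfsg.Agent.Helper55.ThJ.gen_le_J hA hxA) ?_ hx2
  exact Subgroup.mem_centralizer_iff.mpr
    (fun h hh => Subgroup.mem_centralizer_iff.mp hxC h (Cfsg.Agent.Helper55.ThJ.J_le _ hh))

theorem resA : StResA.{u} := by
  intro G _ _ S M K L T' K' L' hR ha
  obtain ⟨hB, hX, hB', hne⟩ := hR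
  obtain ⟨hZN, hO, hM, hMJ, hT, hTS, hK, hLmax, hKL⟩ := hB
  obtain ⟨-, -, hL2, hLJ, hT', hT'S, hK', hL'max, hK'L'⟩ := hB'
  obtain ⟨hchar, hsolv, hZ⟩ := hZN
  have hS2 : IsPGroup 2 ↥(S : Subgroup G) := S.isPGroup'
  have hT'2 : IsPGroup 2 ↥T' := hT'.1.1
  have hT'1 : T' ≠ ⊥ := hT'.1.2.1
  have hS1 : (S : Subgroup G) ≠ ⊥ := by
    intro h
    apply hT'1
    rw [h] at hT'S
    exact le_bot_iff.mp hT'S
  -- (1) Z₀ ≤ Z₀'
  have h1 : omegaCenterOf (thompsonSubgroupOf 2 (S : Subgroup G)) ≤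
      omegaCenterOf (thompsonSubgroupOf 2 T') :=
    Cfsg.Agent.H26.Jz.omegaCenter_J_le_of_a_eq hT'S ha
  -- (2) S2946 for `K'` and for `K`
  have hK'J : IsJComponent T' K' := hK'.1.1
  have hKJ : IsJComponent (S : Subgroup G) K := hK.1.1
  obtain ⟨hc', hs'⟩ := Cfsg.Agent.S2946.result hchar hsolv hZ T' hT'2 hT'1 K' hK'J
    (omegaCenterOf (thompsonSubgroupOf 2 T')) rfl
  obtain ⟨hc, hs⟩ := Cfsg.Agent.S2946.result hchar hsolv hZ (S : Subgroup G) hS2 hS1 K hKJ
    (omegaCenterOf (thompsonSubgroupOf 2 (S : Subgroup G))) rfl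
  -- (3) Z₀ ∩ Z₁' = 1
  have h3 : ∀ y ∈ omegaCenterOf (thompsonSubgroupOf 2 (S : Subgroup G)),
      y ∈ omegaCenterOf (thompsonSubgroupOf 2 T') ⊓
        ((K' ⊔ thompsonSubgroupOf 2 T') ⊓
          Subgroup.centralizer ((K' ⊔ thompsonSubgroupOf 2 T') : Set G)) →
      y = 1 := by
    intro y hy hy1
    by_contra hne1
    obtain ⟨hyJ, hyC, hy2⟩ := Cfsg.Agent.H63.Sn.mem_omegaCenterOf _ hy
    have hX2 : IsTwoLocal (Subgroup.normalizer ((Subgroup.zpowers y : Subgroup G) : Set G)) := by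
      refine ⟨Subgroup.zpowers y, ?_, ?_, rfl⟩
      · exact hS2.to_le ((Subgroup.zpowers_le).mpr (Cfsg.Agent.Helper55.ThJ.J_le _ hyJ))
      · intro h
        apply hne1
        have h4 : y ∈ (⊥ : Subgroup G) := by
          rw [← h]
          exact Subgroup.mem_zpowers y
        exact Subgroup.mem_bot.mp h4
    have hJX : thompsonSubgroupOf 2 (S : Subgroup G) ≤
        Subgroup.normalizer ((Subgroup.zpowers y : Subgroup G) : Set G) :=
      fun g hg => mem_normalizer_zpowers_of_comm (Subgroup.mem_centralizer_iff.mp hyC g hg)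
    have hXL := hX _ hX2 hJX
    have hyC' := (Subgroup.mem_inf.mp (Subgroup.mem_inf.mp hy1).2).2
    have hK'X : K' ≤ Subgroup.normalizer ((Subgroup.zpowers y : Subgroup G) : Set G) :=
      fun g hg => mem_normalizer_zpowers_of_comm
        (Subgroup.mem_centralizer_iff.mp hyC' g (Or.inl hg))
    exact hK'.2.1 (hK'X.trans hXL)
  -- (4) |Z₀| ≤ 2
  have hcomm' : ∀ a ∈ omegaCenterOf (thompsonSubgroupOf 2 T') ⊓
        ((K' ⊔ thompsonSubgroupOf 2 T') ⊓
          Subgroup.centralizer ((K' ⊔ thompsonSubgroupOf 2 T') : Set G)),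
      ∀ b ∈ omegaCenterOf (thompsonSubgroupOf 2 T') ⊓ wOf K', a * b = b * a := by
    intro a ha b hb
    obtain ⟨-, haC, -⟩ := Cfsg.Agent.H63.Sn.mem_omegaCenterOf _ (Subgroup.mem_inf.mp ha).1
    obtain ⟨hbJ, -, -⟩ := Cfsg.Agent.H63.Sn.mem_omegaCenterOf _ (Subgroup.mem_inf.mp hb).1
    exact (Subgroup.mem_centralizer_iff.mp haC b hbJ).symm
  have hdec : ∀ y : ↥(omegaCenterOf (thompsonSubgroupOf 2 (S : Subgroup G))),
      ∃ b : ↥(omegaCenterOf (thompsonSubgroupOf 2 T') ⊓ wOf K'),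
        ∃ a ∈ omegaCenterOf (thompsonSubgroupOf 2 T') ⊓
          ((K' ⊔ thompsonSubgroupOf 2 T') ⊓
            Subgroup.centralizer ((K' ⊔ thompsonSubgroupOf 2 T') : Set G)),
          (y : G) = a * (b : G) := by
    intro y
    have hy' : (y : G) ∈ (omegaCenterOf (thompsonSubgroupOf 2 T') ⊓
          ((K' ⊔ thompsonSubgroupOf 2 T') ⊓
            Subgroup.centralizer ((K' ⊔ thompsonSubgroupOf 2 T') : Set G))) ⊔
        (omegaCenterOf (thompsonSubgroupOf 2 T') ⊓ wOf K') := by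
      rw [hs']
      exact h1 y.2
    obtain ⟨a, ha, b, hb, hab⟩ := mem_sup_comm hcomm' hy'
    exact ⟨⟨b, hb⟩, a, ha, hab⟩
  choose f hf using hdec
  have hinj : Function.Injective f := by
    intro y y' hyy
    obtain ⟨a, ha, hya⟩ := hf y
    obtain ⟨a', ha', hya'⟩ := hf y'
    rw [hyy] at hya
    have e : (y : G) * (y' : G)⁻¹ = a * a'⁻¹ := by
      rw [hya, hya']
      group
    have h4 : (y : G) * (y' : G)⁻¹ ∈ omegaCenterOf (thompsonSubgroupOf 2 T') ⊓
          ((K' ⊔ thompsonSubgroupOf 2 T') ⊓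
            Subgroup.centralizer ((K' ⊔ thompsonSubgroupOf 2 T') : Set G)) := by
      rw [e]
      exact mul_mem ha (inv_mem ha')
    have h5 := h3 _ (mul_mem y.2 (inv_mem y'.2)) h4
    exact Subtype.ext (mul_inv_eq_one.mp h5)
  have hle : Nat.card ↥(omegaCenterOf (thompsonSubgroupOf 2 (S : Subgroup G))) ≤ 2 := by
    have h6 := Nat.card_le_card_of_injective f hinj
    rwa [hc'] at h6
  have hge : 2 ≤ Nat.card ↥(omegaCenterOf (thompsonSubgroupOf 2 (S : Subgroup G))) := by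
    have h7 := Subgroup.card_le_of_le
      (inf_le_left : omegaCenterOf (thompsonSubgroupOf 2 (S : Subgroup G)) ⊓ wOf K ≤
        omegaCenterOf (thompsonSubgroupOf 2 (S : Subgroup G)))
    rwa [hc] at h7
  have hcard : Nat.card ↥(omegaCenterOf (thompsonSubgroupOf 2 (S : Subgroup G))) = 2 :=
    le_antisymm hle hge
  have hZne : omegaCenterOf (S : Subgroup G) ≠ ⊥ := omegaCenterOf_ne_bot hS2 hS1
  have hZeq : omegaCenterOf (S : Subgroup G) =
      omegaCenterOf (thompsonSubgroupOf 2 (S : Subgroup G)) := by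
    apply Subgroup.eq_of_le_of_card_ge (omegaCenterOf_le_J _)
    rw [hcard]
    exact (Subgroup.one_lt_card_iff_ne_bot _).mpr hZne
  exact Or.inl ⟨hZeq, hcard⟩

example : StResA.{u} := resA

end Cfsg.Agent.H19.Jz
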