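import Mathlib

/-!
# helper19: groups with a unique involution and an involutory automorphism with two fixed points

`K3 z α`: `z` is the unique involution of `H`, `α` is an involutory endomorphism of `H` whose
fixed points are `1` and `z`.  Main result `K3.norm`: if `i₀ = q₁ α(q₁)⁻¹` has square `z` (so
`α i₀ = i₀⁻¹`), then every `y` with `y² = z` normalises `⟨i₀⟩`.
-/

set_option autoImplicit false
set_option linter.style.haveILetI false

namespace Cfsg.Agent.H19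

/-- A group with a unique involution `z` and an involutory endomorphism `α` whose only fixed
points are `1, z`. -/
structure K3 {H : Type*} [Group H] (z : H) (α : H →* H) : Prop where
  z1 : z ≠ 1
  zz : z * z = 1
  zu : ∀ u : H, u * u = 1 → u = 1 ∨ u = z
  αα : ∀ u, α (α u) = u
  αfix : ∀ u, α u = u → u = 1 ∨ u = z

namespace K3

variable {H : Type*} [Group H] {z : H} {α : H →* H} (hk : K3 z α)
include hk

theorem zc (g : H) : z * g = g * z := by
  have h1 : (g⁻¹ * z * g) * (g⁻¹ * z * g) = 1 := by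
    calc (g⁻¹ * z * g) * (g⁻¹ * z * g) = g⁻¹ * (z * z) * g := by group
      _ = 1 := by rw [hk.zz]; group
  rcases hk.zu _ h1 with h | h
  · exfalso; apply hk.z1
    calc z = g * (g⁻¹ * z * g) * g⁻¹ := by group
      _ = 1 := by rw [h]; group
  · calc z * g = g * (g⁻¹ * z * g) := by group
      _ = g * z := by rw [h]

theorem zinv : z⁻¹ = z := inv_eq_of_mul_eq_one_left hk.zz

theorem cen {x : H} (hx : x = 1 ∨ x = z) (g : H) : x * g = g * x := by
  rcases hx with rfl | rfl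
  · rw [one_mul, mul_one]
  · exact hk.zc g

theorem αz : α z = z := by
  have h1 : α z * α z = 1 := by rw [← map_mul, hk.zz, map_one]
  rcases hk.zu _ h1 with h | h
  · exfalso; apply hk.z1
    have := hk.αα z
    rw [h, map_one] at this
    exact this.symm
  · exact h

theorem inv_of_sq {y : H} (hy : y * y = z) : y⁻¹ = y * z := by
  apply inv_eq_of_mul_eq_one_right
  rw [← mul_assoc, hy, hk.zz]

theorem ne_of_sq {y : H} (hy : y * y = z) : y ≠ 1 ∧ y ≠ z := by
  constructor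
  · rintro rfl; rw [mul_one] at hy; exact hk.z1 hy.symm
  · rintro rfl; rw [hk.zz] at hy; exact hk.z1 hy.symm

theorem sq_mul_z {y : H} (hy : y * y = z) : (y * z) * (y * z) = z := by
  calc (y * z) * (y * z) = y * (z * y) * z := by group
    _ = y * (y * z) * z := by rw [hk.zc y]
    _ = (y * y) * (z * z) := by group
    _ = z := by rw [hy, hk.zz, mul_one]

theorem B_set {b b' : H} (hb : α b = b * z) (hb' : α b' = b' * z) : b' = b ∨ b' = b * z := by
  have h1 : α (b⁻¹ * b') = b⁻¹ * b' := by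
    rw [map_mul, map_inv, hb, hb', mul_inv_rev, hk.zinv]
    calc z * b⁻¹ * (b' * z) = (z * b⁻¹) * b' * z := by group
      _ = (b⁻¹ * z) * b' * z := by rw [hk.zc b⁻¹]
      _ = b⁻¹ * (z * b') * z := by group
      _ = b⁻¹ * (b' * z) * z := by rw [hk.zc b']
      _ = b⁻¹ * b' * (z * z) := by group
      _ = b⁻¹ * b' := by rw [hk.zz, mul_one]
  rcases hk.αfix _ h1 with h | h
  · left; exact (inv_mul_eq_one.mp h).symm
  · right; rw [← h]; group

theorem comm4 {y y' : H} (hy : y * y = z) (hy' : y' * y' = z) (hc : y * y' = y' * y) :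
    y' = y ∨ y' = y * z := by
  have h1 : (y⁻¹ * y') * (y⁻¹ * y') = 1 := by
    have hc' : y' * y⁻¹ = y⁻¹ * y' := by
      calc y' * y⁻¹ = y⁻¹ * (y * y') * y⁻¹ := by group
        _ = y⁻¹ * (y' * y) * y⁻¹ := by rw [hc]
        _ = y⁻¹ * y' := by group
    calc (y⁻¹ * y') * (y⁻¹ * y') = y⁻¹ * (y' * y⁻¹) * y' := by group
      _ = y⁻¹ * (y⁻¹ * y') * y' := by rw [hc']
      _ = (y * y)⁻¹ * (y' * y') := by group
      _ = 1 := by rw [hy, hy', hk.zinv, hk.zz]
  rcases hk.zu _ h1 with h | h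
  · left; exact (inv_mul_eq_one.mp h).symm
  · right; rw [← h]; group

theorem tri [Finite H] (r : H) :
    (∃ k : ℕ, r ^ (2 * k + 1) = 1) ∨ (∃ k : ℕ, r ^ (2 * k + 1) = z) ∨
      ∃ n : ℕ, r ^ n * r ^ n = z := by
  have hpos : 0 < orderOf r := orderOf_pos r
  obtain ⟨j, m, hm, hjm⟩ := Nat.exists_eq_two_pow_mul_odd (n := orderOf r) (by omega)
  obtain ⟨k, rfl⟩ := hm
  rcases j with _ | j
  · left
    refine ⟨k, ?_⟩
    have h := pow_orderOf_eq_one r
    rw [hjm] at h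
    simpa using h
  · right
    have he : r ^ (2 ^ j * (2 * k + 1)) * r ^ (2 ^ j * (2 * k + 1)) = 1 := by
      rw [← pow_add]
      have h1 : 2 ^ j * (2 * k + 1) + 2 ^ j * (2 * k + 1) = orderOf r := by rw [hjm]; ring
      rw [h1, pow_orderOf_eq_one]
    have hne : r ^ (2 ^ j * (2 * k + 1)) ≠ 1 := by
      apply pow_ne_one_of_lt_orderOf
      · positivity
      · rw [hjm, pow_succ]
        have h2 : 0 < 2 ^ j * (2 * k + 1) := by positivity
        nlinarith
    rcases hk.zu _ he with h | h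
    · exact absurd h hne
    · rcases j with _ | j
      · left
        refine ⟨k, ?_⟩
        simpa using h
      · right
        refine ⟨2 ^ j * (2 * k + 1), ?_⟩
        rw [← pow_add, ← h]
        congr 1
        ring

/-- Elements of the form `g α(g)⁻¹` are closed under powers. -/
theorem S_pow (g : H) : ∀ n : ℕ, ∃ q : H, (g * (α g)⁻¹) ^ n = q * (α q)⁻¹ := by
  have hs : α (g * (α g)⁻¹) = (g * (α g)⁻¹)⁻¹ := by
    rw [map_mul, map_inv, hk.αα, mul_inv_rev, inv_inv]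
  have key : ∀ n : ℕ, (∃ q : H, (g * (α g)⁻¹) ^ n = q * (α q)⁻¹) ∧
      ∃ q : H, (g * (α g)⁻¹) ^ (n + 1) = q * (α q)⁻¹ := by
    intro n
    induction n with
    | zero => exact ⟨⟨1, by simp⟩, ⟨g, by simp⟩⟩
    | succ n ih =>
      refine ⟨ih.2, ?_⟩
      obtain ⟨q, hq⟩ := ih.1
      refine ⟨g * (α g)⁻¹ * q, ?_⟩
      rw [map_mul, hs, mul_inv_rev, inv_inv]
      calc (g * (α g)⁻¹) ^ (n + 1 + 1)
          = (g * (α g)⁻¹) * (g * (α g)⁻¹) ^ n * (g * (α g)⁻¹) := by
            rw [pow_succ, pow_succ']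
        _ = g * (α g)⁻¹ * q * ((α q)⁻¹ * (g * (α g)⁻¹)) := by rw [hq]; group
  exact fun n => (key n).1

/-- Every element of order `4` normalises `⟨i₀⟩`, where `i₀ = q₁ α(q₁)⁻¹` has square `z`. -/
theorem norm [Finite H] {i₀ q₁ : H} (hi : i₀ * i₀ = z) (hαi : α i₀ = i₀ * z)
    (hq : i₀ = q₁ * (α q₁)⁻¹) {y : H} (hy : y * y = z) :
    y * i₀ * y⁻¹ = i₀ ∨ y * i₀ * y⁻¹ = i₀ * z := by
  have hyinv := hk.inv_of_sq hy
  have hαy : α y * α y = z := by rw [← map_mul, hy, hk.αz]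
  have hαyinv := hk.inv_of_sq hαy
  obtain ⟨r, hr⟩ : ∃ r : H, r = α y * y := ⟨_, rfl⟩
  have hrinv : r⁻¹ = y * α y := by
    rw [hr, mul_inv_rev, hyinv, hαyinv]
    calc y * z * (α y * z) = y * (z * α y) * z := by group
      _ = y * (α y * z) * z := by rw [hk.zc]
      _ = y * α y * (z * z) := by group
      _ = y * α y := by rw [hk.zz, mul_one]
  have hαr : α r = r⁻¹ := by rw [hrinv, hr, map_mul, hk.αα]
  have hyr : y * r * y⁻¹ = r⁻¹ := by rw [hrinv, hr]; group
  have hαrn : ∀ n : ℕ, α (r ^ n) = (r ^ n)⁻¹ := fun n => by rw [map_pow, hαr, inv_pow]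
  have hyrn : ∀ n : ℕ, y * r ^ n * y⁻¹ = (r ^ n)⁻¹ := fun n => by rw [← conj_pow, hyr, inv_pow]
  have hαyr : α y = r * y⁻¹ := by rw [hr]; group
  -- the odd case, uniformly in `e ∈ {1, z}`
  have key : ∀ e : H, (e = 1 ∨ e = z) → ∀ k : ℕ, r ^ (2 * k + 1) = e →
      ∃ u : H, α u = u⁻¹ ∧ y * u * y⁻¹ = u⁻¹ ∧ (y * u) * (y * u) = z ∧
        α (y * u) = e * (y * u)⁻¹ := by
    intro e he k hk1
    have hec : ∀ g : H, e * g = g * e := hk.cen he
    have hee : e * e = 1 := by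
      rcases he with rfl | rfl
      · rw [mul_one]
      · exact hk.zz
    have hαe : α e = e := by
      rcases he with rfl | rfl
      · exact map_one α
      · exact hk.αz
    have heinv : e⁻¹ = e := inv_eq_of_mul_eq_one_left hee
    have hr1 : (r * e) ^ (2 * k + 1) = 1 := by
      have hcomm : Commute r e := (hec r).symm
      rw [hcomm.mul_pow, hk1]
      have h2 : e * e ^ (2 * k + 1) = (e * e) ^ (k + 1) := by
        rw [← pow_succ', ← pow_two, ← pow_mul]
        congr 1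
      rw [h2, hee, one_pow]
    have hr1inv : (r * e)⁻¹ = r⁻¹ * e := by
      rw [mul_inv_rev, heinv, hec]
    have hαr1 : α (r * e) = (r * e)⁻¹ := by rw [map_mul, hαr, hαe, hr1inv]
    have hyr1 : y * (r * e) * y⁻¹ = (r * e)⁻¹ := by
      rw [hr1inv]
      calc y * (r * e) * y⁻¹ = y * r * (e * y⁻¹) := by group
        _ = y * r * (y⁻¹ * e) := by rw [hec]
        _ = (y * r * y⁻¹) * e := by group
        _ = r⁻¹ * e := by rw [hyr]
    have hyu : y * (r * e) ^ k * y⁻¹ = ((r * e) ^ k)⁻¹ := by rw [← conj_pow, hyr1, inv_pow]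
    have hαu : α ((r * e) ^ k) = ((r * e) ^ k)⁻¹ := by rw [map_pow, hαr1, inv_pow]
    have huu : (r * e) ^ k * (r * e) ^ k * (r * e) = 1 := by
      rw [← pow_add, ← pow_succ]
      have : k + k + 1 = 2 * k + 1 := by ring
      rw [this, hr1]
    obtain ⟨u, hu⟩ : ∃ u : H, u = (r * e) ^ k := ⟨_, rfl⟩
    rw [← hu] at hyu hαu huu
    have hre : r = (u * u)⁻¹ * e := by
      have h3 : r * e = (u * u)⁻¹ := by
        rw [eq_comm, inv_eq_iff_mul_eq_one]
        exact huu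
      calc r = r * e * e := by rw [mul_assoc, hee, mul_one]
        _ = (u * u)⁻¹ * e := by rw [h3]
    refine ⟨u, hαu, hyu, ?_, ?_⟩
    · calc y * u * (y * u) = (y * u * y⁻¹) * (y * y) * u := by group
        _ = u⁻¹ * z * u := by rw [hyu, hy]
        _ = u⁻¹ * (z * u) := by group
        _ = u⁻¹ * (u * z) := by rw [hk.zc]
        _ = z := by group
    · have h4 : y⁻¹ * u⁻¹ = u * y⁻¹ := by
        rw [← hyu]; group
      rw [map_mul, hαyr, hαu]
      calc r * y⁻¹ * u⁻¹ = r * (y⁻¹ * u⁻¹) := by group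
        _ = r * (u * y⁻¹) := by rw [h4]
        _ = (u * u)⁻¹ * e * (u * y⁻¹) := by rw [← hre]
        _ = (u * u)⁻¹ * (e * u) * y⁻¹ := by group
        _ = (u * u)⁻¹ * (u * e) * y⁻¹ := by rw [hec]
        _ = u⁻¹ * (e * y⁻¹) := by group
        _ = u⁻¹ * (y⁻¹ * e) := by rw [hec]
        _ = (u⁻¹ * y⁻¹) * e := by group
        _ = e * (u⁻¹ * y⁻¹) := by rw [hec]
        _ = e * (y * u)⁻¹ := by group
  rcases hk.tri r with ⟨k, hk1⟩ | ⟨k, hk1⟩ | ⟨n, hn⟩
  · -- `r` of odd order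
    obtain ⟨u, hαu, hyu, hsq, hαyu⟩ := key 1 (Or.inl rfl) k hk1
    rw [one_mul, hk.inv_of_sq hsq] at hαyu
    obtain ⟨c, hc, hyc⟩ : ∃ c : H, (c = 1 ∨ c = z) ∧ y * u = i₀ * c := by
      rcases hk.B_set hαi hαyu with h | h
      · exact ⟨1, Or.inl rfl, by rw [h, mul_one]⟩
      · exact ⟨z, Or.inr rfl, h⟩
    have hcc := hk.cen hc
    have hyeq : y = i₀ * c * u⁻¹ := by rw [← hyc]; group
    have hiu : i₀ * u * i₀⁻¹ = u⁻¹ := by
      have h5 : c * u = u * c := hcc u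
      calc i₀ * u * i₀⁻¹ = i₀ * (u * c) * c⁻¹ * i₀⁻¹ := by group
        _ = i₀ * (c * u) * c⁻¹ * i₀⁻¹ := by rw [h5]
        _ = (i₀ * c * u⁻¹) * u * (i₀ * c * u⁻¹)⁻¹ := by group
        _ = y * u * y⁻¹ := by rw [← hyeq]
        _ = u⁻¹ := hyu
    have hv : α (q₁⁻¹ * u * q₁) = q₁⁻¹ * u * q₁ := by
      have h6 : (α q₁)⁻¹ * u * α q₁ = q₁⁻¹ * u⁻¹ * q₁ := by
        rw [← hiu, hq]; group
      rw [map_mul, map_mul, map_inv, hαu]
      calc (α q₁)⁻¹ * u⁻¹ * α q₁ = ((α q₁)⁻¹ * u * α q₁)⁻¹ := by group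
        _ = (q₁⁻¹ * u⁻¹ * q₁)⁻¹ := by rw [h6]
        _ = q₁⁻¹ * u * q₁ := by group
    have hu' : u = 1 ∨ u = z := by
      rcases hk.αfix _ hv with h | h
      · left
        calc u = q₁ * (q₁⁻¹ * u * q₁) * q₁⁻¹ := by group
          _ = 1 := by rw [h]; group
      · right
        calc u = q₁ * (q₁⁻¹ * u * q₁) * q₁⁻¹ := by group
          _ = q₁ * z * q₁⁻¹ := by rw [h]
          _ = (z * q₁) * q₁⁻¹ := by rw [hk.zc]
          _ = z := by group
    left
    have hui : u⁻¹ * i₀ = i₀ * u⁻¹ := by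
      calc u⁻¹ * i₀ = u⁻¹ * (i₀ * u) * u⁻¹ := by group
        _ = u⁻¹ * (u * i₀) * u⁻¹ := by rw [hk.cen hu' i₀]
        _ = i₀ * u⁻¹ := by group
    have hwc : (c * u⁻¹) * i₀ = i₀ * (c * u⁻¹) := by
      calc (c * u⁻¹) * i₀ = c * (u⁻¹ * i₀) := by group
        _ = c * (i₀ * u⁻¹) := by rw [hui]
        _ = (c * i₀) * u⁻¹ := by group
        _ = (i₀ * c) * u⁻¹ := by rw [hcc]
        _ = i₀ * (c * u⁻¹) := by group
    calc y * i₀ * y⁻¹ = i₀ * ((c * u⁻¹) * i₀) * (c * u⁻¹)⁻¹ * i₀⁻¹ := by rw [hyeq]; group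
      _ = i₀ * (i₀ * (c * u⁻¹)) * (c * u⁻¹)⁻¹ * i₀⁻¹ := by rw [hwc]
      _ = i₀ := by group
  · -- `r z` of odd order: impossible
    exfalso
    obtain ⟨u, hαu, hyu, hsq, hαyu⟩ := key z (Or.inr rfl) k hk1
    rw [hk.inv_of_sq hsq] at hαyu
    have h1 : α (y * u) = y * u := by
      rw [hαyu]
      calc z * (y * u * z) = (z * (y * u)) * z := by group
        _ = (y * u * z) * z := by rw [hk.zc]
        _ = y * u * (z * z) := by group
        _ = y * u := by rw [hk.zz, mul_one]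
    rcases hk.αfix _ h1 with h | h
    · exact (hk.ne_of_sq hsq).1 h
    · exact (hk.ne_of_sq hsq).2 h
  · -- `⟨r⟩` contains an element of order 4
    right
    have h1 : α (r ^ n) = r ^ n * z := by rw [hαrn, hk.inv_of_sq hn]
    have h2 : y * r ^ n * y⁻¹ = r ^ n * z := by rw [hyrn, hk.inv_of_sq hn]
    rcases hk.B_set hαi h1 with h | h
    · rw [← h]; exact h2
    · rw [h] at h2
      have h3 : y * i₀ * y⁻¹ * z = i₀ := by
        calc y * i₀ * y⁻¹ * z = y * i₀ * (y⁻¹ * z) := by group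
          _ = y * i₀ * (z * y⁻¹) := by rw [hk.zc]
          _ = y * (i₀ * z) * y⁻¹ := by group
          _ = i₀ * z * z := h2
          _ = i₀ := by rw [mul_assoc, hk.zz, mul_one]
      calc y * i₀ * y⁻¹ = (y * i₀ * y⁻¹ * z) * z := by rw [mul_assoc _ z z, hk.zz, mul_one]
        _ = i₀ * z := by rw [h3]

end K3

end Cfsg.Agent.H19
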