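import Mathlib
import Cfsg.Agent.H19.K3A

/-!
# helper19: the exceptional configuration for `K3.norm`

If some conjugate `y₁` of `i₀` is not in `⟨i₀⟩`, then the conjugacy class of `i₀` consists of the
six elements of order `4` of the quaternion group `⟨i₀, y₁⟩`, which gives strong counting
information (`K3.bad_card`), and elements of order `3` centralise `i₀, y₁` when the subgroup of
order `3` is unique (`K3.bad_three`).
-/

set_option autoImplicit false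
set_option linter.style.haveILetI false

namespace Cfsg.Agent.H19

/-- Counting with fibres: if the fibres of `f` are the left cosets of `L`, then
`|K| = |range f| * |L|`. -/
theorem card_eq_range_mul {K X : Type*} [Group K] [Finite K] (L : Subgroup K) (f : K → X)
    (hf : ∀ c c' : K, f c = f c' ↔ c⁻¹ * c' ∈ L) :
    Nat.card K = Nat.card (Set.range f) * Nat.card L := by
  have e : (K ⧸ L) ≃ Set.range f := by
    refine Equiv.ofBijective
      (Quotient.lift (fun c : K => (⟨f c, c, rfl⟩ : Set.range f)) ?_) ⟨?_, ?_⟩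
    · intro c c' h
      apply Subtype.ext
      exact (hf c c').mpr (QuotientGroup.leftRel_apply.mp h)
    · intro q q'
      induction q using Quotient.inductionOn with
      | _ c =>
        induction q' using Quotient.inductionOn with
        | _ c' =>
          intro h
          have h1 : f c = f c' := congrArg Subtype.val h
          exact Quotient.sound (QuotientGroup.leftRel_apply.mpr ((hf c c').mp h1))
    · rintro ⟨x, c, rfl⟩
      exact ⟨Quotient.mk _ c, rfl⟩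
  rw [Subgroup.card_eq_card_quotient_mul_card_subgroup L, Nat.card_congr e]

namespace K3

variable {H : Type*} [Group H] {z : H} {α : H →* H} (hk : K3 z α)
include hk

theorem conj_z (h : H) : h * z * h⁻¹ = z := by
  calc h * z * h⁻¹ = (z * h) * h⁻¹ := by rw [hk.zc]
    _ = z := by group

theorem conj_sq {i₀ : H} (hi : i₀ * i₀ = z) (h : H) : (h * i₀ * h⁻¹) * (h * i₀ * h⁻¹) = z := by
  calc (h * i₀ * h⁻¹) * (h * i₀ * h⁻¹) = h * (i₀ * i₀) * h⁻¹ := by group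
    _ = z := by rw [hi, hk.conj_z]

theorem conj_norm {i₀ : H}
    (hN : ∀ y : H, y * y = z → y * i₀ * y⁻¹ = i₀ ∨ y * i₀ * y⁻¹ = i₀ * z) (h : H) {y : H}
    (hy : y * y = z) :
    y * (h * i₀ * h⁻¹) * y⁻¹ = h * i₀ * h⁻¹ ∨ y * (h * i₀ * h⁻¹) * y⁻¹ = h * i₀ * h⁻¹ * z := by
  have hy' : (h⁻¹ * y * h) * (h⁻¹ * y * h) = z := by
    calc (h⁻¹ * y * h) * (h⁻¹ * y * h) = h⁻¹ * (y * y) * h := by group
      _ = h⁻¹ * z * (h⁻¹)⁻¹ := by rw [hy, inv_inv]
      _ = z := hk.conj_z _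
  have e : y * (h * i₀ * h⁻¹) * y⁻¹ = h * ((h⁻¹ * y * h) * i₀ * (h⁻¹ * y * h)⁻¹) * h⁻¹ := by group
  rcases hN _ hy' with h1 | h1
  · left; rw [e, h1]
  · right
    rw [e, h1]
    calc h * (i₀ * z) * h⁻¹ = h * i₀ * (z * h⁻¹) := by group
      _ = h * i₀ * (h⁻¹ * z) := by rw [hk.zc]
      _ = h * i₀ * h⁻¹ * z := by group

/-- The exceptional configuration: a conjugate `y₁` of `i₀` outside `⟨i₀⟩`. -/
structure Bad (i₀ y₁ : H) : Prop where
  hi : i₀ * i₀ = z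
  hαi : α i₀ = i₀ * z
  hN : ∀ y : H, y * y = z → y * i₀ * y⁻¹ = i₀ ∨ y * i₀ * y⁻¹ = i₀ * z
  conj : ∃ h₀ : H, y₁ = h₀ * i₀ * h₀⁻¹
  ne1 : y₁ ≠ i₀
  ne2 : y₁ ≠ i₀ * z

omit hk in
theorem Bad.hy (_hk : K3 z α) {i₀ y₁ : H} (hb : Bad (z := z) (α := α) i₀ y₁) : y₁ * y₁ = z := by
  obtain ⟨h₀, rfl⟩ := hb.conj
  exact _hk.conj_sq hb.hi h₀

theorem Bad.hyi {i₀ y₁ : H} (hb : Bad (z := z) (α := α) i₀ y₁) : y₁ * i₀ * y₁⁻¹ = i₀ * z := by
  have hy := hb.hy hk
  rcases hb.hN y₁ hy with h | h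
  · exfalso
    have hc : i₀ * y₁ = y₁ * i₀ := by
      calc i₀ * y₁ = (y₁ * i₀ * y₁⁻¹) * y₁ := by rw [h]
        _ = y₁ * i₀ := by group
    rcases hk.comm4 hb.hi hy hc with h1 | h1
    · exact hb.ne1 h1
    · exact hb.ne2 h1
  · exact h

theorem Bad.hiy {i₀ y₁ : H} (hb : Bad (z := z) (α := α) i₀ y₁) : i₀ * y₁ * i₀⁻¹ = y₁ * z := by
  have h1 := hb.hyi hk
  have h2 : i₀⁻¹ = i₀ * z := hk.inv_of_sq hb.hi
  have h3 : y₁ * i₀ = i₀ * z * y₁ := by
    calc y₁ * i₀ = (y₁ * i₀ * y₁⁻¹) * y₁ := by group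
      _ = i₀ * z * y₁ := by rw [h1]
  rw [h2]
  calc i₀ * y₁ * (i₀ * z) = i₀ * (y₁ * i₀) * z := by group
    _ = i₀ * (i₀ * z * y₁) * z := by rw [h3]
    _ = (i₀ * i₀) * (z * y₁) * z := by group
    _ = z * (y₁ * z) * z := by rw [hb.hi, hk.zc y₁]
    _ = (z * y₁) * (z * z) := by group
    _ = y₁ * z := by rw [hk.zz, mul_one, hk.zc]

theorem Bad.hkk {i₀ y₁ : H} (hb : Bad (z := z) (α := α) i₀ y₁) :
    (i₀ * y₁) * (i₀ * y₁) = z := by
  have h1 := hb.hyi hk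
  have hy := hb.hy hk
  calc (i₀ * y₁) * (i₀ * y₁) = i₀ * (y₁ * i₀ * y₁⁻¹) * (y₁ * y₁) := by group
    _ = i₀ * (i₀ * z) * z := by rw [h1, hy]
    _ = (i₀ * i₀) * (z * z) := by group
    _ = z := by rw [hb.hi, hk.zz, mul_one]

theorem Bad.hik {i₀ y₁ : H} (hb : Bad (z := z) (α := α) i₀ y₁) :
    i₀ * (i₀ * y₁) * i₀⁻¹ = i₀ * y₁ * z := by
  have h1 := hb.hiy hk
  calc i₀ * (i₀ * y₁) * i₀⁻¹ = i₀ * (i₀ * y₁ * i₀⁻¹) := by group
    _ = i₀ * (y₁ * z) := by rw [h1]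
    _ = i₀ * y₁ * z := by group

/-- Every conjugate of `i₀` is one of the six elements of order four of `⟨i₀, y₁⟩`. -/
theorem Bad.conj_mem {i₀ y₁ : H} (hb : Bad (z := z) (α := α) i₀ y₁) (h : H) :
    h * i₀ * h⁻¹ = i₀ ∨ h * i₀ * h⁻¹ = i₀ * z ∨ h * i₀ * h⁻¹ = y₁ ∨ h * i₀ * h⁻¹ = y₁ * z ∨
      h * i₀ * h⁻¹ = i₀ * y₁ ∨ h * i₀ * h⁻¹ = i₀ * y₁ * z := by
  obtain ⟨y', hy'⟩ : ∃ y' : H, y' = h * i₀ * h⁻¹ := ⟨_, rfl⟩
  rw [← hy']
  have hsq : y' * y' = z := by rw [hy']; exact hk.conj_sq hb.hi h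
  have hy := hb.hy hk
  have comm_of : ∀ w : H, y' * w * y'⁻¹ = w → w * y' = y' * w := by
    intro w hw
    calc w * y' = (y' * w * y'⁻¹) * y' := by rw [hw]
      _ = y' * w := by group
  rcases hb.hN y' hsq with h1 | h1
  · rcases hk.comm4 hb.hi hsq (comm_of _ h1) with h2 | h2
    · exact Or.inl h2
    · exact Or.inr (Or.inl h2)
  · have h3 : y' * y₁ * y'⁻¹ = y₁ ∨ y' * y₁ * y'⁻¹ = y₁ * z := by
      obtain ⟨h₀, hh₀⟩ := hb.conj
      rw [hh₀]
      exact hk.conj_norm hb.hN h₀ hsq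
    rcases h3 with h3 | h3
    · rcases hk.comm4 hy hsq (comm_of _ h3) with h2 | h2
      · exact Or.inr (Or.inr (Or.inl h2))
      · exact Or.inr (Or.inr (Or.inr (Or.inl h2)))
    · have h4 : y' * (i₀ * y₁) * y'⁻¹ = i₀ * y₁ := by
        calc y' * (i₀ * y₁) * y'⁻¹ = (y' * i₀ * y'⁻¹) * (y' * y₁ * y'⁻¹) := by group
          _ = (i₀ * z) * (y₁ * z) := by rw [h1, h3]
          _ = i₀ * (z * y₁) * z := by group
          _ = i₀ * (y₁ * z) * z := by rw [hk.zc]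
          _ = i₀ * y₁ * (z * z) := by group
          _ = i₀ * y₁ := by rw [hk.zz, mul_one]
      rcases hk.comm4 (hb.hkk hk) hsq (comm_of _ h4) with h2 | h2
      · exact Or.inr (Or.inr (Or.inr (Or.inr (Or.inl h2))))
      · exact Or.inr (Or.inr (Or.inr (Or.inr (Or.inr h2))))

/-- `i₀ y₁` is a conjugate of `i₀`. -/
theorem Bad.conj_k {i₀ y₁ : H} (hb : Bad (z := z) (α := α) i₀ y₁) :
    ∃ h₂ : H, i₀ * y₁ = h₂ * i₀ * h₂⁻¹ := by
  obtain ⟨h₀, hh₀⟩ := hb.conj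
  have hy := hb.hy hk
  have hyi := hb.hyi hk
  have hα : α y₁ = (α h₀ * y₁) * i₀ * (α h₀ * y₁)⁻¹ := by
    rw [hh₀, map_mul, map_mul, map_inv, hb.hαi, ← hh₀]
    calc α h₀ * (i₀ * z) * (α h₀)⁻¹ = α h₀ * (y₁ * i₀ * y₁⁻¹) * (α h₀)⁻¹ := by rw [hyi]
      _ = (α h₀ * y₁) * i₀ * (α h₀ * y₁)⁻¹ := by group
  have hmem := hb.conj_mem hk (α h₀ * y₁)
  rw [← hα] at hmem
  rcases hmem with h | h | h | h | h | h
  · exfalso
    have h1 := hk.αα y₁
    rw [h, hb.hαi] at h1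
    exact hb.ne2 h1.symm
  · exfalso
    have h1 := hk.αα y₁
    rw [h, map_mul, hb.hαi, hk.αz, mul_assoc, hk.zz, mul_one] at h1
    exact hb.ne1 h1.symm
  · exfalso
    rcases hk.αfix _ h with h1 | h1
    · exact (hk.ne_of_sq hy).1 h1
    · exact (hk.ne_of_sq hy).2 h1
  · exfalso
    rcases hk.B_set hb.hαi h with h1 | h1
    · exact hb.ne1 h1
    · exact hb.ne2 h1
  · exact ⟨α h₀ * y₁, by rw [← h, hα]⟩
  · refine ⟨i₀ * (α h₀ * y₁), ?_⟩
    have h1 : i₀ * (α y₁) * i₀⁻¹ = i₀ * y₁ := by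
      rw [h]
      calc i₀ * (i₀ * y₁ * z) * i₀⁻¹ = i₀ * (i₀ * y₁) * (z * i₀⁻¹) := by group
        _ = i₀ * (i₀ * y₁) * (i₀⁻¹ * z) := by rw [hk.zc]
        _ = (i₀ * (i₀ * y₁) * i₀⁻¹) * z := by group
        _ = i₀ * y₁ * z * z := by rw [hb.hik hk]
        _ = i₀ * y₁ := by rw [mul_assoc _ z z, hk.zz, mul_one]
    rw [← h1, hα]
    group

/-- The six elements of order four are distinct. -/
theorem Bad.card_six [DecidableEq H] {i₀ y₁ : H} (hb : Bad (z := z) (α := α) i₀ y₁) :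
    ({i₀, i₀ * z, y₁, y₁ * z, i₀ * y₁, i₀ * y₁ * z} : Finset H).card = 6 := by
  have hy := hb.hy hk
  have hi0 := hk.ne_of_sq hb.hi
  have hy0 := hk.ne_of_sq hy
  have hzi : z⁻¹ = z := hk.zinv
  have a1 : i₀ ≠ i₀ * z := fun h => hk.z1 (mul_left_cancel (a := i₀) (by rw [mul_one]; exact h)).symm
  have a2 : i₀ ≠ y₁ := fun h => hb.ne1 h.symm
  have a4 : i₀ ≠ i₀ * y₁ :=
    fun h => hy0.1 (mul_left_cancel (a := i₀) (by rw [mul_one]; exact h)).symm
  have a5 : i₀ ≠ i₀ * y₁ * z := by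
    intro h
    have h1 : y₁ * z = 1 := (mul_left_cancel (a := i₀) (by rw [mul_one, ← mul_assoc]; exact h)).symm
    have h2 : y₁ = z⁻¹ := eq_inv_of_mul_eq_one_left h1
    rw [hzi] at h2
    exact hy0.2 h2
  have b1 : i₀ * z ≠ y₁ := fun h => hb.ne2 h.symm
  have a3 : i₀ ≠ y₁ * z := by
    intro h
    apply b1
    rw [h, mul_assoc, hk.zz, mul_one]
  have b2 : i₀ * z ≠ y₁ * z := fun h => a2 (mul_right_cancel h)
  have b3 : i₀ * z ≠ i₀ * y₁ := fun h => hy0.2 (mul_left_cancel h).symm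
  have b4 : i₀ * z ≠ i₀ * y₁ * z := fun h => a4 (mul_right_cancel h)
  have c1 : y₁ ≠ y₁ * z := fun h => hk.z1 (mul_left_cancel (a := y₁) (by rw [mul_one]; exact h)).symm
  have c2 : y₁ ≠ i₀ * y₁ :=
    fun h => hi0.1 (mul_right_cancel (b := y₁) (by rw [one_mul]; exact h)).symm
  have c3 : y₁ ≠ i₀ * y₁ * z := by
    intro h
    have h1 : i₀ * y₁ * z = (i₀ * z) * y₁ := by
      calc i₀ * y₁ * z = i₀ * (y₁ * z) := by group
        _ = i₀ * (z * y₁) := by rw [hk.zc]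
        _ = (i₀ * z) * y₁ := by group
    rw [h1] at h
    have h2 : i₀ * z = 1 := (mul_right_cancel (b := y₁) (by rw [one_mul]; exact h)).symm
    have h3 : i₀ = z⁻¹ := eq_inv_of_mul_eq_one_left h2
    rw [hzi] at h3
    exact hi0.2 h3
  have d1 : y₁ * z ≠ i₀ * y₁ := by
    intro h
    rw [← hk.zc] at h
    exact hi0.2 (mul_right_cancel h).symm
  have d2 : y₁ * z ≠ i₀ * y₁ * z := fun h => c2 (mul_right_cancel h)
  have e1 : i₀ * y₁ ≠ i₀ * y₁ * z :=
    fun h => hk.z1 (mul_left_cancel (a := i₀ * y₁) (by rw [mul_one]; exact h)).symm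
  rw [Finset.card_insert_of_notMem, Finset.card_insert_of_notMem, Finset.card_insert_of_notMem,
    Finset.card_insert_of_notMem, Finset.card_insert_of_notMem, Finset.card_singleton]
  · simp only [Finset.mem_singleton]; exact e1
  · simp only [Finset.mem_insert, Finset.mem_singleton, not_or]; exact ⟨d1, d2⟩
  · simp only [Finset.mem_insert, Finset.mem_singleton, not_or]; exact ⟨c1, c2, c3⟩
  · simp only [Finset.mem_insert, Finset.mem_singleton, not_or]; exact ⟨b1, b2, b3, b4⟩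
  · simp only [Finset.mem_insert, Finset.mem_singleton, not_or]; exact ⟨a1, a2, a3, a4, a5⟩

/-- Counting in the exceptional configuration. -/
theorem Bad.card [Finite H] {i₀ y₁ : H} (hb : Bad (z := z) (α := α) i₀ y₁) :
    Nat.card H = 6 * Nat.card (Subgroup.centralizer ({i₀} : Set H)) ∧
      Nat.card H ≤ 36 * Nat.card (Subgroup.centralizer ({i₀, y₁} : Set H)) := by
  classical
  obtain ⟨h₀, hh₀⟩ := hb.conj
  obtain ⟨h₂, hh₂⟩ := hb.conj_k hk
  obtain ⟨W, hW⟩ : ∃ W : Finset H, W = {i₀, i₀ * z, y₁, y₁ * z, i₀ * y₁, i₀ * y₁ * z} := ⟨_, rfl⟩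
  have hWcard : W.card = 6 := by rw [hW]; exact hb.card_six hk
  have hWmem : ∀ h : H, h * i₀ * h⁻¹ ∈ W := by
    intro h
    rw [hW]
    simp only [Finset.mem_insert, Finset.mem_singleton]
    exact hb.conj_mem hk h
  constructor
  · have hf : ∀ c c' : H, c * i₀ * c⁻¹ = c' * i₀ * c'⁻¹ ↔
        c⁻¹ * c' ∈ Subgroup.centralizer ({i₀} : Set H) := by
      intro c c'
      rw [Subgroup.mem_centralizer_iff]
      constructor
      · intro h w hw
        rw [Set.mem_singleton_iff] at hw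
        rw [hw]
        calc i₀ * (c⁻¹ * c') = c⁻¹ * (c * i₀ * c⁻¹) * c' := by group
          _ = c⁻¹ * (c' * i₀ * c'⁻¹) * c' := by rw [h]
          _ = c⁻¹ * c' * i₀ := by group
      · intro h
        have h1 := h i₀ rfl
        calc c * i₀ * c⁻¹ = c * (i₀ * (c⁻¹ * c')) * c'⁻¹ := by group
          _ = c * (c⁻¹ * c' * i₀) * c'⁻¹ := by rw [h1]
          _ = c' * i₀ * c'⁻¹ := by group
    have h1 := card_eq_range_mul (Subgroup.centralizer ({i₀} : Set H))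
      (fun h : H => h * i₀ * h⁻¹) hf
    have h2 : Set.range (fun h : H => h * i₀ * h⁻¹) = (W : Set H) := by
      ext w
      constructor
      · rintro ⟨h, rfl⟩
        exact hWmem h
      · intro hw
        rw [hW] at hw
        simp only [Finset.coe_insert, Finset.coe_singleton, Set.mem_insert_iff,
          Set.mem_singleton_iff] at hw
        rcases hw with rfl | rfl | rfl | rfl | rfl | rfl
        · exact ⟨1, by group⟩
        · exact ⟨y₁, hb.hyi hk⟩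
        · exact ⟨h₀, hh₀.symm⟩
        · refine ⟨i₀ * h₀, ?_⟩
          show i₀ * h₀ * i₀ * (i₀ * h₀)⁻¹ = y₁ * z
          rw [← hb.hiy hk, hh₀]; group
        · exact ⟨h₂, hh₂.symm⟩
        · refine ⟨i₀ * h₂, ?_⟩
          show i₀ * h₂ * i₀ * (i₀ * h₂)⁻¹ = i₀ * y₁ * z
          rw [← hb.hik hk, hh₂]; group
    rw [h2] at h1
    rw [h1, Nat.card_coe_set_eq, Set.ncard_coe_finset, hWcard]
  · have hf : ∀ c c' : H, (c * i₀ * c⁻¹, c * y₁ * c⁻¹) = (c' * i₀ * c'⁻¹, c' * y₁ * c'⁻¹) ↔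
        c⁻¹ * c' ∈ Subgroup.centralizer ({i₀, y₁} : Set H) := by
      intro c c'
      rw [Subgroup.mem_centralizer_iff, Prod.mk.injEq]
      constructor
      · rintro ⟨h, h'⟩ w hw
        rcases hw with rfl | hw
        · calc w * (c⁻¹ * c') = c⁻¹ * (c * w * c⁻¹) * c' := by group
            _ = c⁻¹ * (c' * w * c'⁻¹) * c' := by rw [h]
            _ = c⁻¹ * c' * w := by group
        · rw [Set.mem_singleton_iff] at hw
          rw [hw]
          calc y₁ * (c⁻¹ * c') = c⁻¹ * (c * y₁ * c⁻¹) * c' := by group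
            _ = c⁻¹ * (c' * y₁ * c'⁻¹) * c' := by rw [h']
            _ = c⁻¹ * c' * y₁ := by group
      · intro h
        have h1 := h i₀ (Set.mem_insert _ _)
        have h1' := h y₁ (Set.mem_insert_of_mem _ rfl)
        constructor
        · calc c * i₀ * c⁻¹ = c * (i₀ * (c⁻¹ * c')) * c'⁻¹ := by group
            _ = c * (c⁻¹ * c' * i₀) * c'⁻¹ := by rw [h1]
            _ = c' * i₀ * c'⁻¹ := by group
        · calc c * y₁ * c⁻¹ = c * (y₁ * (c⁻¹ * c')) * c'⁻¹ := by group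
            _ = c * (c⁻¹ * c' * y₁) * c'⁻¹ := by rw [h1']
            _ = c' * y₁ * c'⁻¹ := by group
    have h1 := card_eq_range_mul (Subgroup.centralizer ({i₀, y₁} : Set H))
      (fun h : H => (h * i₀ * h⁻¹, h * y₁ * h⁻¹)) hf
    have h2 : Set.range (fun h : H => (h * i₀ * h⁻¹, h * y₁ * h⁻¹)) ⊆ ((W ×ˢ W : Finset (H × H)) : Set (H × H)) := by
      rintro _ ⟨h, rfl⟩
      rw [Finset.mem_coe, Finset.mem_product]
      refine ⟨hWmem h, ?_⟩
      have : h * y₁ * h⁻¹ = (h * h₀) * i₀ * (h * h₀)⁻¹ := by rw [hh₀]; group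
      show h * y₁ * h⁻¹ ∈ W
      rw [this]
      exact hWmem _
    have h3 : Nat.card (Set.range (fun h : H => (h * i₀ * h⁻¹, h * y₁ * h⁻¹))) ≤ 36 := by
      rw [Nat.card_coe_set_eq]
      calc (Set.range (fun h : H => (h * i₀ * h⁻¹, h * y₁ * h⁻¹))).ncard
          ≤ ((W ×ˢ W : Finset (H × H)) : Set (H × H)).ncard :=
            Set.ncard_le_ncard h2 (Finset.finite_toSet _)
        _ = 36 := by rw [Set.ncard_coe_finset, Finset.card_product, hWcard]
    rw [h1]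
    exact Nat.mul_le_mul_right _ h3

omit hk in
theorem orderOf_conj' (g x : H) : orderOf (g * x * g⁻¹) = orderOf x := by
  have := orderOf_injective (MulAut.conj g).toMonoidHom (MulAut.conj g).injective x
  simpa using this

/-- In the exceptional configuration, an element of order three centralises `i₀` and `y₁` if
`H` has a unique subgroup of order three. -/
theorem Bad.three {i₀ y₁ : H} (hb : Bad (z := z) (α := α) i₀ y₁)
    (h3 : ∀ x y : H, orderOf x = 3 → orderOf y = 3 → y = x ∨ y = x⁻¹) {x : H}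
    (hx : orderOf x = 3) : x ∈ Subgroup.centralizer ({i₀, y₁} : Set H) := by
  obtain ⟨h₀, hh₀⟩ := hb.conj
  obtain ⟨h₂, hh₂⟩ := hb.conj_k hk
  have hxx : x ≠ x⁻¹ := by
    intro h
    have h1 : x ^ 2 = 1 := by
      rw [pow_two]
      calc x * x = x * x⁻¹ := by rw [← h]
        _ = 1 := mul_inv_cancel x
    have h2 := orderOf_dvd_of_pow_eq_one h1
    rw [hx] at h2
    omega
  have hcj : ∀ g : H, g * x * g⁻¹ = x ∨ g * x * g⁻¹ = x⁻¹ :=
    fun g => h3 x _ hx (by rw [orderOf_conj', hx])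
  -- conjugating the acting element preserves "inverts" and "centralises"
  have hA : ∀ e h : H, e * x * e⁻¹ = x⁻¹ → (h * e * h⁻¹) * x * (h * e * h⁻¹)⁻¹ = x⁻¹ := by
    intro e h he
    have e1 : (h * e * h⁻¹) * x * (h * e * h⁻¹)⁻¹ = h * (e * (h⁻¹ * x * (h⁻¹)⁻¹) * e⁻¹) * h⁻¹ := by
      group
    rcases hcj h⁻¹ with h1 | h1
    · rw [e1, h1, he]
      have h2 : h * x * h⁻¹ = x := by
        calc h * x * h⁻¹ = h * (h⁻¹ * x * (h⁻¹)⁻¹) * h⁻¹ := by rw [h1]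
          _ = x := by group
      calc h * x⁻¹ * h⁻¹ = (h * x * h⁻¹)⁻¹ := by group
        _ = x⁻¹ := by rw [h2]
    · rw [e1, h1]
      have h2 : h * x * h⁻¹ = x⁻¹ := by
        have h4 : h * x⁻¹ * h⁻¹ = x := by
          calc h * x⁻¹ * h⁻¹ = h * (h⁻¹ * x * (h⁻¹)⁻¹) * h⁻¹ := by rw [h1]
            _ = x := by group
        calc h * x * h⁻¹ = (h * x⁻¹ * h⁻¹)⁻¹ := by group
          _ = x⁻¹ := by rw [h4]
      calc h * (e * x⁻¹ * e⁻¹) * h⁻¹ = h * (e * x * e⁻¹)⁻¹ * h⁻¹ := by group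
        _ = h * x * h⁻¹ := by rw [he, inv_inv]
        _ = x⁻¹ := h2
  have hA' : ∀ e h : H, e * x * e⁻¹ = x → (h * e * h⁻¹) * x * (h * e * h⁻¹)⁻¹ = x := by
    intro e h he
    rcases hcj (h * e * h⁻¹) with h1 | h1
    · exact h1
    · exfalso
      have h2 := hA (h * e * h⁻¹) h⁻¹ h1
      have h3' : h⁻¹ * (h * e * h⁻¹) * (h⁻¹)⁻¹ = e := by group
      rw [h3', he] at h2
      exact hxx h2
  have hi0 : i₀ * x * i₀⁻¹ = x := by
    rcases hcj i₀ with h1 | h1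
    · exact h1
    · exfalso
      have hy1 : y₁ * x * y₁⁻¹ = x⁻¹ := by rw [hh₀]; exact hA i₀ h₀ h1
      have hk1 : (i₀ * y₁) * x * (i₀ * y₁)⁻¹ = x⁻¹ := by rw [hh₂]; exact hA i₀ h₂ h1
      have hk2 : (i₀ * y₁) * x * (i₀ * y₁)⁻¹ = x := by
        calc (i₀ * y₁) * x * (i₀ * y₁)⁻¹ = i₀ * (y₁ * x * y₁⁻¹) * i₀⁻¹ := by group
          _ = i₀ * x⁻¹ * i₀⁻¹ := by rw [hy1]
          _ = (i₀ * x * i₀⁻¹)⁻¹ := by group
          _ = x := by rw [h1, inv_inv]
      rw [hk2] at hk1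
      exact hxx hk1
  have hy1 : y₁ * x * y₁⁻¹ = x := by rw [hh₀]; exact hA' i₀ h₀ hi0
  rw [Subgroup.mem_centralizer_iff]
  intro w hw
  have comm_of : ∀ e : H, e * x * e⁻¹ = x → e * x = x * e := by
    intro e he
    calc e * x = (e * x * e⁻¹) * e := by group
      _ = x * e := by rw [he]
  rcases hw with rfl | hw
  · exact comm_of _ hi0
  · rw [Set.mem_singleton_iff] at hw
    rw [hw]
    exact comm_of _ hy1

end K3

end Cfsg.Agent.H19
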