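import Mathlib
import Cfsg.Agent.H19.K3B

/-!
# helper19: the eigenspace count for a quaternion group acting on an elementary abelian group

If `i, j` generate a quaternion group acting on `V` (odd exponent `p`) with the central involution
acting as `-1`, then `ε = a i + b j` with `a² + b² = -1` is an involution of `V` whose eigenspaces
`V₊, V₋` are swapped by `i j`; hence `|V| = |V₊|²`, and a subgroup centralising `i, j` and acting
freely on `V ∖ 0` has order dividing `|V₊| - 1`.
-/

set_option autoImplicit false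
set_option linter.style.haveILetI false

namespace Cfsg.Agent.H19

/-- A free action of `C` on a finite type `X` has `|C| ∣ |X|`. -/
theorem card_dvd_of_free {C X : Type*} [Group C] [MulAction C X]
    (hfree : ∀ (c : C) (x : X), c • x = x → c = 1) : Nat.card C ∣ Nat.card X := by
  have e := MulAction.selfEquivOrbitsQuotientProd (G := C) (X := X) (fun b => by
    rw [eq_bot_iff]; intro c hc; rw [Subgroup.mem_bot]; exact hfree c b hc)
  rw [Nat.card_congr e, Nat.card_prod]
  exact dvd_mul_left _ _

theorem vplus_card {H V : Type*} [Group H] [AddCommGroup V] [Finite V] [DistribMulAction H V]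
    {i j z : H} (hi : i * i = z) (hj : j * j = z) (hji : j * i * j⁻¹ = i * z)
    (hz : ∀ v : V, z • v = -v) {p : ℕ} (hp : p.Prime) (hp2 : p ≠ 2) (hpV : ∀ v : V, p • v = 0)
    (C : Subgroup H) (hCi : ∀ c ∈ C, c * i = i * c) (hCj : ∀ c ∈ C, c * j = j * c)
    (hfree : ∀ c ∈ C, ∀ v : V, v ≠ 0 → c • v = v → c = 1) :
    ∃ q₀ : ℕ, Nat.card V = q₀ * q₀ ∧ Nat.card C ∣ q₀ - 1 := by
  haveI := Fact.mk hp
  obtain ⟨a, b, -, -, hab⟩ := Nat.sq_add_sq_modEq p (p - 1)
  have hdvd : p ∣ a * a + b * b + 1 := by
    have h1 : a ^ 2 + b ^ 2 + 1 ≡ p - 1 + 1 [MOD p] := Nat.ModEq.add_right 1 hab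
    have h2 : p - 1 + 1 = p := Nat.sub_add_cancel hp.one_lt.le
    rw [h2] at h1
    have h3 : a ^ 2 + b ^ 2 + 1 ≡ 0 [MOD p] := h1.trans (by simp [Nat.ModEq])
    have := (Nat.modEq_zero_iff_dvd).mp h3
    rwa [pow_two, pow_two] at this
  have hkill : ∀ v : V, (a * a + b * b + 1) • v = 0 := by
    intro v
    obtain ⟨m, hm⟩ := hdvd
    rw [hm, mul_smul, hpV]
  have hii : ∀ v : V, i • i • v = -v := by intro v; rw [← mul_smul, hi, hz]
  have hjj : ∀ v : V, j • j • v = -v := by intro v; rw [← mul_smul, hj, hz]
  have hjiv : ∀ v : V, j • i • v = -(i • j • v) := by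
    intro v
    have h1 : j * i = i * z * j := by
      calc j * i = (j * i * j⁻¹) * j := by group
        _ = i * z * j := by rw [hji]
    rw [← mul_smul, h1, mul_smul, mul_smul, hz, smul_neg]
  obtain ⟨ε, hε⟩ : ∃ ε : V →+ V, ∀ v, ε v = a • (i • v) + b • (j • v) :=
    ⟨a • (DistribSMul.toAddMonoidHom V i) + b • (DistribSMul.toAddMonoidHom V j),
      fun v => rfl⟩
  have hε2 : ∀ v : V, ε (ε v) = v := by
    intro v
    have h1 : ε (ε v) = a • a • (i • i • v) + a • b • (i • j • v) + (b • a • (j • i • v)
        + b • b • (j • j • v)) := by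
      rw [hε, hε]
      simp only [smul_add, smul_comm i a, smul_comm j b, smul_comm i b, smul_comm j a]
    rw [h1, hii, hjj, hjiv]
    have h2 := hkill v
    have h3 : a • a • (-v) + a • b • (i • j • v) + (b • a • (-(i • j • v)) + b • b • (-v))
        = v - (a * a + b * b + 1) • v := by
      rw [smul_comm b a]
      simp only [smul_neg, add_smul, mul_smul, one_smul]
      abel
    rw [h3, h2, sub_zero]
  have hεk : ∀ v : V, i • j • ε v = -ε (i • j • v) := by
    intro v
    rw [hε, hε]
    simp only [smul_add, smul_comm i a, smul_comm j b, smul_comm i b, smul_comm j a]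
    rw [hjj, hjiv (j • v), hjj, hjiv v, smul_neg, hii, smul_neg, smul_neg, smul_neg, smul_neg,
      smul_neg, smul_neg, neg_neg]
    abel
  -- the eigenspaces
  have hcard_pm : Nat.card {v : V // ε v = v} = Nat.card {v : V // ε v = -v} := by
    apply le_antisymm
    · apply Nat.card_le_card_of_injective
        (fun v : {v : V // ε v = v} => (⟨i • j • v.1, by
          have h1 := hεk v.1
          rw [v.2] at h1
          rw [eq_comm, neg_eq_iff_eq_neg]
          exact h1⟩ : {v : V // ε v = -v}))
      intro v w h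
      have h1 : i • j • v.1 = i • j • w.1 := congrArg Subtype.val h
      exact Subtype.ext (smul_left_cancel j (smul_left_cancel i h1))
    · apply Nat.card_le_card_of_injective
        (fun v : {v : V // ε v = -v} => (⟨i • j • v.1, by
          have h1 := hεk v.1
          rw [v.2, smul_neg, smul_neg] at h1
          exact (neg_injective h1).symm⟩ : {v : V // ε v = v}))
      intro v w h
      have h1 : i • j • v.1 = i • j • w.1 := congrArg Subtype.val h
      exact Subtype.ext (smul_left_cancel j (smul_left_cancel i h1))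
  have hodd : Odd p := hp.odd_of_ne_two hp2
  obtain ⟨m, hm⟩ := hodd
  have htwo : ∀ x : V, x = -x → x = 0 := by
    intro x hx
    have h1 : x + x = 0 := by
      nth_rewrite 1 [hx]
      exact neg_add_cancel x
    have h2 := hpV x
    rw [hm, add_smul, one_smul, mul_comm, mul_smul, two_smul, h1, smul_zero, zero_add] at h2
    exact h2
  have hcard_prod : Nat.card V = Nat.card {v : V // ε v = v} * Nat.card {v : V // ε v = -v} := by
    rw [← Nat.card_prod]
    symm
    apply Nat.card_eq_of_bijective
      (fun x : {v : V // ε v = v} × {v : V // ε v = -v} => x.1.1 + x.2.1)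
    constructor
    · rintro ⟨⟨u, hu⟩, ⟨w, hw⟩⟩ ⟨⟨u', hu'⟩, ⟨w', hw'⟩⟩ h
      have h0 : u + w = u' + w' := h
      have h1 : u - u' = w' - w := by
        rw [sub_eq_sub_iff_add_eq_add, h0, add_comm]
      have h2 : ε (u - u') = u - u' := by rw [map_sub, hu, hu']
      have h3 : ε (u - u') = -(u - u') := by rw [h1, map_sub, hw, hw']; abel
      have h4 : u - u' = 0 := htwo _ (h2.symm.trans h3)
      have h5 : w' - w = 0 := by rw [← h1, h4]
      have h6 : u = u' := sub_eq_zero.mp h4
      have h7 : w = w' := (sub_eq_zero.mp h5).symm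
      subst h6 h7
      rfl
    · intro v
      have hh : (m + 1) • (v + v) = v := by
        have h2 := hpV v
        rw [hm] at h2
        have h3 : (m + 1) • (v + v) = (2 * m + 1) • v + v := by
          simp only [add_smul, mul_smul, one_smul, two_smul, smul_add]
          abel
        rw [h3, h2, zero_add]
      refine ⟨(⟨(m + 1) • (v + ε v), ?_⟩, ⟨(m + 1) • (v - ε v), ?_⟩), ?_⟩
      · rw [map_nsmul, map_add, hε2, add_comm (ε v) v]
      · rw [map_nsmul, map_sub, hε2, ← smul_neg, neg_sub]
      · show (m + 1) • (v + ε v) + (m + 1) • (v - ε v) = v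
        rw [← smul_add]
        have : v + ε v + (v - ε v) = v + v := by abel
        rw [this, hh]
  refine ⟨Nat.card {v : V // ε v = v}, by rw [hcard_prod, hcard_pm], ?_⟩
  -- the action of `C` on `V₊ ∖ 0`
  have hεc : ∀ c ∈ C, ∀ v : V, ε (c • v) = c • ε v := by
    intro c hc v
    rw [hε, hε, smul_add, smul_comm c a, smul_comm c b, ← mul_smul, ← mul_smul, ← mul_smul,
      ← mul_smul, hCi c hc, hCj c hc]
  let S : SubMulAction C V :=
    { carrier := {v | ε v = v ∧ v ≠ 0}
      smul_mem' := by
        rintro ⟨c, hc⟩ v ⟨hv, hv0⟩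
        refine ⟨?_, ?_⟩
        · show ε (c • v) = c • v
          rw [hεc c hc, hv]
        · show c • v ≠ 0
          rw [Ne, smul_eq_zero_iff_eq]
          exact hv0 }
  have h1 : Nat.card C ∣ Nat.card S := by
    apply card_dvd_of_free
    rintro ⟨c, hc⟩ ⟨v, hv, hv0⟩ h
    have h2 : c • v = v := congrArg Subtype.val h
    exact Subtype.ext (hfree c hc v hv0 h2)
  have h2 : Nat.card S = Nat.card {v : V // ε v = v} - 1 := by
    have e1 : Nat.card S = ({v : V | ε v = v} \ {0}).ncard := by
      rw [← Nat.card_coe_set_eq]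
      apply Nat.card_congr
      refine Equiv.subtypeEquivRight ?_
      intro v
      show (ε v = v ∧ v ≠ 0) ↔ _
      simp
    rw [e1, Set.ncard_sdiff_singleton_of_mem (by simp), ← Nat.card_coe_set_eq]
    rfl
  rw [← h2]
  exact h1

end Cfsg.Agent.H19
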