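import Mathlib
import Cfsg.Agent.H19.K3C

/-!
# helper19: the exceptional configuration is impossible for a transitive free linear action

`H` acts on the elementary abelian `p`-group `V` (`p` odd), regularly on `V ∖ 0`.  Then the
configuration `K3.Bad` cannot occur (when subgroups of order `3` are unique).
-/

set_option autoImplicit false
set_option linter.style.haveILetI false

namespace Cfsg.Agent.H19

/-- An involution acting freely on `V ∖ 0` acts as `-1`. -/
theorem invol_smul_neg {H V : Type*} [Group H] [AddCommGroup V] [DistribMulAction H V]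
    (hfree : ∀ h : H, ∀ v : V, v ≠ 0 → h • v = v → h = 1) {u : H} (hu : u * u = 1) (hu1 : u ≠ 1)
    (v : V) : u • v = -v := by
  by_contra hne
  have h1 : v + u • v ≠ 0 := by
    intro h
    apply hne
    rw [eq_neg_iff_add_eq_zero, add_comm]
    exact h
  have h2 : u • (v + u • v) = v + u • v := by
    rw [smul_add, ← mul_smul, hu, one_smul, add_comm]
  exact hu1 (hfree u _ h1 h2)

/-- Pure arithmetic for the exceptional configuration. -/
theorem bad_arith {nH c₁ c₀ q₀ : ℕ} (h6 : nH = 6 * c₁) (h36 : nH ≤ 36 * c₀) (hc₁ : 0 < c₁)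
    (hdvd : c₀ ∣ c₁) (h3 : 3 ∣ c₀) (hq : nH + 1 = q₀ * q₀) (hq1 : c₀ ∣ q₀ - 1) : False := by
  obtain ⟨j, rfl⟩ := hdvd
  obtain ⟨t, rfl⟩ := h3
  obtain ⟨m, hm⟩ := hq1
  have ht : 0 < t := by
    rcases Nat.eq_zero_or_pos t with h | h
    · subst h; simp at hc₁
    · exact h
  have hj : 0 < j := by
    rcases Nat.eq_zero_or_pos j with h | h
    · subst h; simp at hc₁
    · exact h
  have hq0 : 1 ≤ q₀ := by
    rcases Nat.eq_zero_or_pos q₀ with h | h
    · subst h; simp at hq
    · exact h
  have hq' : q₀ = 3 * t * m + 1 := by omega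
  subst hq'
  subst h6
  have hj6 : j ≤ 6 := by
    by_contra hcon
    push Not at hcon
    have : 36 * (3 * t) < 6 * (3 * t * j) := by nlinarith
    omega
  have key : t * (3 * t * m * m + 2 * m) = t * (6 * j) := by nlinarith [hq]
  have key' : 3 * t * m * m + 2 * m = 6 * j := Nat.eq_of_mul_eq_mul_left ht key
  have hm3 : m ≤ 3 := by
    by_contra hcon
    push Not at hcon
    have h1 : 16 ≤ m * m := by nlinarith
    have h2 : 3 * 16 ≤ 3 * t * (m * m) := by nlinarith
    have h3 : 3 * t * m * m = 3 * t * (m * m) := by ring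
    omega
  interval_cases m
  · omega
  · omega
  · omega
  · omega

theorem K3.Bad.false {H V : Type*} [Group H] [Finite H] [AddCommGroup V] [Finite V]
    [DistribMulAction H V] {z : H} {α : H →* H} (hk : K3 z α) {i₀ y₁ : H}
    (hb : K3.Bad (z := z) (α := α) i₀ y₁)
    (hfree : ∀ h : H, ∀ v : V, v ≠ 0 → h • v = v → h = 1)
    (hcard : Nat.card H + 1 = Nat.card V)
    {p : ℕ} (hp : p.Prime) (hp2 : p ≠ 2) (hpV : ∀ v : V, p • v = 0)
    (h3 : ∀ x y : H, orderOf x = 3 → orderOf y = 3 → y = x ∨ y = x⁻¹) : False := by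
  have hz : ∀ v : V, z • v = -v := invol_smul_neg hfree hk.zz hk.z1
  obtain ⟨hc6, hc36⟩ := hb.card hk
  have hle : Subgroup.centralizer ({i₀, y₁} : Set H) ≤ Subgroup.centralizer ({i₀} : Set H) :=
    Subgroup.centralizer_le (by simp)
  have hdvd := Subgroup.card_dvd_of_le hle
  obtain ⟨q₀, hq, hq1⟩ := vplus_card (V := V) hb.hi (hb.hy hk) (hb.hyi hk) hz hp hp2 hpV
    (Subgroup.centralizer ({i₀, y₁} : Set H))
    (fun c hc => ((Subgroup.mem_centralizer_iff.mp hc) i₀ (by simp)).symm)
    (fun c hc => ((Subgroup.mem_centralizer_iff.mp hc) y₁ (by simp)).symm)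
    (fun c _ v hv h => hfree c v hv h)
  have h3dvd : 3 ∣ Nat.card (Subgroup.centralizer ({i₀, y₁} : Set H)) := by
    have h3H : 3 ∣ Nat.card H := by
      rw [hc6]
      exact Dvd.dvd.mul_right (by norm_num) _
    haveI : Fact (Nat.Prime 3) := ⟨Nat.prime_three⟩
    obtain ⟨x, hx⟩ := exists_prime_orderOf_dvd_card' 3 h3H
    have hmem := hb.three hk h3 hx
    have := Subgroup.orderOf_dvd_natCard _ hmem
    rwa [hx] at this
  exact bad_arith hc6 hc36 Nat.card_pos hdvd h3dvd (hcard.trans hq) hq1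

end Cfsg.Agent.H19
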