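import Mathlib
import Cfsg.Agent.H19.K3D
import Cfsg.Agent.H19.QuatSylow
import Cfsg.Agent.H60.QuatSylow

/-!
# helper19: an invariant subgroup of index two

`exists_index_two_invariant`: let `H` act on an elementary abelian `p`-group `V` (`p` odd),
regularly on `V ∖ 0`, with Sylow `2`-subgroups cyclic or generalised quaternion and a unique
subgroup of order `3`; let `α` be an involutory automorphism of `H` all of whose fixed points
are involutions.  Then `H` has an `α`-invariant subgroup of index `2`.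
-/

set_option autoImplicit false
set_option linter.style.haveILetI false

namespace Cfsg.Agent.H19

open scoped Pointwise

/-- A central element of a generalised quaternion group of order at least `8` has square `1`. -/
theorem quat_center_sq {m : ℕ} (hm : 2 ≤ m) (g : QuaternionGroup m)
    (hg : ∀ x : QuaternionGroup m, g * x = x * g) : g * g = 1 := by
  have h2 : (2 : ZMod (2 * m)) ≠ 0 := by
    intro h
    have h1 : ((2 : ℕ) : ZMod (2 * m)) = 0 := by exact_mod_cast h
    rw [ZMod.natCast_eq_zero_iff] at h1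
    have := Nat.le_of_dvd (by norm_num) h1
    omega
  cases g with
  | a i =>
    have h1 := hg (QuaternionGroup.xa 0)
    rw [QuaternionGroup.a_mul_xa, QuaternionGroup.xa_mul_a] at h1
    have h3 : (0 : ZMod (2 * m)) - i = 0 + i := QuaternionGroup.xa.inj h1
    rw [QuaternionGroup.a_mul_a, QuaternionGroup.one_def]
    congr 1
    have h4 : i + i = (0 + i) - (0 - i) := by ring
    rw [h4, ← h3, sub_self]
  | xa i =>
    exfalso
    have h1 := hg (QuaternionGroup.a 1)
    rw [QuaternionGroup.a_mul_xa, QuaternionGroup.xa_mul_a] at h1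
    have h3 : i + 1 = i - 1 := QuaternionGroup.xa.inj h1
    apply h2
    have h4 : (2 : ZMod (2 * m)) = (i + 1) - (i - 1) := by ring
    rw [h4, h3, sub_self]

/-- An involutory automorphism normalises some Sylow `2`-subgroup. -/
theorem exists_invariant_sylow_two {H : Type*} [Group H] [Finite H] (α : H →* H)
    (hαα : ∀ u, α (α u) = u) : ∃ P : Sylow 2 H, ∀ x ∈ P, α x ∈ P := by
  haveI : Fact (Nat.Prime 2) := ⟨Nat.prime_two⟩
  let αe : MulAut H :=
    { toFun := α, invFun := α, left_inv := hαα, right_inv := hαα, map_mul' := map_mul α }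
  have hαe : ∀ x : H, αe x = α x := fun x => rfl
  have hsq : αe ^ 2 = 1 := by
    ext x
    rw [pow_two, MulAut.mul_apply, MulAut.one_apply, hαe, hαe, hαα]
  have hZ : IsPGroup 2 (Subgroup.zpowers αe) := by
    have h1 : Nat.card (Subgroup.zpowers αe) = orderOf αe := Nat.card_zpowers αe
    have h2 : orderOf αe ∣ 2 := orderOf_dvd_of_pow_eq_one hsq
    rcases (Nat.dvd_prime Nat.prime_two).mp h2 with h | h
    · exact IsPGroup.of_card (n := 0) (by rw [h1, h, pow_zero])
    · exact IsPGroup.of_card (n := 1) (by rw [h1, h, pow_one])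
  obtain ⟨P, hP⟩ := hZ.nonempty_fixed_point_of_prime_not_dvd_card (Sylow 2 H)
    (not_dvd_card_sylow 2 H)
  refine ⟨P, ?_⟩
  intro x hx
  have h1 : (⟨αe, Subgroup.mem_zpowers αe⟩ : Subgroup.zpowers αe) • P = P := hP _
  have h2 : αe • P = P := h1
  have h3 : αe • (P : Subgroup H) = (P : Subgroup H) := by
    rw [← Sylow.pointwise_smul_def, h2]
  have h4 : αe • x ∈ αe • (P : Subgroup H) := Subgroup.smul_mem_pointwise_smul x αe _ hx
  rw [h3] at h4
  exact h4

/-- Cyclic Sylow `2`-subgroup: a characteristic subgroup of index two. -/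
theorem index_two_of_cyclic_sylow {H : Type*} [Group H] [Finite H] (hev : 2 ∣ Nat.card H)
    (P : Sylow 2 H) (hP : IsCyclic P) (α : H →* H) :
    ∃ N : Subgroup H, N.index = 2 ∧ ∀ n ∈ N, α n ∈ N := by
  haveI : Fact (Nat.Prime 2) := ⟨Nat.prime_two⟩
  obtain ⟨K, hKn, hKc⟩ := Cfsg.Agent.H60.exists_normal_complement_of_cyclic_sylow_two P hP
  haveI := hKn
  have hKP : Nat.card K * Nat.card P = Nat.card H := hKc.card_mul_card
  have hidx : K.index = Nat.card P := hKc.symm.index_eq_card
  have hKodd : ¬ 2 ∣ Nat.card K := by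
    have h1 : (P : Subgroup H).index = Nat.card K := hKc.index_eq_card
    rw [← h1]
    exact P.not_dvd_index
  obtain ⟨k, hk⟩ := IsPGroup.iff_card.mp P.isPGroup'
  have hk0 : k ≠ 0 := by
    rintro rfl
    rw [pow_zero] at hk
    rw [hk, mul_one] at hKP
    rw [hKP] at hKodd
    exact hKodd hev
  have hcop : (Nat.card K).Coprime K.index := by
    rw [hidx, hk]
    apply Nat.Coprime.pow_right
    rw [Nat.coprime_two_right]
    exact Nat.not_even_iff_odd.mp (fun h => hKodd (even_iff_two_dvd.mp h))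
  have hmemK := mem_hall_iff K hcop
  have hαK : ∀ x ∈ K, α x ∈ K := by
    intro x hx
    rw [hmemK] at hx ⊢
    rw [← map_pow, hx, map_one]
  have hQc : IsCyclic (H ⧸ K) := by
    haveI : IsCyclic (P : Subgroup H) := hP
    exact isCyclic_of_surjective hKc.symm.QuotientMulEquiv.symm.toMonoidHom
      hKc.symm.QuotientMulEquiv.symm.surjective
  have hQcard : Nat.card (H ⧸ K) = 2 ^ k := by rw [← Subgroup.index_eq_card, hidx, hk]
  obtain ⟨g, hg⟩ := hQc.exists_generator
  have hgord : orderOf g = 2 ^ k := by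
    rw [orderOf_eq_card_of_forall_mem_zpowers hg, hQcard]
  obtain ⟨m, hm, hm0⟩ : ∃ m, 2 ^ k = 2 * m ∧ 0 < m := ⟨2 ^ (k - 1), by
    rw [← pow_succ']; congr 1; omega, by positivity⟩
  have hg2 : orderOf (g ^ 2) = m := by
    rw [orderOf_pow_of_dvd (by norm_num) (by rw [hgord, hm]; exact dvd_mul_right 2 m), hgord, hm]
    exact Nat.mul_div_cancel_left m (by norm_num)
  have hZidx : (Subgroup.zpowers (g ^ 2)).index = 2 := by
    have h1 := Subgroup.card_mul_index (Subgroup.zpowers (g ^ 2))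
    rw [Nat.card_zpowers, hg2, hQcard, hm] at h1
    have : m * (Subgroup.zpowers (g ^ 2)).index = m * 2 := by rw [h1, mul_comm]
    exact Nat.eq_of_mul_eq_mul_left hm0 this
  have hN : ∀ h : H, h ∈ (Subgroup.zpowers (g ^ 2)).comap (QuotientGroup.mk' K) ↔
      ∃ y : H, (y * y)⁻¹ * h ∈ K := by
    intro h
    rw [Subgroup.mem_comap, Subgroup.mem_zpowers_iff]
    constructor
    · rintro ⟨j, hj⟩
      obtain ⟨y₀, hy₀⟩ := QuotientGroup.mk'_surjective K g
      refine ⟨y₀ ^ j, ?_⟩
      rw [← QuotientGroup.eq]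
      have h1 : ((y₀ ^ j * y₀ ^ j : H) : H ⧸ K) = (g ^ 2) ^ j := by
        rw [← hy₀]
        show QuotientGroup.mk' K (y₀ ^ j * y₀ ^ j) = _
        rw [map_mul, map_zpow, ← pow_two, ← zpow_natCast, ← zpow_mul, ← zpow_natCast,
          ← zpow_mul, mul_comm]
      rw [h1, hj]
      rfl
    · rintro ⟨y, hy⟩
      obtain ⟨i, hi⟩ := Subgroup.mem_zpowers_iff.mp (hg (QuotientGroup.mk' K y))
      refine ⟨i, ?_⟩
      have h1 : ((y * y : H) : H ⧸ K) = (h : H ⧸ K) := QuotientGroup.eq.mpr hy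
      show (g ^ 2) ^ i = (h : H ⧸ K)
      rw [← h1]
      show (g ^ 2) ^ i = QuotientGroup.mk' K (y * y)
      rw [map_mul, ← hi, ← pow_two, ← zpow_natCast, ← zpow_mul, ← zpow_natCast (g ^ i),
        ← zpow_mul, mul_comm]
  refine ⟨(Subgroup.zpowers (g ^ 2)).comap (QuotientGroup.mk' K), ?_, ?_⟩
  · rw [Subgroup.index_comap_of_surjective _ (QuotientGroup.mk'_surjective K), hZidx]
  · intro n hn
    rw [hN] at hn ⊢
    obtain ⟨y, hy⟩ := hn
    refine ⟨α y, ?_⟩
    have := hαK _ hy
    rwa [map_mul, map_inv, map_mul] at this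

theorem exists_index_two_invariant {H V : Type*} [Group H] [Finite H] [AddCommGroup V] [Finite V]
    [DistribMulAction H V] (α : H →* H) (hαα : ∀ u, α (α u) = u)
    (hαfix : ∀ u, α u = u → u * u = 1)
    (hfree : ∀ h : H, ∀ v : V, v ≠ 0 → h • v = v → h = 1)
    (hcard : Nat.card H + 1 = Nat.card V) (hodd : Odd (Nat.card V))
    {p : ℕ} (hp : p.Prime) (hp2 : p ≠ 2) (hpV : ∀ v : V, p • v = 0)
    (hSyl : ∀ P : Sylow 2 H, IsCyclic P ∨ ∃ n : ℕ, Nonempty (P ≃* QuaternionGroup (2 ^ n)))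
    (h3 : ∀ x y : H, orderOf x = 3 → orderOf y = 3 → y = x ∨ y = x⁻¹) :
    ∃ N : Subgroup H, N.index = 2 ∧ ∀ n ∈ N, α n ∈ N := by
  classical
  haveI : Fact (Nat.Prime 2) := ⟨Nat.prime_two⟩
  have hev : 2 ∣ Nat.card H := by
    obtain ⟨m, hm⟩ := hodd
    omega
  obtain ⟨P, hαP⟩ := exists_invariant_sylow_two α hαα
  have hcyc : IsCyclic P → ∃ N : Subgroup H, N.index = 2 ∧ ∀ n ∈ N, α n ∈ N :=
    fun hP => index_two_of_cyclic_sylow hev P hP α
  rcases hSyl P with hP | ⟨n, ⟨e⟩⟩
  · exact hcyc hP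
  rcases Nat.eq_zero_or_pos n with hn | hn
  · subst hn
    apply hcyc
    haveI hc : IsCyclic (QuaternionGroup (2 ^ 0)) := QuaternionGroup.quaternionGroup_one_isCyclic
    exact isCyclic_of_surjective e.symm.toMonoidHom e.symm.surjective
  -- the unique involution
  obtain ⟨z, hz⟩ := exists_prime_orderOf_dvd_card' 2 hev
  have hz1 : z ≠ 1 := by
    intro h
    rw [h, orderOf_one] at hz
    omega
  have hzz : z * z = 1 := by
    rw [← pow_two, ← hz]
    exact pow_orderOf_eq_one z
  have hneg : ∀ u : H, u * u = 1 → u ≠ 1 → ∀ v : V, u • v = -v :=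
    fun u hu hu1 => invol_smul_neg hfree hu hu1
  obtain ⟨v₀, hv₀⟩ : ∃ v₀ : V, v₀ ≠ 0 := by
    have h1 : 1 < Nat.card V := by
      have := Nat.card_pos (α := H)
      omega
    haveI := (Finite.one_lt_card_iff_nontrivial).mp h1
    exact exists_ne 0
  have hzu : ∀ u : H, u * u = 1 → u = 1 ∨ u = z := by
    intro u hu
    by_cases hu1 : u = 1
    · exact Or.inl hu1
    · right
      have h1 : (u * z) • v₀ = v₀ := by
        rw [mul_smul, hneg z hzz hz1, smul_neg, hneg u hu hu1, neg_neg]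
      have h2 := hfree _ v₀ hv₀ h1
      have h3 : u = z⁻¹ := eq_inv_of_mul_eq_one_left h2
      rw [h3]
      exact inv_eq_of_mul_eq_one_left hzz
  have hk : K3 z α := ⟨hz1, hzz, hzu, hαα, fun u hu => hzu u (hαfix u hu)⟩
  -- `|P| ≥ 8`
  have h2n : 2 ≤ 2 ^ n := by
    calc 2 = 2 ^ 1 := by norm_num
      _ ≤ 2 ^ n := Nat.pow_le_pow_right (by norm_num) hn
  have hPcard : Nat.card P = 4 * 2 ^ n := by
    rw [Nat.card_congr e.toEquiv, Nat.card_eq_fintype_card, QuaternionGroup.card]
  have hP8 : 8 ≤ Nat.card P := by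
    rw [hPcard]
    omega
  -- an element `s = g α(g)⁻¹ ∈ P` outside `{1, z}`
  obtain ⟨g, hgP, hs1, hsz⟩ : ∃ g : H, g ∈ P ∧ g * (α g)⁻¹ ≠ 1 ∧ g * (α g)⁻¹ ≠ z := by
    by_contra hcon
    push Not at hcon
    have hfix : ∀ g : H, g * (α g)⁻¹ = 1 → g = 1 ∨ g = z := by
      intro g h
      apply hk.αfix
      rw [mul_inv_eq_one] at h
      exact h.symm
    have hαz : ∀ g : H, g * (α g)⁻¹ = z → α g = z⁻¹ * g := by
      intro g h
      have : (α g)⁻¹ = g⁻¹ * z := by rw [← h]; group
      calc α g = ((α g)⁻¹)⁻¹ := (inv_inv _).symm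
        _ = z⁻¹ * g := by rw [this]; group
    obtain ⟨g₁, hg₁⟩ : ∃ g₁ : H, ∀ g : H, g * (α g)⁻¹ = z → g = g₁ ∨ g = g₁ * z := by
      by_cases hex : ∃ g₁ : H, g₁ * (α g₁)⁻¹ = z
      · obtain ⟨g₁, hg₁⟩ := hex
        refine ⟨g₁, ?_⟩
        intro g h2
        have h3 : α (g₁⁻¹ * g) = g₁⁻¹ * g := by
          rw [map_mul, map_inv, hαz g h2, hαz g₁ hg₁]
          group
        rcases hk.αfix _ h3 with h | h
        · left
          exact (inv_mul_eq_one.mp h).symm
        · right
          rw [← h]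
          group
      · push Not at hex
        exact ⟨1, fun g h => absurd h (hex g)⟩
    have hsub : ((P : Subgroup H) : Set H) ⊆ (({1, z, g₁, g₁ * z} : Finset H) : Set H) := by
      intro g hg
      simp only [Finset.coe_insert, Finset.coe_singleton, Set.mem_insert_iff,
        Set.mem_singleton_iff]
      by_cases h1 : g * (α g)⁻¹ = 1
      · rcases hfix g h1 with h | h
        · exact Or.inl h
        · exact Or.inr (Or.inl h)
      · rcases hg₁ g (hcon g hg h1) with h | h
        · exact Or.inr (Or.inr (Or.inl h))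
        · exact Or.inr (Or.inr (Or.inr h))
    have h1 : Nat.card P = ((P : Subgroup H) : Set H).ncard := Nat.card_coe_set_eq _
    have h2 := Set.ncard_le_ncard hsub (Finset.finite_toSet _)
    rw [Set.ncard_coe_finset] at h2
    have h3 : ({1, z, g₁, g₁ * z} : Finset H).card ≤ 4 := Finset.card_le_four
    omega
  obtain ⟨s, hs⟩ : ∃ s, s = g * (α g)⁻¹ := ⟨_, rfl⟩
  rw [← hs] at hs1 hsz
  have hsP : s ∈ P := by
    rw [hs]
    exact mul_mem hgP (inv_mem (hαP g hgP))
  have hαs : α s = s⁻¹ := by rw [hs, map_mul, map_inv, hαα, mul_inv_rev, inv_inv]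
  obtain ⟨k, hk2⟩ : ∃ k, orderOf s = 2 ^ k := by
    obtain ⟨k, hk⟩ := P.isPGroup' ⟨s, hsP⟩
    have h1 : s ^ 2 ^ k = 1 := by simpa using congrArg Subtype.val hk
    obtain ⟨j, -, hj⟩ := (Nat.dvd_prime_pow Nat.prime_two).mp (orderOf_dvd_of_pow_eq_one h1)
    exact ⟨j, hj⟩
  have hk2' : 2 ≤ k := by
    by_contra hcon
    push Not at hcon
    interval_cases k
    · rw [pow_zero, orderOf_eq_one_iff] at hk2
      exact hs1 hk2
    · rw [pow_one] at hk2
      have h1 : s * s = 1 := by
        rw [← pow_two, ← hk2]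
        exact pow_orderOf_eq_one s
      rcases hzu s h1 with h | h
      · exact hs1 h
      · exact hsz h
  obtain ⟨i₀, hi₀⟩ : ∃ i₀, i₀ = s ^ 2 ^ (k - 2) := ⟨_, rfl⟩
  have hi : i₀ * i₀ = z := by
    have h1 : i₀ * i₀ = s ^ 2 ^ (k - 1) := by
      rw [hi₀, ← pow_add]
      congr 1
      have : k - 1 = (k - 2) + 1 := by omega
      rw [this, pow_succ]
      ring
    have h2 : (i₀ * i₀) * (i₀ * i₀) = 1 := by
      rw [h1, ← pow_add]
      have : 2 ^ (k - 1) + 2 ^ (k - 1) = orderOf s := by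
        rw [hk2]
        have : k = (k - 1) + 1 := by omega
        conv_rhs => rw [this, pow_succ]
        ring
      rw [this, pow_orderOf_eq_one]
    have h3 : i₀ * i₀ ≠ 1 := by
      rw [h1]
      apply pow_ne_one_of_lt_orderOf (by positivity)
      rw [hk2]
      exact Nat.pow_lt_pow_right (by norm_num) (by omega)
    rcases hzu _ h2 with h | h
    · exact absurd h h3
    · exact h
  have hαi : α i₀ = i₀ * z := by
    rw [← hk.inv_of_sq hi, hi₀, map_pow, hαs, inv_pow]
  obtain ⟨q₁, hq⟩ : ∃ q₁, i₀ = q₁ * (α q₁)⁻¹ := by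
    obtain ⟨q, hq⟩ := hk.S_pow g (2 ^ (k - 2))
    exact ⟨q, by rw [hi₀, hs]; exact hq⟩
  have hi₀P : i₀ ∈ P := by
    rw [hi₀]
    exact pow_mem hsP _
  have hN : ∀ y : H, y * y = z → y * i₀ * y⁻¹ = i₀ ∨ y * i₀ * y⁻¹ = i₀ * z :=
    fun y hy => hk.norm hi hαi hq hy
  by_cases hbad : ∃ h₀ : H, h₀ * i₀ * h₀⁻¹ ≠ i₀ ∧ h₀ * i₀ * h₀⁻¹ ≠ i₀ * z
  · exfalso
    obtain ⟨h₀, hne1, hne2⟩ := hbad
    have hb : K3.Bad (z := z) (α := α) i₀ (h₀ * i₀ * h₀⁻¹) :=
      ⟨hi, hαi, hN, ⟨h₀, rfl⟩, hne1, hne2⟩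
    exact hb.false hk hfree hcard hp hp2 hpV h3
  · push Not at hbad
    -- `i₀` is not central
    obtain ⟨h₁, hh₁⟩ : ∃ h₁ : H, h₁ * i₀ * h₁⁻¹ = i₀ * z := by
      by_contra hcon
      push Not at hcon
      have hcent : ∀ h : H, h * i₀ = i₀ * h := by
        intro h
        by_contra hne
        have h1 : h * i₀ * h⁻¹ ≠ i₀ := by
          intro h2
          apply hne
          calc h * i₀ = (h * i₀ * h⁻¹) * h := by group
            _ = i₀ * h := by rw [h2]
        exact hcon h (hbad h h1)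
      have h2 : e ⟨i₀, hi₀P⟩ * e ⟨i₀, hi₀P⟩ = 1 := by
        apply quat_center_sq (m := 2 ^ n) h2n
        intro x
        obtain ⟨x', rfl⟩ := e.surjective x
        rw [← map_mul, ← map_mul]
        congr 1
        apply Subtype.ext
        show i₀ * x'.1 = x'.1 * i₀
        exact (hcent x'.1).symm
      rw [← map_mul, MulEquiv.map_eq_one_iff] at h2
      have h4 : i₀ * i₀ = 1 := congrArg Subtype.val h2
      rw [hi] at h4
      exact hz1 h4
    refine ⟨Subgroup.centralizer ({i₀} : Set H), ?_, ?_⟩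
    · have hf : ∀ c c' : H, c * i₀ * c⁻¹ = c' * i₀ * c'⁻¹ ↔
          c⁻¹ * c' ∈ Subgroup.centralizer ({i₀} : Set H) := by
        intro c c'
        rw [Subgroup.mem_centralizer_iff]
        constructor
        · intro h w hw
          rw [Set.mem_singleton_iff] at hw
          rw [hw]
          calc i₀ * (c⁻¹ * c') = c⁻¹ * (c * i₀ * c⁻¹) * c' := by group
            _ = c⁻¹ * (c' * i₀ * c'⁻¹) * c' := by rw [h]
            _ = c⁻¹ * c' * i₀ := by group
        · intro h
          have h1 := h i₀ rfl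
          calc c * i₀ * c⁻¹ = c * (i₀ * (c⁻¹ * c')) * c'⁻¹ := by group
            _ = c * (c⁻¹ * c' * i₀) * c'⁻¹ := by rw [h1]
            _ = c' * i₀ * c'⁻¹ := by group
      have h1 := card_eq_range_mul (Subgroup.centralizer ({i₀} : Set H))
        (fun h : H => h * i₀ * h⁻¹) hf
      have h2 : Set.range (fun h : H => h * i₀ * h⁻¹) = (({i₀, i₀ * z} : Finset H) : Set H) := by
        ext w
        simp only [Finset.coe_insert, Finset.coe_singleton, Set.mem_insert_iff,
          Set.mem_singleton_iff, Set.mem_range]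
        constructor
        · rintro ⟨h, rfl⟩
          by_cases h5 : h * i₀ * h⁻¹ = i₀
          · exact Or.inl h5
          · exact Or.inr (hbad h h5)
        · rintro (rfl | rfl)
          · exact ⟨1, by group⟩
          · exact ⟨h₁, hh₁⟩
      have h3 : ({i₀, i₀ * z} : Finset H).card = 2 := by
        apply Finset.card_pair
        intro h
        apply hz1
        have : i₀ * 1 = i₀ * z := by rw [mul_one]; exact h
        exact (mul_left_cancel this).symm
      rw [h2, Nat.card_coe_set_eq, Set.ncard_coe_finset, h3] at h1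
      have h4 := Subgroup.card_mul_index (Subgroup.centralizer ({i₀} : Set H))
      rw [h1, mul_comm 2] at h4
      exact Nat.eq_of_mul_eq_mul_left Nat.card_pos h4
    · intro n hn
      rw [Subgroup.mem_centralizer_iff] at hn ⊢
      intro w hw
      rw [Set.mem_singleton_iff] at hw
      rw [hw]
      have h1 := hn i₀ rfl
      have h2 : α i₀ * α n = α n * α i₀ := by rw [← map_mul, ← map_mul, h1]
      rw [hαi] at h2
      calc i₀ * α n = (i₀ * z * α n) * z := by
            rw [mul_assoc i₀ z, hk.zc, ← mul_assoc, mul_assoc _ z z, hk.zz, mul_one]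
        _ = (α n * (i₀ * z)) * z := by rw [h2]
        _ = α n * i₀ := by rw [mul_assoc, mul_assoc, hk.zz, mul_one]

end Cfsg.Agent.H19
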