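import Mathlib
import Cfsg.Agent.H19.K3E
import Cfsg.Agent.H19.Zassenhaus

/-!
# helper19: invariant subgroups of index two in complements acting regularly

`index_two_of_regular_conj`: if `H` acts by conjugation regularly on the non-identity elements of
the normal subgroup `K` of odd order, the Sylow `2`-subgroups of `H` are cyclic or generalised
quaternion, `H` has a unique subgroup of order `3` and `α` is an involutory automorphism of `H`
whose fixed points are involutions, then `H` has an `α`-invariant subgroup of index `2`.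
-/

set_option autoImplicit false
set_option linter.style.haveILetI false

namespace Cfsg.Agent.H19

/-- A normal subgroup on whose non-identity elements a subgroup acts regularly by conjugation is
elementary abelian. -/
theorem elem_abelian_of_regular_conj {X : Type*} [Group X] [Finite X] (K H : Subgroup X)
    [hKn : K.Normal] (hfree : ∀ h ∈ H, ∀ k ∈ K, k ≠ 1 → h * k * h⁻¹ = k → h = 1)
    (hcard : Nat.card H + 1 = Nat.card K) :
    ∃ p : ℕ, p.Prime ∧ (∀ x ∈ K, x ^ p = 1) ∧ ∀ x ∈ K, ∀ y ∈ K, x * y = y * x := by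
  classical
  have htrans : ∀ k ∈ K, k ≠ 1 → ∀ k' ∈ K, k' ≠ 1 → ∃ h ∈ H, h * k * h⁻¹ = k' := by
    intro k hk hk1 k' hk' hk'1
    let φ : H → {x : K // x ≠ 1} := fun h => ⟨⟨h.1 * k * h.1⁻¹, hKn.conj_mem k hk h.1⟩, by
      intro h1
      have h2 : h.1 * k * h.1⁻¹ = 1 := congrArg Subtype.val h1
      apply hk1
      calc k = h.1⁻¹ * (h.1 * k * h.1⁻¹) * h.1 := by group
        _ = 1 := by rw [h2]; group⟩
    have hinj : Function.Injective φ := by
      intro h h' hh
      have h1 : h.1 * k * h.1⁻¹ = h'.1 * k * h'.1⁻¹ := congrArg (fun x => x.1.1) hh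
      have h2 : (h'.1⁻¹ * h.1) * k * (h'.1⁻¹ * h.1)⁻¹ = k := by
        calc (h'.1⁻¹ * h.1) * k * (h'.1⁻¹ * h.1)⁻¹ = h'.1⁻¹ * (h.1 * k * h.1⁻¹) * h'.1 := by group
          _ = h'.1⁻¹ * (h'.1 * k * h'.1⁻¹) * h'.1 := by rw [h1]
          _ = k := by group
      have h3 := hfree _ (H.mul_mem (H.inv_mem h'.2) h.2) k hk hk1 h2
      apply Subtype.ext
      exact (inv_mul_eq_one.mp h3).symm
    have hc : Nat.card {x : K // x ≠ 1} ≤ Nat.card H := by
      have := card_ne_add_one (1 : K)
      omega
    obtain ⟨h, hh⟩ := (hinj.bijective_of_nat_card_le hc).2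
      ⟨⟨k', hk'⟩, fun h => hk'1 (congrArg Subtype.val h)⟩
    exact ⟨h.1, h.2, congrArg (fun x => x.1.1) hh⟩
  have hK1 : 1 < Nat.card K := by
    have := Nat.card_pos (α := H)
    omega
  obtain ⟨p, hp, hpdvd⟩ := Nat.exists_prime_and_dvd (by omega : Nat.card K ≠ 1)
  haveI := Fact.mk hp
  obtain ⟨k₀, hk₀⟩ := exists_prime_orderOf_dvd_card' (G := K) p hpdvd
  have hk₀1 : k₀.1 ≠ 1 := by
    intro h
    have : k₀ = 1 := Subtype.ext h
    rw [this, orderOf_one] at hk₀
    exact hp.one_lt.ne hk₀
  have hk₀p : k₀.1 ^ p = 1 := by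
    have := pow_orderOf_eq_one k₀
    rw [hk₀] at this
    simpa using congrArg Subtype.val this
  have hpow : ∀ x ∈ K, x ^ p = 1 := by
    intro x hx
    by_cases hx1 : x = 1
    · rw [hx1, one_pow]
    · obtain ⟨h, -, hh⟩ := htrans k₀.1 k₀.2 hk₀1 x hx hx1
      rw [← hh, conj_pow, hk₀p]
      group
  have hPG : IsPGroup p K := by
    intro g
    refine ⟨1, ?_⟩
    rw [pow_one]
    apply Subtype.ext
    simpa using hpow g.1 g.2
  haveI : Nontrivial K := (Finite.one_lt_card_iff_nontrivial).mp hK1
  haveI := hPG.center_nontrivial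
  obtain ⟨c, hc⟩ := exists_ne (1 : Subgroup.center K)
  have hc1 : (c.1 : X) ≠ 1 := fun h => hc (Subtype.ext (Subtype.ext h))
  have hcc : ∀ y ∈ K, c.1.1 * y = y * c.1.1 := by
    intro y hy
    have := Subgroup.mem_center_iff.mp c.2 ⟨y, hy⟩
    exact (congrArg Subtype.val this).symm
  refine ⟨p, hp, hpow, ?_⟩
  intro x hx y hy
  by_cases hx1 : x = 1
  · rw [hx1, one_mul, mul_one]
  · obtain ⟨h, -, hh⟩ := htrans c.1.1 c.1.2 hc1 x hx hx1
    have hy' : h⁻¹ * y * h ∈ K := by
      have := hKn.conj_mem y hy h⁻¹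
      rwa [inv_inv] at this
    have h1 := hcc _ hy'
    rw [← hh]
    calc h * c.1.1 * h⁻¹ * y = h * (c.1.1 * (h⁻¹ * y * h)) * h⁻¹ := by group
      _ = h * ((h⁻¹ * y * h) * c.1.1) * h⁻¹ := by rw [h1]
      _ = y * (h * c.1.1 * h⁻¹) := by group

/-- Conjugation of a normal subgroup by elements of a subgroup. -/
def conjK {X : Type*} [Group X] (K H : Subgroup X) [hKn : K.Normal] (h : H) (k : K) : K :=
  ⟨h.1 * k.1 * h.1⁻¹, hKn.conj_mem k.1 k.2 h.1⟩

theorem index_two_of_regular_conj {X : Type*} [Group X] [Finite X] (K H : Subgroup X)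
    [hKn : K.Normal] (hfree : ∀ h ∈ H, ∀ k ∈ K, k ≠ 1 → h * k * h⁻¹ = k → h = 1)
    (hcard : Nat.card H + 1 = Nat.card K) (hodd : Odd (Nat.card K))
    (α : H →* H) (hαα : ∀ u, α (α u) = u) (hαfix : ∀ u, α u = u → u * u = 1)
    (hSyl : ∀ P : Sylow 2 H, IsCyclic P ∨ ∃ n : ℕ, Nonempty (P ≃* QuaternionGroup (2 ^ n)))
    (h3 : ∀ x y : H, orderOf x = 3 → orderOf y = 3 → y = x ∨ y = x⁻¹) :
    ∃ N : Subgroup H, N.index = 2 ∧ ∀ n ∈ N, α n ∈ N := by
  obtain ⟨p, hp, hpow, hcomm⟩ := elem_abelian_of_regular_conj K H hfree hcard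
  have hp2 : p ≠ 2 := by
    rintro rfl
    have hK1 : 1 < Nat.card K := by
      have := Nat.card_pos (α := H)
      omega
    haveI : Nontrivial K := (Finite.one_lt_card_iff_nontrivial).mp hK1
    obtain ⟨k, hk⟩ := exists_ne (1 : K)
    have h1 : k ^ 2 = 1 := by
      apply Subtype.ext
      simpa using hpow k.1 k.2
    have h2 : orderOf k = 2 := orderOf_eq_prime h1 hk
    have h3 := orderOf_dvd_natCard k
    rw [h2] at h3
    exact (Nat.not_even_iff_odd.mpr hodd) (even_iff_two_dvd.mpr h3)
  letI : CommGroup K :=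
    { (inferInstance : Group K) with
      mul_comm := fun x y => Subtype.ext (hcomm x.1 x.2 y.1 y.2) }
  letI : DistribMulAction H (Additive K) :=
    { smul := fun h v => Additive.ofMul (conjK K H h (Additive.toMul v))
      one_smul := by
        intro v
        show Additive.ofMul (conjK K H 1 (Additive.toMul v)) = v
        apply Additive.toMul.injective
        apply Subtype.ext
        simp [conjK]
      mul_smul := by
        intro h h' v
        show Additive.ofMul (conjK K H (h * h') (Additive.toMul v)) =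
          Additive.ofMul (conjK K H h (conjK K H h' (Additive.toMul v)))
        apply Additive.toMul.injective
        apply Subtype.ext
        simp [conjK, mul_assoc]
      smul_zero := by
        intro h
        show Additive.ofMul (conjK K H h 1) = 0
        apply Additive.toMul.injective
        apply Subtype.ext
        simp [conjK]
      smul_add := by
        intro h v w
        show Additive.ofMul (conjK K H h (Additive.toMul v * Additive.toMul w)) =
          Additive.ofMul (conjK K H h (Additive.toMul v) * conjK K H h (Additive.toMul w))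
        apply Additive.toMul.injective
        apply Subtype.ext
        simp [conjK, mul_assoc] }
  have hsmul : ∀ (h : H) (v : Additive K),
      h • v = Additive.ofMul (conjK K H h (Additive.toMul v)) := fun h v => rfl
  refine exists_index_two_invariant (V := Additive K) α hαα hαfix ?_ hcard hodd hp hp2 ?_ hSyl h3
  · intro h v hv hhv
    rw [hsmul] at hhv
    have h1 : h.1 * (Additive.toMul v).1 * h.1⁻¹ = (Additive.toMul v).1 :=
      congrArg (fun w : Additive K => (Additive.toMul w).1) hhv
    have h2 : (Additive.toMul v).1 ≠ 1 := by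
      intro h0
      apply hv
      apply Additive.toMul.injective
      exact Subtype.ext h0
    exact Subtype.ext (hfree h.1 h.2 _ (Additive.toMul v).2 h2 h1)
  · intro v
    apply Additive.toMul.injective
    apply Subtype.ext
    show ((Additive.toMul (p • v) : K) : X) = 1
    rw [toMul_nsmul]
    simpa using hpow _ (Additive.toMul v).2

end Cfsg.Agent.H19
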