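import Mathlib
import Cfsg.Agent.H19.ZassFrob

/-!
# helper19: "pre-Zassenhaus" groups

`PreZass G Ω` : the Zassenhaus conditions without the requirement that no normal subgroup is
regular.  The basic facts about the point stabilizer as a Frobenius group (`pz_exists_kernel`,
`pz_kernel_nilpotent`, `pz_conj_mem_kernel`, ...) are copies of the `zass_*` lemmas, which never
use that last requirement.
-/

set_option autoImplicit false
set_option linter.style.haveILetI false
set_option linter.unusedSectionVars false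

namespace Cfsg.Agent.H19

open Cfsg MulAction
open scoped Pointwise

/-- The Zassenhaus conditions without the condition on regular normal subgroups. -/
def PreZass (G Ω : Type*) [Group G] [MulAction G Ω] : Prop :=
  FaithfulSMul G Ω ∧ MulAction.IsMultiplyPretransitive G Ω 2 ∧
  (∀ g : G, ∀ a b c : Ω, a ≠ b → b ≠ c → a ≠ c → g • a = a → g • b = b → g • c = c → g = 1) ∧
  (∃ g : G, g ≠ 1 ∧ ∃ a b : Ω, a ≠ b ∧ g • a = a ∧ g • b = b) ∧ True

variable {G Ω : Type*} [Group G] [MulAction G Ω]

theorem pz_three_le_card [Fintype Ω] (hZ : PreZass G Ω) : 3 ≤ Fintype.card Ω := by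
  classical
  obtain ⟨hfaith, -, -, ⟨g0, hg0, a0, b0, hab0, hga0, hgb0⟩, -⟩ := hZ
  by_contra hlt
  apply hg0
  apply hfaith.eq_of_smul_eq_smul
  intro c
  rw [one_smul]
  by_contra hc
  have hca : c ≠ a0 := fun h => hc (h ▸ hga0)
  have hcb : c ≠ b0 := fun h => hc (h ▸ hgb0)
  have h3 : ({a0, b0, c} : Finset Ω).card = 3 := by
    rw [Finset.card_insert_of_notMem, Finset.card_insert_of_notMem, Finset.card_singleton]
    · simpa using hcb.symm
    · simp [hab0, hca.symm]
  have := Finset.card_le_univ ({a0, b0, c} : Finset Ω)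
  omega

/-- An element of the point stabilizer fixing no other point lies in the Frobenius kernel. -/
theorem pz_mem_kernel [Finite G] [Fintype Ω] (hZ : PreZass G Ω) (a : Ω)
    (H : Subgroup G) (hHa : H ≤ MulAction.stabilizer G a)
    (hHcard : Nat.card H + 1 = Fintype.card Ω)
    (hHfix : ∀ u ∈ H, u ≠ 1 → ∀ c : Ω, u • c = c → c = a) (x : G) (hxa : x • a = a)
    (hxfix : ∀ c : Ω, x • c = c → c = a) : x ∈ H := by
  classical
  have h3 := hZ.2.2.1
  by_contra hxH
  have hreg := zass_kernel_regular a H hHa hHcard hHfix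
  have hx' : ∀ c : Ω, c ≠ a → x⁻¹ • c ≠ a := by
    intro c hc he
    apply hc
    rw [← hxa] at he
    have := congrArg (fun z => x • z) he
    simp only [smul_inv_smul] at this
    rw [this, hxa, hxa]
  choose φ hφH hφ using fun c : {e : Ω // e ≠ a} => hreg c.1 (x⁻¹ • c.1) c.2 (hx' c.1 c.2)
  let φ' : {e : Ω // e ≠ a} → H := fun c => ⟨φ c, hφH c⟩
  have hinj : Function.Injective φ' := by
    intro c c' hcc
    have hcc' : φ c = φ c' := congrArg Subtype.val hcc
    by_contra hne
    have hne' : c.1 ≠ c'.1 := fun h => hne (Subtype.ext h)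
    apply hxH
    have e1 : (x * φ c) • c.1 = c.1 := by
      rw [mul_smul, hφ c, smul_inv_smul]
    have e2 : (x * φ c) • c'.1 = c'.1 := by
      rw [hcc', mul_smul, hφ c', smul_inv_smul]
    have e3 : (x * φ c) • a = a := by
      rw [mul_smul, (hHa (hφH c) : φ c • a = a), hxa]
    have := h3 (x * φ c) c.1 c'.1 a hne' c'.2 c.2 e1 e2 e3
    have hx : x = (φ c)⁻¹ := eq_inv_of_mul_eq_one_left this
    rw [hx]
    exact H.inv_mem (hφH c)
  have hcard : Nat.card H ≤ Nat.card {e : Ω // e ≠ a} := by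
    have h1 := card_ne_add_one a
    rw [Nat.card_eq_fintype_card (α := Ω)] at h1
    omega
  obtain ⟨c, hc⟩ := (hinj.bijective_of_nat_card_le hcard).2 1
  have h1 : φ c = 1 := congrArg Subtype.val hc
  have h2 := hφ c
  rw [h1, one_smul] at h2
  have h4 : x • c.1 = c.1 := by
    conv_lhs => rw [h2]
    rw [smul_inv_smul]
  exact c.2 (hxfix c.1 h4)

/-- The point stabilizer normalizes the Frobenius kernel (one direction of conjugation). -/
theorem pz_conj_mem_kernel [Finite G] [Fintype Ω] (hZ : PreZass G Ω) (a : Ω)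
    (H : Subgroup G) (hHa : H ≤ MulAction.stabilizer G a)
    (hHcard : Nat.card H + 1 = Fintype.card Ω)
    (hHfix : ∀ u ∈ H, u ≠ 1 → ∀ c : Ω, u • c = c → c = a) (g : G) (hg : g • a = a) (u : G)
    (hu : u ∈ H) : g * u * g⁻¹ ∈ H := by
  by_cases hu1 : u = 1
  · rw [hu1]; simp [H.one_mem]
  have hginv : g⁻¹ • a = a := by
    conv_lhs => rw [← hg]
    rw [inv_smul_smul]
  apply pz_mem_kernel hZ a H hHa hHcard hHfix
  · rw [mul_smul, mul_smul, hginv, (hHa hu : u • a = a), hg]
  · intro c hc
    rw [mul_smul, mul_smul] at hc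
    have h1 : u • (g⁻¹ • c) = g⁻¹ • c := by
      have := congrArg (fun z => g⁻¹ • z) hc
      simpa only [inv_smul_smul] using this
    have h2 := hHfix u hu hu1 _ h1
    rw [← hg, ← h2, smul_inv_smul]

theorem pz_two_trans (hZ : PreZass G Ω) {a b c d : Ω} (hab : a ≠ b) (hcd : c ≠ d) :
    ∃ g : G, g • a = c ∧ g • b = d :=
  (MulAction.is_two_pretransitive_iff (G := G) (α := Ω)).mp hZ.2.1 hab hcd

theorem pz_card_stab [Finite G] [Fintype Ω] (hZ : PreZass G Ω) {a b : Ω}
    (hab : a ≠ b) :
    Nat.card (stabilizer G a) =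
      (Fintype.card Ω - 1) * Nat.card (stabilizer G a ⊓ stabilizer G b : Subgroup G) := by
  have h1 := card_eq_of_two_pretransitive hZ.2.1 hab
  haveI := hZ.2.1
  haveI : IsPretransitive G Ω := MulAction.isPretransitive_of_is_two_pretransitive
  have h2 := Subgroup.card_mul_index (stabilizer G a)
  rw [MulAction.index_stabilizer_of_transitive G a, h1, Nat.card_eq_fintype_card (α := Ω)] at h2
  have hn3 := pz_three_le_card hZ
  have h3 : (Fintype.card Ω * Fintype.card Ω - Fintype.card Ω) =
      (Fintype.card Ω - 1) * Fintype.card Ω := by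
    rw [Nat.sub_mul, one_mul]
  rw [h3, mul_assoc, mul_comm (Fintype.card Ω) (Nat.card _), ← mul_assoc] at h2
  exact Nat.eq_of_mul_eq_mul_right (by omega) h2

/-- The two-point stabilizer is a Frobenius complement in the point stabilizer. -/
theorem pz_isFrobeniusComplement [Finite G] [Fintype Ω] (hZ : PreZass G Ω) {a b : Ω}
    (hab : a ≠ b) : IsFrobeniusComplement ((stabilizer G b).subgroupOf (stabilizer G a)) := by
  classical
  have hZ' := hZ
  obtain ⟨hfaith, h2, h3, ⟨g0, hg0, a0, b0, hab0, hga0, hgb0⟩, -⟩ := hZ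
  refine ⟨?_, ?_, ?_⟩
  · obtain ⟨x, hxa, hxb⟩ := pz_two_trans hZ' hab0 hab
    have ha : (x * g0 * x⁻¹) • a = a := by
      rw [← hxa, mul_smul, mul_smul, inv_smul_smul, hga0]
    have hb : (x * g0 * x⁻¹) • b = b := by
      rw [← hxb, mul_smul, mul_smul, inv_smul_smul, hgb0]
    intro hbot
    have hmem : (⟨x * g0 * x⁻¹, ha⟩ : stabilizer G a) ∈
        (stabilizer G b).subgroupOf (stabilizer G a) := by
      rw [Subgroup.mem_subgroupOf]; exact hb
    rw [hbot, Subgroup.mem_bot] at hmem
    have h1 : x * g0 * x⁻¹ = 1 := congrArg Subtype.val hmem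
    apply hg0
    have h4 : g0 = x⁻¹ * (x * g0 * x⁻¹) * x := by group
    rw [h4, h1]; group
  · have hn3 := pz_three_le_card hZ'
    obtain ⟨c, hca, hcb⟩ : ∃ c : Ω, c ≠ a ∧ c ≠ b := by
      by_contra hcon
      push Not at hcon
      have h4 : (Finset.univ : Finset Ω) ⊆ {a, b} := by
        intro c _
        by_cases hca : c = a
        · simp [hca]
        · simp [hcon c hca]
      have h5 := Finset.card_le_card h4
      have h6 : ({a, b} : Finset Ω).card ≤ 2 := Finset.card_le_two
      rw [Finset.card_univ] at h5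
      omega
    obtain ⟨g, hga, hgb⟩ := pz_two_trans hZ' hab (Ne.symm hca)
    intro htop
    have hmem : (⟨g, hga⟩ : stabilizer G a) ∈ (stabilizer G b).subgroupOf (stabilizer G a) :=
      htop ▸ Subgroup.mem_top _
    rw [Subgroup.mem_subgroupOf] at hmem
    exact hcb (hgb.symm.trans hmem)
  · intro g hg
    rw [Subgroup.mem_subgroupOf] at hg
    rw [eq_bot_iff]
    rintro w ⟨hw1, hw2⟩
    rw [Subgroup.mem_bot]
    have hwb : (w : G) • b = b := Subgroup.mem_subgroupOf.mp hw1
    have hwgb : (w : G) • ((g : G) • b) = (g : G) • b := (mem_conj_smul_stab_iff w g).mp hw2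
    have hgb : (g : G) • b ≠ b := hg
    have hga : (g : G) • b ≠ a := by
      intro h
      have h1 : (g : G) • a = a := g.2
      exact hab (smul_left_cancel _ (h.trans h1.symm)).symm
    apply Subtype.ext
    exact h3 (w : G) a b ((g : G) • b) hab (Ne.symm hgb) (Ne.symm hga) w.2 hwb hwgb

theorem pz_kernel_eq [Finite G] [Fintype Ω] (hZ : PreZass G Ω) {a b : Ω}
    (hab : a ≠ b) (H : Subgroup G) (hHa : H ≤ stabilizer G a)
    (hHcard : Nat.card H + 1 = Fintype.card Ω)
    (hHfix : ∀ u ∈ H, u ≠ 1 → ∀ c : Ω, u • c = c → c = a) :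
    ((H.subgroupOf (stabilizer G a) : Subgroup (stabilizer G a)) : Set (stabilizer G a)) =
      frobeniusKernel ((stabilizer G b).subgroupOf (stabilizer G a)) := by
  ext w
  simp only [SetLike.mem_coe, Subgroup.mem_subgroupOf, frobeniusKernel, Set.mem_ofPred_eq]
  constructor
  · intro hw
    by_cases hw1 : w = 1
    · exact Or.inl hw1
    right
    intro g hg
    rw [mem_conj_smul_stab_iff] at hg
    have h1 := hHfix (w : G) hw (fun h => hw1 (Subtype.ext h)) _ hg
    have h2 : (g : G) • a = a := g.2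
    exact hab (smul_left_cancel _ (h1.trans h2.symm)).symm
  · rintro (rfl | hw)
    · exact H.one_mem
    · apply pz_mem_kernel hZ a H hHa hHcard hHfix (w : G) w.2
      intro c hc
      by_contra hca
      obtain ⟨g, hga, hgb⟩ := pz_two_trans hZ hab (Ne.symm hca)
      apply hw ⟨g, hga⟩
      rw [mem_conj_smul_stab_iff]
      show (w : G) • (g • b) = g • b
      rw [hgb, hc]

theorem pz_kernel_nilpotent [Finite G] [Fintype Ω] (hZ : PreZass G Ω) {a b : Ω}
    (hab : a ≠ b) (H : Subgroup G) (hHa : H ≤ stabilizer G a)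
    (hHcard : Nat.card H + 1 = Fintype.card Ω)
    (hHfix : ∀ u ∈ H, u ≠ 1 → ∀ c : Ω, u • c = c → c = a) : Group.IsNilpotent H := by
  obtain ⟨N, hN, -, hnil⟩ := Cfsg.Agent.S0042.result _ (pz_isFrobeniusComplement hZ hab)
  have hNH : N = H.subgroupOf (stabilizer G a) :=
    SetLike.coe_injective (hN.trans (pz_kernel_eq hZ hab H hHa hHcard hHfix).symm)
  subst hNH
  exact Group.nilpotent_of_mulEquiv (Subgroup.subgroupOfEquivOfLe hHa)

/-- Existence of the Frobenius kernel of the point stabilizer (Frobenius' theorem). -/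
theorem pz_exists_kernel [Finite G] [Fintype Ω] (hZ : PreZass G Ω) {a b : Ω}
    (hab : a ≠ b) :
    ∃ H : Subgroup G, H ≤ stabilizer G a ∧ Nat.card H + 1 = Fintype.card Ω ∧
      ∀ u ∈ H, u ≠ 1 → ∀ c : Ω, u • c = c → c = a := by
  obtain ⟨N, hN, -, hcompl⟩ := Cfsg.Agent.S0035.result _ (pz_isFrobeniusComplement hZ hab)
  refine ⟨N.map (stabilizer G a).subtype, ?_, ?_, ?_⟩
  · rintro _ ⟨w, -, rfl⟩
    exact w.2
  · have h1 := hcompl.card_mul_card
    rw [zass_card_subgroupOf_stab, pz_card_stab hZ hab] at h1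
    have h4 : Nat.card (N.map (stabilizer G a).subtype) = Nat.card N :=
      Subgroup.card_map_of_injective (Subgroup.subtype_injective _)
    have hn3 := pz_three_le_card hZ
    have hpos : 0 < Nat.card (stabilizer G a ⊓ stabilizer G b : Subgroup G) := Nat.card_pos
    have h5 := Nat.eq_of_mul_eq_mul_right hpos h1
    rw [h4, h5]
    omega
  · rintro _ ⟨w, hw, rfl⟩ hw1 c hc
    by_contra hca
    have hwk : w ∈ frobeniusKernel ((stabilizer G b).subgroupOf (stabilizer G a)) := by
      rw [← hN]; exact hw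
    rcases hwk with rfl | hwk
    · exact hw1 rfl
    · obtain ⟨g, hga, hgb⟩ := pz_two_trans hZ hab (Ne.symm hca)
      apply hwk ⟨g, hga⟩
      rw [mem_conj_smul_stab_iff]
      show (w : G) • (g • b) = g • b
      rw [hgb]
      exact hc

end Cfsg.Agent.H19
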