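import Mathlib
import Cfsg.Agent.H19.K3F
import Cfsg.Agent.H19.PZ
import Cfsg.Agent.H16.Sharp3
import Cfsg.Agent.Lib.Helper96.Frob6

/-!
# helper19: sharply triply transitive groups of even degree

`sharp3_index_two`: in a sharply 3-transitive group of even degree at least `6`, the two point
stabiliser `H = G_{a,b}` has a subgroup `N` of index `2` normalised by the element `s`
interchanging `a, b` and fixing `c`; moreover `s` acts trivially on `H / N`.
-/

set_option autoImplicit false
set_option linter.style.haveILetI false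

namespace Cfsg.Agent.H19

open MulAction

variable {G Ω : Type*} [Group G] [MulAction G Ω]

theorem sharp3_card_two_stab [Finite G] [Fintype Ω] (h3 : IsMultiplyPretransitive G Ω 3)
    (hsharp : ∀ x : Fin 3 ↪ Ω, stabilizer G x = ⊥) {a b c : Ω} (hab : a ≠ b) (hac : a ≠ c)
    (hbc : b ≠ c) :
    Nat.card (stabilizer G a ⊓ stabilizer G b : Subgroup G) + 2 = Fintype.card Ω := by
  classical
  have hmem : ∀ h : (stabilizer G a ⊓ stabilizer G b : Subgroup G),
      (h : G) • a = a ∧ (h : G) • b = b := fun h => Subgroup.mem_inf.mp h.2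
  let f : (stabilizer G a ⊓ stabilizer G b : Subgroup G) →
      {e : {e : Ω // e ≠ a} // e ≠ ⟨b, hab.symm⟩} := fun h => ⟨⟨(h : G) • c, by
        intro h1
        have h2 : (h : G) • c = (h : G) • a := h1.trans (hmem h).1.symm
        exact hac (smul_left_cancel _ h2).symm⟩, by
        intro h1
        have h1' : (h : G) • c = b := congrArg Subtype.val h1
        have h2 : (h : G) • c = (h : G) • b := h1'.trans (hmem h).2.symm
        exact hbc (smul_left_cancel _ h2).symm⟩
  have hf : Function.Bijective f := by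
    constructor
    · intro h h' hh
      have h1 : (h : G) • c = (h' : G) • c := congrArg (fun x => x.1.1) hh
      apply Subtype.ext
      exact Cfsg.Agent.H16.eq_of_smul_eq3 hsharp hab hac hbc
        ((hmem h).1.trans (hmem h').1.symm) ((hmem h).2.trans (hmem h').2.symm) h1
    · rintro ⟨⟨x, hxa⟩, hxb⟩
      have hxb' : x ≠ b := fun h => hxb (Subtype.ext h)
      obtain ⟨g, hga, hgb, hgc⟩ := Cfsg.Agent.H16.exists_smul3 h3 hab hac hbc hab
        (Ne.symm hxa) (Ne.symm hxb')
      refine ⟨⟨g, Subgroup.mem_inf.mpr ⟨hga, hgb⟩⟩, ?_⟩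
      apply Subtype.ext
      apply Subtype.ext
      exact hgc
  have h1 := Nat.card_eq_of_bijective f hf
  have h2 := card_ne_add_one (⟨b, hab.symm⟩ : {e : Ω // e ≠ a})
  have h3' := card_ne_add_one a
  rw [Nat.card_eq_fintype_card (α := Ω)] at h3'
  omega

theorem sharp3_index_two [Finite G] [Fintype Ω] [FaithfulSMul G Ω]
    (heven : Even (Fintype.card Ω)) (h6 : 6 ≤ Fintype.card Ω)
    (h3 : IsMultiplyPretransitive G Ω 3) (hsharp : ∀ x : Fin 3 ↪ Ω, stabilizer G x = ⊥)
    {a b c : Ω} (hab : a ≠ b) (hac : a ≠ c) (hbc : b ≠ c) (s : G) (hsa : s • a = b)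
    (hsb : s • b = a) (hsc : s • c = c) :
    ∃ N : Subgroup G, N ≤ stabilizer G a ⊓ stabilizer G b ∧
      N.relIndex (stabilizer G a ⊓ stabilizer G b) = 2 ∧ (∀ n ∈ N, s * n * s⁻¹ ∈ N) ∧
      ∀ h ∈ stabilizer G a ⊓ stabilizer G b, h * (s * h * s⁻¹)⁻¹ ∈ N := by
  classical
  have hfix3 : ∀ g : G, ∀ x y z : Ω, x ≠ y → y ≠ z → x ≠ z → g • x = x → g • y = y →
      g • z = z → g = 1 :=
    fun g x y z hxy hyz hxz hx hy hz => Cfsg.Agent.H16.eq_one_of_fix3 hsharp hxy hxz hyz hx hy hz
  have hcH := sharp3_card_two_stab h3 hsharp hab hac hbc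
  have h2 : IsMultiplyPretransitive G Ω 2 := by
    haveI := h3
    exact isMultiplyPretransitive_of_le (n := 3) (by norm_num)
      (by rw [Nat.card_eq_fintype_card]; omega)
  have hZ : PreZass G Ω := by
    refine ⟨inferInstance, h2, hfix3, ?_, trivial⟩
    have h1 : 1 < Nat.card (stabilizer G a ⊓ stabilizer G b : Subgroup G) := by omega
    haveI := (Finite.one_lt_card_iff_nontrivial).mp h1
    obtain ⟨g, hg⟩ := exists_ne (1 : (stabilizer G a ⊓ stabilizer G b : Subgroup G))
    exact ⟨g.1, fun h => hg (Subtype.ext h), a, b, hab, (Subgroup.mem_inf.mp g.2).1,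
      (Subgroup.mem_inf.mp g.2).2⟩
  have hF := pz_isFrobeniusComplement hZ hab
  obtain ⟨K, hKn, hKbot, hKc, hfpf⟩ := Cfsg.Agent.Lib.Helper96.frob_exists_kernel hF
  haveI := hKn
  have hfree : ∀ h ∈ (stabilizer G b).subgroupOf (stabilizer G a), ∀ k ∈ K, k ≠ 1 →
      h * k * h⁻¹ = k → h = 1 := by
    intro h hh k hk hk1 hc
    by_contra hh1
    have h1 := hfpf h hh hh1
    have hmem : k ∈ K ⊓ Subgroup.centralizer {h} := by
      rw [Subgroup.mem_inf]
      refine ⟨hk, ?_⟩
      rw [Subgroup.mem_centralizer_iff]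
      intro w hw
      rw [Set.mem_singleton_iff] at hw
      rw [hw]
      calc h * k = (h * k * h⁻¹) * h := by group
        _ = k * h := by rw [hc]
    rw [h1, Subgroup.mem_bot] at hmem
    exact hk1 hmem
  have hcHb : Nat.card ((stabilizer G b).subgroupOf (stabilizer G a)) + 2 = Fintype.card Ω := by
    rw [zass_card_subgroupOf_stab]
    exact hcH
  have hcK : Nat.card K + 1 = Fintype.card Ω := by
    have h1 := hKc.card_mul_card
    rw [pz_card_stab hZ hab, ← zass_card_subgroupOf_stab] at h1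
    have h4 := Nat.eq_of_mul_eq_mul_right Nat.card_pos h1
    omega
  have hcard : Nat.card ((stabilizer G b).subgroupOf (stabilizer G a)) + 1 = Nat.card K := by
    omega
  have hodd : Odd (Nat.card K) := by
    obtain ⟨m, hm⟩ := heven
    exact ⟨m - 1, by omega⟩
  have hSyl : ∀ P : Sylow 2 ((stabilizer G b).subgroupOf (stabilizer G a)),
      IsCyclic P ∨ ∃ n : ℕ, Nonempty (P ≃* QuaternionGroup (2 ^ n)) := by
    haveI : Fact (Nat.Prime 2) := ⟨Nat.prime_two⟩
    intro P
    exact Cfsg.Agent.Lib.Helper96.fpf_sylow_cyclic_or_quaternion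
      (Cfsg.Agent.Lib.Helper96.s41 _) K _ hKbot hfpf 2 P
  -- the swapping element
  have hsinv_a : s⁻¹ • a = b := by rw [inv_smul_eq_iff, hsb]
  have hsinv_b : s⁻¹ • b = a := by rw [inv_smul_eq_iff, hsa]
  have hss : s * s = 1 := hfix3 (s * s) a b c hab hbc hac (by rw [mul_smul, hsa, hsb])
    (by rw [mul_smul, hsb, hsa]) (by rw [mul_smul, hsc, hsc])
  have hs1 : s ≠ 1 := by
    intro h
    rw [h, one_smul] at hsa
    exact hab hsa
  have hconj : ∀ h : G, h • a = a → h • b = b →
      (s * h * s⁻¹) • a = a ∧ (s * h * s⁻¹) • b = b := by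
    intro h ha hb
    constructor
    · rw [mul_smul, mul_smul, hsinv_a, hb, hsb]
    · rw [mul_smul, mul_smul, hsinv_b, ha, hsa]
  have hmemHb : ∀ h : ((stabilizer G b).subgroupOf (stabilizer G a)),
      (h.1.1 : G) • a = a ∧ (h.1.1 : G) • b = b :=
    fun h => ⟨h.1.2, Subgroup.mem_subgroupOf.mp h.2⟩
  let α : ((stabilizer G b).subgroupOf (stabilizer G a)) →*
      ((stabilizer G b).subgroupOf (stabilizer G a)) :=
    MonoidHom.mk' (fun h => ⟨⟨s * h.1.1 * s⁻¹, (hconj h.1.1 (hmemHb h).1 (hmemHb h).2).1⟩,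
      Subgroup.mem_subgroupOf.mpr (hconj h.1.1 (hmemHb h).1 (hmemHb h).2).2⟩) (by
        intro h h'
        apply Subtype.ext
        apply Subtype.ext
        show s * (h.1.1 * h'.1.1) * s⁻¹ = (s * h.1.1 * s⁻¹) * (s * h'.1.1 * s⁻¹)
        group)
  have hαval : ∀ u, ((α u).1.1 : G) = s * u.1.1 * s⁻¹ := fun u => rfl
  have hαα : ∀ u, α (α u) = u := by
    intro u
    apply Subtype.ext
    apply Subtype.ext
    rw [hαval, hαval]
    calc s * (s * u.1.1 * s⁻¹) * s⁻¹ = (s * s) * u.1.1 * (s * s)⁻¹ := by group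
      _ = u.1.1 := by rw [hss]; group
  have hαfix : ∀ u, α u = u → u * u = 1 := by
    intro u hu
    obtain ⟨hga, hgb⟩ := hmemHb u
    have h1 : s * u.1.1 * s⁻¹ = u.1.1 := by
      rw [← hαval, hu]
    obtain ⟨g, hg⟩ : ∃ g : G, g = u.1.1 := ⟨_, rfl⟩
    rw [← hg] at h1 hga hgb
    have hcomm : s * g = g * s := by
      calc s * g = (s * g * s⁻¹) * s := by group
        _ = g * s := by rw [h1]
    have hsfix : ∀ x : Ω, s • x = x → s • (g • x) = g • x := by
      intro x hx
      rw [← mul_smul, hcomm, mul_smul, hx]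
    have hgg : (g * g) • c = c := by
      by_contra hne
      have e1 : s • (g • c) = g • c := hsfix c hsc
      have e2 : s • (g • (g • c)) = g • (g • c) := hsfix _ e1
      have n1 : g • c ≠ c := by
        intro h
        apply hne
        rw [mul_smul, h, h]
      have n2 : g • (g • c) ≠ c := by
        intro h
        apply hne
        rw [mul_smul, h]
      have n3 : g • (g • c) ≠ g • c := by
        intro h
        exact n1 (smul_left_cancel g h)
      exact hs1 (hfix3 s c (g • c) (g • (g • c)) (Ne.symm n1) (Ne.symm n3) (Ne.symm n2)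
        hsc e1 e2)
    have h5 : g * g = 1 := hfix3 (g * g) a b c hab hbc hac (by rw [mul_smul, hga, hga])
      (by rw [mul_smul, hgb, hgb]) hgg
    apply Subtype.ext
    apply Subtype.ext
    show u.1.1 * u.1.1 = 1
    rw [← hg, h5]
  -- order three
  have hthree : ∀ x y : G, x • a = a → x • b = b → y • a = a → y • b = b → x ≠ 1 → y ≠ 1 →
      x ^ 3 = 1 → y ^ 3 = 1 → y = x ∨ y = s * x * s⁻¹ := by
    intro x y hxa hxb hya hyb hx1 hy1 hx3 hy3
    obtain ⟨g, hg, hgc, hcase⟩ := Cfsg.Agent.H16.exists_conj_order_three h3 hsharp hab hac hbc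
      hxa hxb hya hyb hx1 hy1 hx3 hy3
    rcases hcase with ⟨hga, hgb⟩ | ⟨hga, hgb⟩
    · left
      have hg1 := hfix3 g a b c hab hbc hac hga hgb hgc
      rw [← hg, hg1]
      group
    · right
      have hgs : g = s := Cfsg.Agent.H16.eq_of_smul_eq3 hsharp hab hac hbc (hga.trans hsa.symm)
        (hgb.trans hsb.symm) (hgc.trans hsc.symm)
      rw [← hg, hgs]
  have h3' : ∀ x y : ((stabilizer G b).subgroupOf (stabilizer G a)), orderOf x = 3 →
      orderOf y = 3 → y = x ∨ y = x⁻¹ := by
    intro x y hx hy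
    have hx3 : (x.1.1 : G) ^ 3 = 1 := by
      have h := pow_orderOf_eq_one x
      rw [hx] at h
      have h' := congrArg (fun w : ((stabilizer G b).subgroupOf (stabilizer G a)) => (w.1.1 : G)) h
      simpa using h'
    have hy3 : (y.1.1 : G) ^ 3 = 1 := by
      have h := pow_orderOf_eq_one y
      rw [hy] at h
      have h' := congrArg (fun w : ((stabilizer G b).subgroupOf (stabilizer G a)) => (w.1.1 : G)) h
      simpa using h'
    have hx1 : (x.1.1 : G) ≠ 1 := by
      intro h
      have : x = 1 := Subtype.ext (Subtype.ext h)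
      rw [this, orderOf_one] at hx
      omega
    have hy1 : (y.1.1 : G) ≠ 1 := by
      intro h
      have : y = 1 := Subtype.ext (Subtype.ext h)
      rw [this, orderOf_one] at hy
      omega
    obtain ⟨hxa, hxb⟩ := hmemHb x
    obtain ⟨hya, hyb⟩ := hmemHb y
    have hxinv : s * x.1.1 * s⁻¹ = (x.1.1 : G)⁻¹ := by
      have hia : (x.1.1 : G)⁻¹ • a = a := by rw [inv_smul_eq_iff, hxa]
      have hib : (x.1.1 : G)⁻¹ • b = b := by rw [inv_smul_eq_iff, hxb]
      rcases hthree x.1.1 (x.1.1 : G)⁻¹ hxa hxb hia hib hx1 (inv_ne_one.mpr hx1) hx3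
        (by rw [inv_pow, hx3, inv_one]) with h | h
      · exfalso
        apply hx1
        have h2 : (x.1.1 : G) * x.1.1 = 1 := by
          calc (x.1.1 : G) * x.1.1 = (x.1.1 : G) * (x.1.1 : G)⁻¹ := by rw [h]
            _ = 1 := mul_inv_cancel _
        calc (x.1.1 : G) = (x.1.1 : G) ^ 3 * ((x.1.1 : G) * x.1.1)⁻¹ := by group
          _ = 1 := by rw [hx3, h2]; group
      · exact h.symm
    rcases hthree x.1.1 y.1.1 hxa hxb hya hyb hx1 hy1 hx3 hy3 with h | h
    · left
      exact Subtype.ext (Subtype.ext h)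
    · right
      apply Subtype.ext
      apply Subtype.ext
      rw [h, hxinv]
      rfl
  obtain ⟨N, hNidx, hNα⟩ := index_two_of_regular_conj K
    ((stabilizer G b).subgroupOf (stabilizer G a)) hfree hcard hodd α hαα hαfix hSyl h3'
  -- transport to `G`
  obtain ⟨ι, hι⟩ : ∃ ι : ((stabilizer G b).subgroupOf (stabilizer G a)) →* G,
      ∀ u, ι u = u.1.1 :=
    ⟨(stabilizer G a).subtype.comp ((stabilizer G b).subgroupOf (stabilizer G a)).subtype,
      fun u => rfl⟩
  have hιinj : Function.Injective ι := by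
    intro u v huv
    rw [hι, hι] at huv
    exact Subtype.ext (Subtype.ext huv)
  have hrange : (⊤ : Subgroup ((stabilizer G b).subgroupOf (stabilizer G a))).map ι =
      stabilizer G a ⊓ stabilizer G b := by
    ext g
    rw [Subgroup.mem_map, Subgroup.mem_inf, mem_stabilizer_iff, mem_stabilizer_iff]
    constructor
    · rintro ⟨u, -, rfl⟩
      rw [hι]
      exact hmemHb u
    · rintro ⟨hga, hgb⟩
      exact ⟨⟨⟨g, hga⟩, Subgroup.mem_subgroupOf.mpr hgb⟩, Subgroup.mem_top _, hι _⟩
  have hια : ∀ u, ι (α u) = s * ι u * s⁻¹ := by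
    intro u
    rw [hι, hι, hαval]
  refine ⟨N.map ι, ?_, ?_, ?_, ?_⟩
  · rw [← hrange]
    exact Subgroup.map_mono le_top
  · rw [← hrange, Subgroup.relIndex_map_map_of_injective _ _ hιinj, Subgroup.relIndex_top_right,
      hNidx]
  · rintro _ ⟨u, hu, rfl⟩
    exact ⟨α u, hNα u hu, hια u⟩
  · intro h hh
    rw [← hrange] at hh
    obtain ⟨u, -, rfl⟩ := hh
    refine ⟨u * (α u)⁻¹, ?_, ?_⟩
    · rw [SetLike.mem_coe, Subgroup.mul_mem_iff_of_index_two hNidx, inv_mem_iff]
      constructor
      · exact hNα u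
      · intro h1
        have := hNα _ h1
        rwa [hαα] at this
    · rw [map_mul, map_inv, hια]

end Cfsg.Agent.H19
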