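import Mathlib
import Cfsg.Agent.H19.K3G
import Cfsg.Agent.H19.ZassSwap

/-!
# helper19: sharply triply transitive groups of even degree are not simple

* `transfer_eq_of_one_fixed` : a transfer computation;
* `sharp3_index_two'` : `sharp3_index_two` for degree at least `4`;
* `sharp3_not_simple` : a sharply 3-transitive group of even degree at least `4` is not simple
  (transfer into `D / D₁`, where `D` is the setwise stabiliser of `{a, b}` and `D₁ = N ⟨s⟩`).
-/

set_option autoImplicit false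
set_option linter.style.haveILetI false

namespace Cfsg.Agent.H19

open MulAction

theorem transfer_eq_of_one_fixed {G : Type*} [Group G] {H : Subgroup G} {A : Type*}
    [CommGroup A] (ϕ : H →* A) [H.FiniteIndex] (g : H)
    (key : ∀ (k : ℕ) (g₀ : G) (hmem : g₀⁻¹ * (g : G) ^ k * g₀ ∈ H),
      g₀ ∈ H ∨ ϕ ⟨g₀⁻¹ * (g : G) ^ k * g₀, hmem⟩ = 1) :
    MonoidHom.transfer ϕ (g : G) = ϕ g := by
  classical
  letI := H.fintypeQuotientOfFiniteIndex
  rw [MonoidHom.transfer_eq_prod_quotient_orbitRel_zpowers_quot]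
  have term1 : ∀ (g₀ : G) (k : ℕ) (hmem : g₀⁻¹ * (g : G) ^ k * g₀ ∈ H), g₀ ∈ H → k = 1 →
      ϕ ⟨g₀⁻¹ * (g : G) ^ k * g₀, hmem⟩ = ϕ g := by
    intro g₀ k hmem hg₀ hk
    subst hk
    have : (⟨g₀⁻¹ * (g : G) ^ 1 * g₀, hmem⟩ : H) = (⟨g₀, hg₀⟩ : H)⁻¹ * g * ⟨g₀, hg₀⟩ := by
      apply Subtype.ext
      simp
    rw [this, map_mul, map_mul, map_inv, mul_comm, mul_inv_cancel_left]
  have horb1 : ∀ c : G ⧸ H, c ∈ orbit (Subgroup.zpowers (g : G)) ((1 : G) : G ⧸ H) →
      c = ((1 : G) : G ⧸ H) := by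
    rintro c ⟨⟨z, hz⟩, rfl⟩
    have hzH : z ∈ H := (Subgroup.zpowers_le.mpr g.2) hz
    show ((z * 1 : G) : G ⧸ H) = ((1 : G) : G ⧸ H)
    rw [QuotientGroup.eq]
    simpa using H.inv_mem hzH
  set q₁ : Quotient (orbitRel (Subgroup.zpowers (g : G)) (G ⧸ H)) :=
    Quotient.mk'' ((1 : G) : G ⧸ H) with hq₁
  have hout1 : q₁.out = ((1 : G) : G ⧸ H) := by
    apply horb1
    have : Quotient.mk'' q₁.out = q₁ := Quotient.out_eq' q₁
    rw [hq₁] at this
    exact Quotient.eq''.mp this
  have hmem1 : q₁.out.out ∈ H := by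
    have h1 : ((q₁.out.out : G) : G ⧸ H) = ((1 : G) : G ⧸ H) := by
      rw [QuotientGroup.out_eq', hout1]
    rw [QuotientGroup.eq] at h1
    have := H.inv_mem h1
    simpa using this
  have hper1 : Function.minimalPeriod ((g : G) • · : G ⧸ H → G ⧸ H) q₁.out = 1 := by
    rw [Function.minimalPeriod_eq_one_iff_isFixedPt, hout1]
    show ((g : G) * 1 : G) = ((1 : G) : G ⧸ H)
    rw [QuotientGroup.eq]
    simpa using H.inv_mem g.2
  rw [Finset.prod_eq_single q₁]
  · exact term1 _ _ _ hmem1 hper1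
  · intro c _ hc
    rcases key _ _ (QuotientGroup.out_conj_pow_minimalPeriod_mem H (g : G) c.out) with h | h
    · exfalso
      apply hc
      have h1 : c.out = ((1 : G) : G ⧸ H) := by
        rw [← QuotientGroup.out_eq' c.out, QuotientGroup.eq]
        simpa using h
      rw [hq₁, ← h1]
      exact (Quotient.out_eq' c).symm
    · exact h
  · intro h
    exact absurd (Finset.mem_univ _) h

/-- A subgroup of index two is the kernel of a homomorphism to `ℤˣ`. -/
theorem exists_hom_of_index_two {D : Type*} [Group D] (D₁ : Subgroup D) (h : D₁.index = 2) :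
    ∃ φ : D →* ℤˣ, ∀ d, φ d = 1 ↔ d ∈ D₁ := by
  classical
  refine ⟨MonoidHom.mk' (fun d => if d ∈ D₁ then 1 else -1) ?_, ?_⟩
  · intro x y
    have := Subgroup.mul_mem_iff_of_index_two h (a := x) (b := y)
    by_cases hx : x ∈ D₁ <;> by_cases hy : y ∈ D₁ <;> simp [hx, hy, this]
  · intro d
    show (if d ∈ D₁ then (1 : ℤˣ) else -1) = 1 ↔ d ∈ D₁
    by_cases hd : d ∈ D₁ <;> simp [hd]

/-- `N ∪ N s` for an involution `s` normalising `N`. -/
def extTwo {G : Type*} [Group G] (N : Subgroup G) (s : G) (hss : s * s = 1)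
    (hN : ∀ n ∈ N, s * n * s⁻¹ ∈ N) : Subgroup G where
  carrier := {g | g ∈ N ∨ g * s ∈ N}
  mul_mem' := by
    have hsinv : s⁻¹ = s := inv_eq_of_mul_eq_one_left hss
    rintro x y (hx | hx) (hy | hy)
    · left
      exact N.mul_mem hx hy
    · right
      show x * y * s ∈ N
      rw [mul_assoc]
      exact N.mul_mem hx hy
    · right
      show x * y * s ∈ N
      have h1 : s * y * s ∈ N := by
        have := hN y hy
        rwa [hsinv] at this
      have h2 : x * y * s = (x * s) * (s * y * s) := by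
        calc x * y * s = x * 1 * y * s := by rw [mul_one]
          _ = x * (s * s) * y * s := by rw [hss]
          _ = (x * s) * (s * y * s) := by group
      rw [h2]
      exact N.mul_mem hx h1
    · left
      show x * y ∈ N
      have h1 : s * (y * s) * s ∈ N := by
        have := hN _ hy
        rwa [hsinv] at this
      have h2 : x * y = (x * s) * (s * (y * s) * s) := by
        calc x * y = x * 1 * y * 1 := by rw [mul_one, mul_one]
          _ = x * (s * s) * y * (s * s) := by rw [hss]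
          _ = (x * s) * (s * (y * s) * s) := by group
      rw [h2]
      exact N.mul_mem hx h1
  one_mem' := Or.inl N.one_mem
  inv_mem' := by
    have hsinv : s⁻¹ = s := inv_eq_of_mul_eq_one_left hss
    rintro x (hx | hx)
    · left
      exact N.inv_mem hx
    · right
      show x⁻¹ * s ∈ N
      have h1 : s * (x * s)⁻¹ * s ∈ N := by
        have := hN _ (N.inv_mem hx)
        rwa [hsinv] at this
      have h2 : x⁻¹ * s = s * (x * s)⁻¹ * s := by group
      rw [h2]
      exact h1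

theorem mem_extTwo {G : Type*} [Group G] (N : Subgroup G) (s : G) (hss : s * s = 1)
    (hN : ∀ n ∈ N, s * n * s⁻¹ ∈ N) (g : G) : g ∈ extTwo N s hss hN ↔ g ∈ N ∨ g * s ∈ N :=
  Iff.rfl

variable {G Ω : Type*} [Group G] [MulAction G Ω]

theorem sharp3_index_two' [Finite G] [Fintype Ω] [FaithfulSMul G Ω]
    (heven : Even (Fintype.card Ω)) (h4 : 4 ≤ Fintype.card Ω)
    (h3 : IsMultiplyPretransitive G Ω 3) (hsharp : ∀ x : Fin 3 ↪ Ω, stabilizer G x = ⊥)
    {a b c : Ω} (hab : a ≠ b) (hac : a ≠ c) (hbc : b ≠ c) (s : G) (hsa : s • a = b)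
    (hsb : s • b = a) (hsc : s • c = c) :
    ∃ N : Subgroup G, N ≤ stabilizer G a ⊓ stabilizer G b ∧
      N.relIndex (stabilizer G a ⊓ stabilizer G b) = 2 ∧ (∀ n ∈ N, s * n * s⁻¹ ∈ N) ∧
      ∀ h ∈ stabilizer G a ⊓ stabilizer G b, h * (s * h * s⁻¹)⁻¹ ∈ N := by
  classical
  have hfix3 : ∀ g : G, ∀ x y z : Ω, x ≠ y → y ≠ z → x ≠ z → g • x = x → g • y = y →
      g • z = z → g = 1 :=
    fun g x y z hxy hyz hxz hx hy hz => Cfsg.Agent.H16.eq_one_of_fix3 hsharp hxy hxz hyz hx hy hz
  have hcH := sharp3_card_two_stab h3 hsharp hab hac hbc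
  have h2 : IsMultiplyPretransitive G Ω 2 := by
    haveI := h3
    exact isMultiplyPretransitive_of_le (n := 3) (by norm_num)
      (by rw [Nat.card_eq_fintype_card]; omega)
  have hZ : PreZass G Ω := by
    refine ⟨inferInstance, h2, hfix3, ?_, trivial⟩
    have h1 : 1 < Nat.card (stabilizer G a ⊓ stabilizer G b : Subgroup G) := by omega
    haveI := (Finite.one_lt_card_iff_nontrivial).mp h1
    obtain ⟨g, hg⟩ := exists_ne (1 : (stabilizer G a ⊓ stabilizer G b : Subgroup G))
    exact ⟨g.1, fun h => hg (Subtype.ext h), a, b, hab, (Subgroup.mem_inf.mp g.2).1,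
      (Subgroup.mem_inf.mp g.2).2⟩
  have hF := pz_isFrobeniusComplement hZ hab
  obtain ⟨K, hKn, hKbot, hKc, hfpf⟩ := Cfsg.Agent.Lib.Helper96.frob_exists_kernel hF
  haveI := hKn
  have hfree : ∀ h ∈ (stabilizer G b).subgroupOf (stabilizer G a), ∀ k ∈ K, k ≠ 1 →
      h * k * h⁻¹ = k → h = 1 := by
    intro h hh k hk hk1 hc
    by_contra hh1
    have h1 := hfpf h hh hh1
    have hmem : k ∈ K ⊓ Subgroup.centralizer {h} := by
      rw [Subgroup.mem_inf]
      refine ⟨hk, ?_⟩
      rw [Subgroup.mem_centralizer_iff]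
      intro w hw
      rw [Set.mem_singleton_iff] at hw
      rw [hw]
      calc h * k = (h * k * h⁻¹) * h := by group
        _ = k * h := by rw [hc]
    rw [h1, Subgroup.mem_bot] at hmem
    exact hk1 hmem
  have hcHb : Nat.card ((stabilizer G b).subgroupOf (stabilizer G a)) + 2 = Fintype.card Ω := by
    rw [zass_card_subgroupOf_stab]
    exact hcH
  have hcK : Nat.card K + 1 = Fintype.card Ω := by
    have h1 := hKc.card_mul_card
    rw [pz_card_stab hZ hab, ← zass_card_subgroupOf_stab] at h1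
    have h4 := Nat.eq_of_mul_eq_mul_right Nat.card_pos h1
    omega
  have hcard : Nat.card ((stabilizer G b).subgroupOf (stabilizer G a)) + 1 = Nat.card K := by
    omega
  have hodd : Odd (Nat.card K) := by
    obtain ⟨m, hm⟩ := heven
    exact ⟨m - 1, by omega⟩
  have hSyl : ∀ P : Sylow 2 ((stabilizer G b).subgroupOf (stabilizer G a)),
      IsCyclic P ∨ ∃ n : ℕ, Nonempty (P ≃* QuaternionGroup (2 ^ n)) := by
    haveI : Fact (Nat.Prime 2) := ⟨Nat.prime_two⟩
    intro P
    exact Cfsg.Agent.Lib.Helper96.fpf_sylow_cyclic_or_quaternion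
      (Cfsg.Agent.Lib.Helper96.s41 _) K _ hKbot hfpf 2 P
  -- the swapping element
  have hsinv_a : s⁻¹ • a = b := by rw [inv_smul_eq_iff, hsb]
  have hsinv_b : s⁻¹ • b = a := by rw [inv_smul_eq_iff, hsa]
  have hss : s * s = 1 := hfix3 (s * s) a b c hab hbc hac (by rw [mul_smul, hsa, hsb])
    (by rw [mul_smul, hsb, hsa]) (by rw [mul_smul, hsc, hsc])
  have hs1 : s ≠ 1 := by
    intro h
    rw [h, one_smul] at hsa
    exact hab hsa
  have hconj : ∀ h : G, h • a = a → h • b = b →
      (s * h * s⁻¹) • a = a ∧ (s * h * s⁻¹) • b = b := by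
    intro h ha hb
    constructor
    · rw [mul_smul, mul_smul, hsinv_a, hb, hsb]
    · rw [mul_smul, mul_smul, hsinv_b, ha, hsa]
  have hmemHb : ∀ h : ((stabilizer G b).subgroupOf (stabilizer G a)),
      (h.1.1 : G) • a = a ∧ (h.1.1 : G) • b = b :=
    fun h => ⟨h.1.2, Subgroup.mem_subgroupOf.mp h.2⟩
  let α : ((stabilizer G b).subgroupOf (stabilizer G a)) →*
      ((stabilizer G b).subgroupOf (stabilizer G a)) :=
    MonoidHom.mk' (fun h => ⟨⟨s * h.1.1 * s⁻¹, (hconj h.1.1 (hmemHb h).1 (hmemHb h).2).1⟩,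
      Subgroup.mem_subgroupOf.mpr (hconj h.1.1 (hmemHb h).1 (hmemHb h).2).2⟩) (by
        intro h h'
        apply Subtype.ext
        apply Subtype.ext
        show s * (h.1.1 * h'.1.1) * s⁻¹ = (s * h.1.1 * s⁻¹) * (s * h'.1.1 * s⁻¹)
        group)
  have hαval : ∀ u, ((α u).1.1 : G) = s * u.1.1 * s⁻¹ := fun u => rfl
  have hαα : ∀ u, α (α u) = u := by
    intro u
    apply Subtype.ext
    apply Subtype.ext
    rw [hαval, hαval]
    calc s * (s * u.1.1 * s⁻¹) * s⁻¹ = (s * s) * u.1.1 * (s * s)⁻¹ := by group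
      _ = u.1.1 := by rw [hss]; group
  have hαfix : ∀ u, α u = u → u * u = 1 := by
    intro u hu
    obtain ⟨hga, hgb⟩ := hmemHb u
    have h1 : s * u.1.1 * s⁻¹ = u.1.1 := by
      rw [← hαval, hu]
    obtain ⟨g, hg⟩ : ∃ g : G, g = u.1.1 := ⟨_, rfl⟩
    rw [← hg] at h1 hga hgb
    have hcomm : s * g = g * s := by
      calc s * g = (s * g * s⁻¹) * s := by group
        _ = g * s := by rw [h1]
    have hsfix : ∀ x : Ω, s • x = x → s • (g • x) = g • x := by
      intro x hx
      rw [← mul_smul, hcomm, mul_smul, hx]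
    have hgg : (g * g) • c = c := by
      by_contra hne
      have e1 : s • (g • c) = g • c := hsfix c hsc
      have e2 : s • (g • (g • c)) = g • (g • c) := hsfix _ e1
      have n1 : g • c ≠ c := by
        intro h
        apply hne
        rw [mul_smul, h, h]
      have n2 : g • (g • c) ≠ c := by
        intro h
        apply hne
        rw [mul_smul, h]
      have n3 : g • (g • c) ≠ g • c := by
        intro h
        exact n1 (smul_left_cancel g h)
      exact hs1 (hfix3 s c (g • c) (g • (g • c)) (Ne.symm n1) (Ne.symm n3) (Ne.symm n2)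
        hsc e1 e2)
    have h5 : g * g = 1 := hfix3 (g * g) a b c hab hbc hac (by rw [mul_smul, hga, hga])
      (by rw [mul_smul, hgb, hgb]) hgg
    apply Subtype.ext
    apply Subtype.ext
    show u.1.1 * u.1.1 = 1
    rw [← hg, h5]
  -- order three
  have hthree : ∀ x y : G, x • a = a → x • b = b → y • a = a → y • b = b → x ≠ 1 → y ≠ 1 →
      x ^ 3 = 1 → y ^ 3 = 1 → y = x ∨ y = s * x * s⁻¹ := by
    intro x y hxa hxb hya hyb hx1 hy1 hx3 hy3
    obtain ⟨g, hg, hgc, hcase⟩ := Cfsg.Agent.H16.exists_conj_order_three h3 hsharp hab hac hbc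
      hxa hxb hya hyb hx1 hy1 hx3 hy3
    rcases hcase with ⟨hga, hgb⟩ | ⟨hga, hgb⟩
    · left
      have hg1 := hfix3 g a b c hab hbc hac hga hgb hgc
      rw [← hg, hg1]
      group
    · right
      have hgs : g = s := Cfsg.Agent.H16.eq_of_smul_eq3 hsharp hab hac hbc (hga.trans hsa.symm)
        (hgb.trans hsb.symm) (hgc.trans hsc.symm)
      rw [← hg, hgs]
  have h3' : ∀ x y : ((stabilizer G b).subgroupOf (stabilizer G a)), orderOf x = 3 →
      orderOf y = 3 → y = x ∨ y = x⁻¹ := by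
    intro x y hx hy
    have hx3 : (x.1.1 : G) ^ 3 = 1 := by
      have h := pow_orderOf_eq_one x
      rw [hx] at h
      have h' := congrArg (fun w : ((stabilizer G b).subgroupOf (stabilizer G a)) => (w.1.1 : G)) h
      simpa using h'
    have hy3 : (y.1.1 : G) ^ 3 = 1 := by
      have h := pow_orderOf_eq_one y
      rw [hy] at h
      have h' := congrArg (fun w : ((stabilizer G b).subgroupOf (stabilizer G a)) => (w.1.1 : G)) h
      simpa using h'
    have hx1 : (x.1.1 : G) ≠ 1 := by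
      intro h
      have : x = 1 := Subtype.ext (Subtype.ext h)
      rw [this, orderOf_one] at hx
      omega
    have hy1 : (y.1.1 : G) ≠ 1 := by
      intro h
      have : y = 1 := Subtype.ext (Subtype.ext h)
      rw [this, orderOf_one] at hy
      omega
    obtain ⟨hxa, hxb⟩ := hmemHb x
    obtain ⟨hya, hyb⟩ := hmemHb y
    have hxinv : s * x.1.1 * s⁻¹ = (x.1.1 : G)⁻¹ := by
      have hia : (x.1.1 : G)⁻¹ • a = a := by rw [inv_smul_eq_iff, hxa]
      have hib : (x.1.1 : G)⁻¹ • b = b := by rw [inv_smul_eq_iff, hxb]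
      rcases hthree x.1.1 (x.1.1 : G)⁻¹ hxa hxb hia hib hx1 (inv_ne_one.mpr hx1) hx3
        (by rw [inv_pow, hx3, inv_one]) with h | h
      · exfalso
        apply hx1
        have h2 : (x.1.1 : G) * x.1.1 = 1 := by
          calc (x.1.1 : G) * x.1.1 = (x.1.1 : G) * (x.1.1 : G)⁻¹ := by rw [h]
            _ = 1 := mul_inv_cancel _
        calc (x.1.1 : G) = (x.1.1 : G) ^ 3 * ((x.1.1 : G) * x.1.1)⁻¹ := by group
          _ = 1 := by rw [hx3, h2]; group
      · exact h.symm
    rcases hthree x.1.1 y.1.1 hxa hxb hya hyb hx1 hy1 hx3 hy3 with h | h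
    · left
      exact Subtype.ext (Subtype.ext h)
    · right
      apply Subtype.ext
      apply Subtype.ext
      rw [h, hxinv]
      rfl
  obtain ⟨N, hNidx, hNα⟩ := index_two_of_regular_conj K
    ((stabilizer G b).subgroupOf (stabilizer G a)) hfree hcard hodd α hαα hαfix hSyl h3'
  -- transport to `G`
  obtain ⟨ι, hι⟩ : ∃ ι : ((stabilizer G b).subgroupOf (stabilizer G a)) →* G,
      ∀ u, ι u = u.1.1 :=
    ⟨(stabilizer G a).subtype.comp ((stabilizer G b).subgroupOf (stabilizer G a)).subtype,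
      fun u => rfl⟩
  have hιinj : Function.Injective ι := by
    intro u v huv
    rw [hι, hι] at huv
    exact Subtype.ext (Subtype.ext huv)
  have hrange : (⊤ : Subgroup ((stabilizer G b).subgroupOf (stabilizer G a))).map ι =
      stabilizer G a ⊓ stabilizer G b := by
    ext g
    rw [Subgroup.mem_map, Subgroup.mem_inf, mem_stabilizer_iff, mem_stabilizer_iff]
    constructor
    · rintro ⟨u, -, rfl⟩
      rw [hι]
      exact hmemHb u
    · rintro ⟨hga, hgb⟩
      exact ⟨⟨⟨g, hga⟩, Subgroup.mem_subgroupOf.mpr hgb⟩, Subgroup.mem_top _, hι _⟩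
  have hια : ∀ u, ι (α u) = s * ι u * s⁻¹ := by
    intro u
    rw [hι, hι, hαval]
  refine ⟨N.map ι, ?_, ?_, ?_, ?_⟩
  · rw [← hrange]
    exact Subgroup.map_mono le_top
  · rw [← hrange, Subgroup.relIndex_map_map_of_injective _ _ hιinj, Subgroup.relIndex_top_right,
      hNidx]
  · rintro _ ⟨u, hu, rfl⟩
    exact ⟨α u, hNα u hu, hια u⟩
  · intro h hh
    rw [← hrange] at hh
    obtain ⟨u, -, rfl⟩ := hh
    refine ⟨u * (α u)⁻¹, ?_, ?_⟩
    · rw [SetLike.mem_coe, Subgroup.mul_mem_iff_of_index_two hNidx, inv_mem_iff]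
      constructor
      · exact hNα u
      · intro h1
        have := hNα _ h1
        rwa [hαα] at this
    · rw [map_mul, map_inv, hια]


/-- A sharply 3-transitive group of even degree at least `4` is not simple. -/
theorem sharp3_not_simple [Finite G] [Fintype Ω] [FaithfulSMul G Ω] [IsSimpleGroup G]
    (heven : Even (Fintype.card Ω)) (h4 : 4 ≤ Fintype.card Ω)
    (h3 : IsMultiplyPretransitive G Ω 3) (hsharp : ∀ x : Fin 3 ↪ Ω, stabilizer G x = ⊥) :
    False := by
  classical
  obtain ⟨a, b, c, hab, hac, hbc⟩ : ∃ a b c : Ω, a ≠ b ∧ a ≠ c ∧ b ≠ c := by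
    have h : 2 < Fintype.card Ω := by omega
    exact Fintype.two_lt_card_iff.mp h
  obtain ⟨s, hsa, hsb, hsc⟩ := Cfsg.Agent.H16.exists_smul3 h3 hab hac hbc (Ne.symm hab) hbc hac
  obtain ⟨N, hNle, hNidx, hNs, hNα⟩ :=
    sharp3_index_two' heven h4 h3 hsharp hab hac hbc s hsa hsb hsc
  have hfix3 : ∀ g : G, ∀ x y z : Ω, x ≠ y → y ≠ z → x ≠ z → g • x = x → g • y = y →
      g • z = z → g = 1 :=
    fun g x y z hxy hyz hxz hx hy hz => Cfsg.Agent.H16.eq_one_of_fix3 hsharp hxy hxz hyz hx hy hz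
  have hss : s * s = 1 := hfix3 (s * s) a b c hab hbc hac (by rw [mul_smul, hsa, hsb])
    (by rw [mul_smul, hsb, hsa]) (by rw [mul_smul, hsc, hsc])
  have hsinv : s⁻¹ = s := inv_eq_of_mul_eq_one_left hss
  have hsD : s ∈ pairStab G a b := Or.inr ⟨hsa, hsb⟩
  have hHmem : ∀ g : G, g ∈ stabilizer G a ⊓ stabilizer G b ↔ g • a = a ∧ g • b = b := by
    intro g
    rw [Subgroup.mem_inf, mem_stabilizer_iff, mem_stabilizer_iff]
  obtain ⟨D₁, hD₁⟩ : ∃ D₁ : Subgroup G, ∀ g, g ∈ D₁ ↔ g ∈ N ∨ g * s ∈ N :=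
    ⟨extTwo N s hss hNs, mem_extTwo N s hss hNs⟩
  -- membership in `D₁` for elements fixing / swapping `a, b`
  have hD₁fix : ∀ g : G, g • a = a → (g ∈ D₁ ↔ g ∈ N) := by
    intro g hga
    rw [hD₁]
    constructor
    · rintro (h | h)
      · exact h
      · exfalso
        have h1 := ((hHmem _).mp (hNle h)).1
        rw [mul_smul, hsa] at h1
        have h2 : g • b = g • a := h1.trans hga.symm
        exact hab (smul_left_cancel g h2).symm
    · exact Or.inl
  have hD₁swap : ∀ g : G, g • a = b → (g ∈ D₁ ↔ g * s ∈ N) := by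
    intro g hga
    rw [hD₁]
    constructor
    · rintro (h | h)
      · exfalso
        have h1 := ((hHmem _).mp (hNle h)).1
        exact hab (h1.symm.trans hga)
      · exact h
    · exact Or.inr
  have hD₁le : D₁ ≤ pairStab G a b := by
    intro g hg
    rcases (hD₁ g).mp hg with hg | hg
    · exact two_stab_le_pairStab a b (hNle hg)
    · have h1 : g = (g * s) * s⁻¹ := by group
      rw [h1]
      exact (pairStab G a b).mul_mem (two_stab_le_pairStab a b (hNle hg))
        ((pairStab G a b).inv_mem hsD)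
  -- `N` has index two in `H`
  have hmul : ∀ x ∈ stabilizer G a ⊓ stabilizer G b, ∀ y ∈ stabilizer G a ⊓ stabilizer G b,
      (x * y ∈ N ↔ (x ∈ N ↔ y ∈ N)) := by
    intro x hx y hy
    have h1 := Subgroup.mul_mem_iff_of_index_two (H := N.subgroupOf
      (stabilizer G a ⊓ stabilizer G b)) hNidx (a := ⟨x, hx⟩) (b := ⟨y, hy⟩)
    rw [Subgroup.mem_subgroupOf, Subgroup.mem_subgroupOf, Subgroup.mem_subgroupOf] at h1
    exact h1
  obtain ⟨h₀, hh₀H, hh₀N⟩ : ∃ h₀ ∈ stabilizer G a ⊓ stabilizer G b, h₀ ∉ N := by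
    by_contra hcon
    push Not at hcon
    have h1 : N.relIndex (stabilizer G a ⊓ stabilizer G b) = 1 :=
      Subgroup.relIndex_eq_one.mpr hcon
    omega
  obtain ⟨hh₀a, hh₀b⟩ := (hHmem h₀).mp hh₀H
  have hconjH : ∀ x ∈ stabilizer G a ⊓ stabilizer G b,
      s * x * s ∈ stabilizer G a ⊓ stabilizer G b := by
    intro x hx
    obtain ⟨hxa, hxb⟩ := (hHmem x).mp hx
    rw [hHmem]
    constructor
    · rw [mul_smul, mul_smul, hsa, hxb, hsb]
    · rw [mul_smul, mul_smul, hsb, hxa, hsa]
  have hconjN : ∀ x ∈ stabilizer G a ⊓ stabilizer G b, (s * x * s ∈ N ↔ x ∈ N) := by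
    intro x hx
    constructor
    · intro h
      have h1 := hNs _ h
      rw [hsinv] at h1
      have h2 : s * (s * x * s) * s = x := by
        calc s * (s * x * s) * s = (s * s) * x * (s * s) := by group
          _ = x := by rw [hss, one_mul, mul_one]
      rwa [h2] at h1
    · intro h
      have h1 := hNs _ h
      rwa [hsinv] at h1
  have hidx : (D₁.subgroupOf (pairStab G a b)).index = 2 := by
    rw [Subgroup.index_eq_two_iff]
    refine ⟨⟨h₀, two_stab_le_pairStab a b hh₀H⟩, fun d => ?_⟩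
    rw [Subgroup.mem_subgroupOf, Subgroup.mem_subgroupOf]
    show Xor ((d : G) * h₀ ∈ D₁) ((d : G) ∈ D₁)
    rcases d.2 with ⟨hda, hdb⟩ | ⟨hda, hdb⟩
    · have hdH : (d : G) ∈ stabilizer G a ⊓ stabilizer G b := (hHmem _).mpr ⟨hda, hdb⟩
      have e1 : ((d : G) * h₀) • a = a := by rw [mul_smul, hh₀a, hda]
      rw [hD₁fix _ e1, hD₁fix _ hda, hmul _ hdH _ hh₀H]
      by_cases hdN : (d : G) ∈ N
      · right
        exact ⟨hdN, fun h => hh₀N (h.mp hdN)⟩
      · left
        exact ⟨⟨fun h => absurd h hdN, fun h => absurd h hh₀N⟩, hdN⟩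
    · have e1 : ((d : G) * h₀) • a = b := by rw [mul_smul, hh₀a, hda]
      have hdsH : (d : G) * s ∈ stabilizer G a ⊓ stabilizer G b := by
        rw [hHmem]
        exact ⟨by rw [mul_smul, hsa, hdb], by rw [mul_smul, hsb, hda]⟩
      have e2 : (d : G) * h₀ * s = ((d : G) * s) * (s * h₀ * s) := by
        calc (d : G) * h₀ * s = (d : G) * 1 * h₀ * s := by rw [mul_one]
          _ = (d : G) * (s * s) * h₀ * s := by rw [hss]
          _ = ((d : G) * s) * (s * h₀ * s) := by group
      rw [hD₁swap _ e1, hD₁swap _ hda, e2, hmul _ hdsH _ (hconjH _ hh₀H), hconjN _ hh₀H]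
      by_cases hdN : (d : G) * s ∈ N
      · right
        exact ⟨hdN, fun h => hh₀N (h.mp hdN)⟩
      · left
        exact ⟨⟨fun h => absurd h hdN, fun h => absurd h hh₀N⟩, hdN⟩
  obtain ⟨φ, hφ⟩ := exists_hom_of_index_two (D₁.subgroupOf (pairStab G a b)) hidx
  -- the key property for the transfer
  have claim : ∀ u g₀ : G, u • a = a → u • b = b → g₀⁻¹ * u * g₀ ∈ pairStab G a b →
      g₀ ∈ pairStab G a b ∨ g₀⁻¹ * u * g₀ ∈ D₁ := by
    intro u g₀ hua hub hw
    by_cases hu1 : u = 1
    · right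
      have h1 : g₀⁻¹ * u * g₀ = 1 := by rw [hu1]; group
      rw [h1]
      exact D₁.one_mem
    · rcases hw with ⟨hwa, hwb⟩ | ⟨hwa, hwb⟩
      · left
        have e1 : u • (g₀ • a) = g₀ • a := by
          have h1 := congrArg (fun x => g₀ • x) hwa
          simpa [mul_smul] using h1
        have e2 : u • (g₀ • b) = g₀ • b := by
          have h1 := congrArg (fun x => g₀ • x) hwb
          simpa [mul_smul] using h1
        have honly : ∀ x : Ω, u • x = x → x = a ∨ x = b := by
          intro x hx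
          by_contra hcon
          push Not at hcon
          exact hu1 (hfix3 u a b x hab (Ne.symm hcon.2) (Ne.symm hcon.1) hua hub hx)
        rcases honly _ e1 with h1 | h1 <;> rcases honly _ e2 with h2 | h2
        · exfalso
          exact hab (smul_left_cancel g₀ (h1.trans h2.symm))
        · exact Or.inl ⟨h1, h2⟩
        · exact Or.inr ⟨h1, h2⟩
        · exfalso
          exact hab (smul_left_cancel g₀ (h1.trans h2.symm))
      · right
        obtain ⟨e, he⟩ : ∃ e : Ω, e = g₀⁻¹ • a := ⟨_, rfl⟩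
        have hwe : (g₀⁻¹ * u * g₀) • e = e := by
          rw [he, mul_smul, mul_smul, smul_inv_smul, hua]
        have hea : e ≠ a := by
          intro h
          rw [h] at hwe
          exact hab (hwe.symm.trans hwa)
        have heb : e ≠ b := by
          intro h
          rw [h] at hwe
          exact hab (hwb.symm.trans hwe)
        obtain ⟨k', hk'a, hk'b, hk'c⟩ := Cfsg.Agent.H16.exists_smul3 h3 hab hac hbc hab
          (Ne.symm hea) (Ne.symm heb)
        have hk'ia : k'⁻¹ • a = a := by rw [inv_smul_eq_iff, hk'a]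
        have hk'ib : k'⁻¹ • b = b := by rw [inv_smul_eq_iff, hk'b]
        have hk'ie : k'⁻¹ • e = c := by rw [inv_smul_eq_iff, hk'c]
        have hw_eq : g₀⁻¹ * u * g₀ = k' * s * k'⁻¹ := by
          apply Cfsg.Agent.H16.eq_of_smul_eq3 hsharp hab (Ne.symm hea) (Ne.symm heb)
          · rw [hwa, mul_smul, mul_smul, hk'ia, hsa, hk'b]
          · rw [hwb, mul_smul, mul_smul, hk'ib, hsb, hk'a]
          · rw [hwe, mul_smul, mul_smul, hk'ie, hsc, hk'c]
        rw [hD₁]
        right
        rw [hw_eq]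
        have h5 := hNα k' ((hHmem k').mpr ⟨hk'a, hk'b⟩)
        have h6 : k' * s * k'⁻¹ * s = k' * (s * k' * s⁻¹)⁻¹ := by
          calc k' * s * k'⁻¹ * s = k' * s * k'⁻¹ * s⁻¹ := by rw [hsinv]
            _ = k' * (s * k' * s⁻¹)⁻¹ := by group
        rw [h6]
        exact h5
  have hh₀D : h₀ ∈ pairStab G a b := two_stab_le_pairStab a b hh₀H
  have hpow : ∀ k : ℕ, h₀ ^ k • a = a ∧ h₀ ^ k • b = b := by
    intro k
    exact (hHmem _).mp (Subgroup.pow_mem _ hh₀H k)
  have hV : MonoidHom.transfer φ h₀ = φ ⟨h₀, hh₀D⟩ := by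
    refine transfer_eq_of_one_fixed φ ⟨h₀, hh₀D⟩ ?_
    intro k g₀ hmem
    rcases claim (h₀ ^ k) g₀ (hpow k).1 (hpow k).2 hmem with h | h
    · exact Or.inl h
    · right
      rw [hφ, Subgroup.mem_subgroupOf]
      exact h
  have hne : φ ⟨h₀, hh₀D⟩ ≠ 1 := by
    rw [Ne, hφ, Subgroup.mem_subgroupOf]
    show h₀ ∉ D₁
    rw [hD₁fix _ hh₀a]
    exact hh₀N
  rcases (MonoidHom.normal_ker (MonoidHom.transfer φ)).eq_bot_or_eq_top with h | h
  · have hinj : Function.Injective (MonoidHom.transfer φ) := (MonoidHom.ker_eq_bot_iff _).mp h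
    have hVh : MonoidHom.transfer φ h₀ = -1 :=
      (Int.units_eq_one_or _).resolve_left (by rw [hV]; exact hne)
    rcases Int.units_eq_one_or (MonoidHom.transfer φ s) with h1 | h1
    · have h2 : s = 1 := hinj (h1.trans (map_one _).symm)
      rw [h2, one_smul] at hsa
      exact hab hsa
    · have h2 : s = h₀ := hinj (h1.trans hVh.symm)
      rw [h2, hh₀a] at hsa
      exact hab hsa
  · have h1 : h₀ ∈ (MonoidHom.transfer φ).ker := by
      rw [h]
      exact Subgroup.mem_top _
    rw [MonoidHom.mem_ker, hV] at h1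
    exact hne h1

end Cfsg.Agent.H19
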