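import Mathlib
import Cfsg.Agent.H19.K3H
import Cfsg.Agent.H19.ZId6
import Cfsg.Agent.S0041

/-!
# helper19: the two-point stabiliser of a simple Zassenhaus group

`zass_simple_two_stab`: in a finite simple Zassenhaus group the two-point stabiliser is cyclic and
is inverted by every element interchanging the two points.
-/

set_option autoImplicit false
set_option linter.style.haveILetI false
set_option linter.unusedSectionVars false

namespace Cfsg.Agent.H19

open Cfsg MulAction

universe u v

variable {G : Type u} {Ω : Type v} [Group G] [MulAction G Ω]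

/-- Even two-point stabiliser of half size: all elements swapping `a, b` are involutions. -/
theorem zass_even_half_swap [Finite G] [Fintype Ω] (hZ : IsZassenhausGroup G Ω) {a b : Ω}
    (hab : a ≠ b)
    (heven : Even (Nat.card (stabilizer G a ⊓ stabilizer G b : Subgroup G)))
    (hd : 2 * Nat.card (stabilizer G a ⊓ stabilizer G b : Subgroup G) = Fintype.card Ω - 2) :
    ∀ s : G, s • a = b → s • b = a → s * s = 1 := by
  classical
  haveI : Fintype G := Fintype.ofFinite G
  have hn3 := zass_three_le_card hZ
  haveI : Fact (Nat.Prime 2) := ⟨Nat.prime_two⟩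
  obtain ⟨τ, hτ⟩ := exists_prime_orderOf_dvd_card'
    (G := (stabilizer G a ⊓ stabilizer G b : Subgroup G)) 2 heven.two_dvd
  have hτ1 : (τ : G) ≠ 1 := by
    intro h
    have h1 : τ = 1 := Subtype.ext h
    rw [h1, orderOf_one] at hτ
    omega
  have hτ2 : (τ : G) * τ = 1 := by
    have h := pow_orderOf_eq_one τ
    rw [hτ, pow_two] at h
    exact congrArg Subtype.val h
  have hτmem : (τ : G) ∈ stabilizer G a ⊓ stabilizer G b := τ.2
  rw [Subgroup.mem_inf, mem_stabilizer_iff, mem_stabilizer_iff] at hτmem
  have h2' : ∀ x y x' y' : Ω, x ≠ y → x' ≠ y' → ∃ g : G, g • x = x' ∧ g • y = y' :=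
    fun x y x' y' hxy hxy' => MulAction.is_two_pretransitive_iff.mp hZ.2.1 hxy hxy'
  have key := Cfsg.Agent.S0741.involution_count h2' hZ.2.2.1 hab hτ1 hτ2 hτmem.1 hτmem.2
  intro s hsa hsb
  refine swap_invol_of_count ?_ s hsa hsb
  omega

/-- A simple Zassenhaus group has no normal subgroups of prime power index. -/
theorem zass_simple_hnil [Finite G] [Fintype Ω] [IsSimpleGroup G] (hZ : IsZassenhausGroup G Ω)
    {a b : Ω} (hab : a ≠ b) :
    ∀ q : ℕ, q.Prime →
      q ∣ Nat.card (stabilizer G a ⊓ stabilizer G b : Subgroup G) →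
      ¬ ∃ N : Subgroup G, N.Normal ∧ N.index = q ^ (Nat.card G).factorization q := by
  classical
  have hn3 := zass_three_le_card hZ
  have hcG := card_eq_of_two_pretransitive hZ.2.1 hab
  rw [Nat.card_eq_fintype_card (α := Ω)] at hcG
  rintro q hq hqd ⟨N, hN, hidx⟩
  have hqG : q ∣ Nat.card G := hqd.trans (Subgroup.card_subgroup_dvd_card _)
  rcases hN.eq_bot_or_eq_top with h | h
  · subst h
    rw [Subgroup.index_bot] at hidx
    have h1 : Fintype.card Ω ∣ q ^ (Nat.card G).factorization q := by
      rw [← hidx, hcG]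
      refine Dvd.dvd.mul_right ?_ _
      have h2 : Fintype.card Ω * Fintype.card Ω - Fintype.card Ω =
          Fintype.card Ω * (Fintype.card Ω - 1) := by
        rw [Nat.mul_sub, mul_one]
      rw [h2]
      exact Dvd.intro _ rfl
    have h3 : (Fintype.card Ω - 1) ∣ q ^ (Nat.card G).factorization q := by
      rw [← hidx, hcG]
      refine Dvd.dvd.mul_right ?_ _
      have h2 : Fintype.card Ω * Fintype.card Ω - Fintype.card Ω =
          Fintype.card Ω * (Fintype.card Ω - 1) := by
        rw [Nat.mul_sub, mul_one]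
      rw [h2]
      exact Dvd.intro_left _ rfl
    obtain ⟨i, -, hi⟩ := (Nat.dvd_prime_pow hq).mp h1
    obtain ⟨j, -, hj⟩ := (Nat.dvd_prime_pow hq).mp h3
    have hi0 : i ≠ 0 := by
      rintro rfl
      rw [pow_zero] at hi
      omega
    have hj0 : j ≠ 0 := by
      rintro rfl
      rw [pow_zero] at hj
      omega
    have hq1 : q ∣ Fintype.card Ω := by
      rw [hi]
      exact dvd_pow_self q hi0
    have hq2 : q ∣ Fintype.card Ω - 1 := by
      rw [hj]
      exact dvd_pow_self q hj0
    have hq3 : q ∣ Fintype.card Ω - (Fintype.card Ω - 1) := Nat.dvd_sub hq1 hq2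
    have h4 : Fintype.card Ω - (Fintype.card Ω - 1) = 1 := by omega
    rw [h4] at hq3
    exact hq.one_lt.ne' (Nat.dvd_one.mp hq3)
  · subst h
    rw [Subgroup.index_top] at hidx
    have h1 : 0 < (Nat.card G).factorization q :=
      hq.factorization_pos_of_dvd Nat.card_pos.ne' hqG
    have h2 : q ∣ q ^ (Nat.card G).factorization q := dvd_pow_self q h1.ne'
    rw [← hidx] at h2
    exact hq.one_lt.ne' (Nat.dvd_one.mp h2)

/-- In a finite simple Zassenhaus group the two-point stabiliser is cyclic and is inverted by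
every element interchanging the two points. -/
theorem zass_simple_two_stab [Finite G] [Fintype Ω] [IsSimpleGroup G]
    (hZ : IsZassenhausGroup G Ω) {a b : Ω} (hab : a ≠ b) :
    IsCyclic ↥(stabilizer G a ⊓ stabilizer G b : Subgroup G) ∧
      ∀ s : G, s • a = b → s • b = a →
        ∀ h ∈ (stabilizer G a ⊓ stabilizer G b : Subgroup G), s * h * s⁻¹ = h⁻¹ := by
  classical
  have hn3 := zass_three_le_card hZ
  have hpos : 0 < Nat.card (stabilizer G a ⊓ stabilizer G b : Subgroup G) := Nat.card_pos
  rcases Nat.even_or_odd (Nat.card (stabilizer G a ⊓ stabilizer G b : Subgroup G)) with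
    heven | hodd
  · have hle := Cfsg.Agent.S0741.result hZ hab heven
    obtain ⟨m, hm⟩ := heven
    rcases zass_half_or_full hZ hab hle with hfull | hhalf
    · exfalso
      obtain ⟨h3, hsharp⟩ := zass_sharp3 hZ hab hfull
      haveI := hZ.1
      exact sharp3_not_simple (G := G) (Ω := Ω) ⟨m + 1, by omega⟩ (by omega) h3 hsharp
    · have hswap := zass_even_half_swap hZ hab ⟨m, hm⟩ hhalf
      have hHmem : ∀ g : G, g ∈ stabilizer G a ⊓ stabilizer G b ↔ g • a = a ∧ g • b = b := by
        intro g
        rw [Subgroup.mem_inf, mem_stabilizer_iff, mem_stabilizer_iff]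
      have hinv : ∀ s : G, s • a = b → s • b = a →
          ∀ h ∈ (stabilizer G a ⊓ stabilizer G b : Subgroup G), s * h * s⁻¹ = h⁻¹ := by
        intro s hsa hsb h hh
        obtain ⟨hha, hhb⟩ := (hHmem h).mp hh
        have h1 : (s * h) * (s * h) = 1 :=
          hswap (s * h) (by rw [mul_smul, hha, hsa]) (by rw [mul_smul, hhb, hsb])
        have h2 : s * s = 1 := hswap s hsa hsb
        have h3 : s⁻¹ = s := inv_eq_of_mul_eq_one_left h2
        rw [h3, eq_inv_iff_mul_eq_one]
        calc s * h * s * h = (s * h) * (s * h) := by group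
          _ = 1 := h1
      refine ⟨?_, hinv⟩
      obtain ⟨s, hsa, hsb⟩ := zass_two_trans hZ hab (Ne.symm hab)
      have hcomm : ∀ x ∈ (stabilizer G a ⊓ stabilizer G b : Subgroup G),
          ∀ y ∈ (stabilizer G a ⊓ stabilizer G b : Subgroup G), x * y = y * x := by
        intro x hx y hy
        have h1 := hinv s hsa hsb x hx
        have h2 := hinv s hsa hsb y hy
        have h3 := hinv s hsa hsb (x * y) (Subgroup.mul_mem _ hx hy)
        have h4 : s * (x * y) * s⁻¹ = (s * x * s⁻¹) * (s * y * s⁻¹) := by group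
        rw [h4, h1, h2] at h3
        have h5 : (x⁻¹ * y⁻¹)⁻¹ = ((x * y)⁻¹)⁻¹ := by rw [h3]
        rw [mul_inv_rev, inv_inv, inv_inv, inv_inv] at h5
        exact h5.symm
      obtain ⟨F, hFle, hFcard, hFfix⟩ := zass_exists_kernel hZ hab
      have hreg := regular_of_kernel a F hFle hFcard hFfix
      have hFn : ∀ g ∈ stabilizer G a, ∀ u ∈ F, g * u * g⁻¹ ∈ F :=
        fun g hg u hu => zass_conj_mem_kernel hZ a F hFle hFcard hFfix g hg u hu
      obtain ⟨hFcomm, -⟩ := Cfsg.Agent.S0738.result hZ hab (by omega) F hFle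
        (subgroupOf_normal_of_conj_mem F hFn) hreg
      haveI := hFcomm
      have hF1 : 1 < Nat.card F := by omega
      have hFbot : F ≠ ⊥ := by
        intro h
        rw [h, Subgroup.card_bot] at hF1
        omega
      refine Cfsg.Agent.S0041.result (stabilizer G a ⊓ stabilizer G b) F hFbot ?_ ?_
        (Or.inl ⟨⟨fun x y => Subtype.ext (hcomm x.1 x.2 y.1 y.2)⟩⟩)
      · intro h hh
        obtain ⟨hha, hhb⟩ := (hHmem h).mp hh
        have hhia : h⁻¹ • a = a := by rw [inv_smul_eq_iff, hha]
        rw [Subgroup.mem_normalizer_iff]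
        intro u
        constructor
        · intro hu
          exact hFn h hha u hu
        · intro hu
          have h1 := hFn h⁻¹ hhia _ hu
          have h2 : h⁻¹ * (h * u * h⁻¹) * h⁻¹⁻¹ = u := by group
          rwa [h2] at h1
      · intro h hh hh1
        obtain ⟨hha, hhb⟩ := (hHmem h).mp hh
        rw [eq_bot_iff]
        intro k hk
        rw [Subgroup.mem_inf, Subgroup.mem_centralizer_iff] at hk
        obtain ⟨hkF, hkc⟩ := hk
        rw [Subgroup.mem_bot]
        by_contra hk1
        have hkc' : h * k = k * h := hkc h rfl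
        have hka : k • a = a := hFle hkF
        have hkb : k • b ≠ b := fun h0 => hab (hFfix k hkF hk1 b h0).symm
        have hkba : k • b ≠ a := by
          intro h0
          have h2 : k • b = k • a := h0.trans hka.symm
          exact hab (smul_left_cancel k h2).symm
        have hfixkb : h • (k • b) = k • b := by
          rw [← mul_smul, hkc', mul_smul, hhb]
        exact hh1 (hZ.2.2.1 h a b (k • b) hab (Ne.symm hkb) (Ne.symm hkba) hha hhb hfixkb)
  · have hnil := zass_simple_hnil hZ hab
    obtain ⟨hcyc, -, hinv⟩ := Cfsg.Agent.S0739.result hZ hab hodd hnil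
    exact ⟨hcyc, hinv⟩

end Cfsg.Agent.H19
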