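import Mathlib
import Cfsg.Prelude.Def_Characters
import Cfsg.Agent.H79.CharBasic
import Cfsg.Agent.H4.Ito
import Cfsg.Agent.H4.IrrCount
import Cfsg.Agent.H82.Irr

/-!
# helper19: Knörr's bound `k(G) ≤ |P|` in the regular-orbit case

`P` a normal abelian Sylow `p`-subgroup of `G`, `g ∈ P` with `C_G(g) = P`.  Every irreducible
character has degree prime to `p` (Itô), hence does not vanish on `p`-elements; Burnside's
inequality (AM–GM on Galois conjugates) then gives `∑_χ |χ(g^i)|² ≥ k(G)` on average, while the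
second orthogonality relation gives `∑_χ |χ(g^i)|² = |C_G(g)| = |P|`.
-/

set_option autoImplicit false
set_option linter.style.haveILetI false
set_option linter.unusedSectionVars false

universe u

namespace Cfsg.Agent.H19

open Cfsg Cfsg.Agent.H4 Polynomial
open scoped ComplexConjugate

/-- A character of degree prime to `p` does not vanish at a `p`-element. -/
theorem char_ne_zero_of_pElement {G : Type*} [Group G] {V : Type*} [AddCommGroup V] [Module ℂ V]
    [FiniteDimensional ℂ V] (ρ : Representation ℂ G V) (p : ℕ) [hp : Fact p.Prime] (s : G)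
    (k : ℕ) (hs : s ^ p ^ k = 1) (hdeg : ¬ p ∣ Module.finrank ℂ V) : ρ.character s ≠ 0 := by
  intro h0
  by_cases hs1 : s = 1
  · rw [hs1, Representation.char_one] at h0
    have : Module.finrank ℂ V = 0 := by exact_mod_cast h0
    exact hdeg (by rw [this]; exact dvd_zero p)
  · obtain ⟨j, hj, hjo⟩ := (Nat.dvd_prime_pow hp.out).mp (orderOf_dvd_of_pow_eq_one hs)
    have hj0 : j ≠ 0 := by
      rintro rfl
      rw [pow_zero, orderOf_eq_one_iff] at hjo
      exact hs1 hjo
    obtain ⟨j', rfl⟩ := Nat.exists_eq_succ_of_ne_zero hj0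
    have hm : 0 < p ^ (j' + 1) := pow_pos hp.out.pos _
    have hζ := Cfsg.Agent.H79.stdRoot_spec hm
    obtain ⟨f, -, hf1, hf⟩ := Cfsg.Agent.H79.char_pow_eq_eval ρ s (p ^ (j' + 1)) hm
      (by rw [← hjo]; exact pow_orderOf_eq_one s) _ hζ
    have h1 := hf 1
    rw [pow_one, pow_one, h0] at h1
    have hdvd : cyclotomic (p ^ (j' + 1)) ℤ ∣ f := by
      rw [cyclotomic_eq_minpoly hζ hm]
      exact minpoly.isIntegrallyClosed_dvd (hζ.isIntegral hm) h1.symm
    obtain ⟨q, hq⟩ := hdvd
    have h2 := congrArg (eval 1) hq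
    rw [eval_mul, eval_one_cyclotomic_prime_pow, hf1] at h2
    apply hdeg
    have : (p : ℤ) ∣ (Module.finrank ℂ V : ℤ) := ⟨_, h2⟩
    exact_mod_cast this

/-- A finite group all of whose irreducible characters are linear is commutative. -/
theorem comm_of_forall_irr_linear {Q : Type u} [Group Q] [Finite Q]
    (h : ∀ χ : IrrCharacter Q, (χ : Q → ℂ) 1 = 1) : ∀ a b : Q, a * b = b * a := by
  classical
  letI := fintypeIrr Q
  have h1 := sum_irr_sq (G := Q)
  rw [finsum_irr_eq_sum] at h1
  have h2 : ∑ χ : IrrCharacter Q, (χ : Q → ℂ) 1 ^ 2 = (Nat.card (IrrCharacter Q) : ℂ) := by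
    rw [Finset.sum_congr rfl fun χ _ => by rw [h χ, one_pow], Finset.sum_const,
      Finset.card_univ, Nat.card_eq_fintype_card]
    simp
  rw [h2] at h1
  have h3 : Nat.card (IrrCharacter Q) = Nat.card Q := by exact_mod_cast h1
  rw [card_irr_eq_card_conjClasses] at h3
  have h4 : commProb Q = 1 := by
    rw [commProb_def', h3]
    have : (Nat.card Q : ℚ) ≠ 0 := by exact_mod_cast Nat.card_pos.ne'
    exact div_self this
  have h5 := (commProb_eq_one_iff (M := Q)).mp h4
  intro a b
  exact h5.is_comm.comm a b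

section Main

variable {G : Type u} [Group G] [Finite G]

theorem centralizer_pow_coprime (g : G) (i : ℕ) (hi : i.Coprime (Nat.card G)) (c : G) :
    c * g ^ i * c⁻¹ = g ^ i ↔ c ∈ Subgroup.centralizer ({g} : Set G) := by
  have hz : Subgroup.zpowers (g ^ i) = Subgroup.zpowers g := by
    apply Subgroup.eq_of_le_of_card_ge
    · rw [Subgroup.zpowers_le]
      exact Subgroup.npow_mem_zpowers g _
    · have hc : (orderOf g).Coprime i :=
        (Nat.Coprime.coprime_dvd_left (orderOf_dvd_natCard g) hi.symm)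
      rw [Nat.card_zpowers, Nat.card_zpowers, hc.orderOf_pow]
  rw [Subgroup.mem_centralizer_iff]
  constructor
  · intro h x hx
    rw [Set.mem_singleton_iff] at hx
    subst hx
    have hcomm : Commute c (x ^ i) := by
      have : c * x ^ i = x ^ i * c := by
        have := congrArg (· * c) h
        simpa using this
      exact this
    have hx : x ∈ Subgroup.zpowers (x ^ i) := by rw [hz]; exact Subgroup.mem_zpowers x
    obtain ⟨j, hj⟩ := Subgroup.mem_zpowers_iff.mp hx
    have := (hcomm.zpow_right j).eq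
    rw [hj] at this
    exact this.symm
  · intro h
    have hcomm : Commute c g := (h g rfl).symm
    rw [(hcomm.pow_right i).eq, mul_inv_cancel_right]

/-- **Knörr's bound in the regular orbit case.** -/
theorem card_irr_le_of_self_centralizing (p : ℕ) [Fact p.Prime] (P : Sylow p G)
    [hPn : (P : Subgroup G).Normal] (hab : ∀ a ∈ P, ∀ b ∈ P, a * b = b * a) (g : G) (hg : g ∈ P)
    (hC : Subgroup.centralizer ({g} : Set G) = P) :
    Nat.card (IrrCharacter G) ≤ Nat.card P ∧
      (Nat.card (IrrCharacter G) = Nat.card P → commutator G ≤ P) := by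
  classical
  letI : Fintype G := Fintype.ofFinite G
  letI := fintypeIrr G
  set n := Fintype.card G with hn
  set T := (Finset.range n).filter (fun i => i.Coprime n) with hT
  have hn0 : 0 < n := Fintype.card_pos
  have hTne : T.Nonempty := by
    by_cases h1 : n = 1
    · refine ⟨0, ?_⟩
      rw [hT, Finset.mem_filter, Finset.mem_range]
      exact ⟨hn0, by rw [h1]; exact Nat.coprime_one_right 0⟩
    · refine ⟨1, ?_⟩
      rw [hT, Finset.mem_filter, Finset.mem_range]
      exact ⟨by omega, Nat.coprime_one_left n⟩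
  have hTpos : (0 : ℝ) < T.card := by exact_mod_cast Finset.card_pos.mpr hTne
  have hncard : n = Nat.card G := (Nat.card_eq_fintype_card).symm
  -- Burnside's inequality for each irreducible character
  have hB : ∀ χ : IrrCharacter G, (T.card : ℝ) ≤ ∑ i ∈ T, ‖(χ : G → ℂ) (g ^ i)‖ ^ 2 := by
    intro χ
    obtain ⟨m, ρ, hρ, hχ⟩ := χ.2
    haveI := hρ
    have hdeg : ¬ p ∣ Module.finrank ℂ (Fin m → ℂ) := by
      intro hdvd
      have h1 := ito_dvd_index ρ (P : Subgroup G) hab
      exact P.not_dvd_index (hdvd.trans h1)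
    obtain ⟨k, hk⟩ := (P.isPGroup' ⟨g, hg⟩)
    have hgk : g ^ p ^ k = 1 := by
      have := congrArg Subtype.val hk
      simpa using this
    have hne : ρ.character g ≠ 0 := char_ne_zero_of_pElement ρ p g k hgk hdeg
    have := Cfsg.Agent.H79.card_le_sum_norm_sq_char_pow ρ g hne
    rw [hχ] at this
    exact this
  -- second orthogonality
  have hO : ∀ i ∈ T, ∑ χ : IrrCharacter G, ‖(χ : G → ℂ) (g ^ i)‖ ^ 2 = (Nat.card P : ℝ) := by
    intro i hi
    rw [hT, Finset.mem_filter] at hi
    have hco := column_orthogonality (G := G) (g ^ i) (g ^ i)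
    rw [finsum_irr_eq_sum] at hco
    have hcard : Nat.card {c : G // c * g ^ i * c⁻¹ = g ^ i} = Nat.card P := by
      apply Nat.card_congr
      apply Equiv.subtypeEquivRight
      intro c
      rw [centralizer_pow_coprime g i (by rw [← hncard]; exact hi.2) c, hC]
    rw [hcard] at hco
    have e : ∀ χ : IrrCharacter G, (χ : G → ℂ) (g ^ i) * conj ((χ : G → ℂ) (g ^ i)) =
        ((‖(χ : G → ℂ) (g ^ i)‖ ^ 2 : ℝ) : ℂ) := by
      intro χ
      rw [Complex.mul_conj, Complex.normSq_eq_norm_sq]
    rw [Finset.sum_congr rfl fun χ _ => e χ, ← Complex.ofReal_sum] at hco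
    exact_mod_cast hco
  have hdouble : ∑ χ : IrrCharacter G, ∑ i ∈ T, ‖(χ : G → ℂ) (g ^ i)‖ ^ 2 =
      (T.card : ℝ) * Nat.card P := by
    rw [Finset.sum_comm, Finset.sum_congr rfl hO, Finset.sum_const, nsmul_eq_mul]
  have hk : Nat.card (IrrCharacter G) = Fintype.card (IrrCharacter G) := Nat.card_eq_fintype_card
  have hle : (Fintype.card (IrrCharacter G) : ℝ) * T.card ≤ (T.card : ℝ) * Nat.card P := by
    rw [← hdouble]
    calc (Fintype.card (IrrCharacter G) : ℝ) * T.card
        = ∑ _χ : IrrCharacter G, (T.card : ℝ) := by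
          rw [Finset.sum_const, Finset.card_univ, nsmul_eq_mul]
      _ ≤ ∑ χ : IrrCharacter G, ∑ i ∈ T, ‖(χ : G → ℂ) (g ^ i)‖ ^ 2 :=
          Finset.sum_le_sum fun χ _ => hB χ
  refine ⟨?_, ?_⟩
  · rw [hk]
    have : (Fintype.card (IrrCharacter G) : ℝ) ≤ Nat.card P := by
      rw [mul_comm] at hle
      exact le_of_mul_le_mul_left hle hTpos
    exact_mod_cast this
  · intro heq
    rw [hk] at heq
    -- equality in Burnside's inequality for every irreducible character
    have hzero : ∑ χ : IrrCharacter G, (∑ i ∈ T, ‖(χ : G → ℂ) (g ^ i)‖ ^ 2 - (T.card : ℝ)) = 0 := by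
      rw [Finset.sum_sub_distrib, hdouble, Finset.sum_const, Finset.card_univ, nsmul_eq_mul, heq]
      ring
    have hall := (Finset.sum_eq_zero_iff_of_nonneg (fun χ _ => sub_nonneg.mpr (hB χ))).mp hzero
    -- characters of `G ⧸ P` are linear
    have hlin : ∀ χ' : IrrCharacter (G ⧸ (P : Subgroup G)), (χ' : G ⧸ (P : Subgroup G) → ℂ) 1 = 1 := by
      intro χ'
      have h1 := hall (Cfsg.Agent.H82.inflate (P : Subgroup G) χ') (Finset.mem_univ _)
      have e : ∀ i ∈ T, ‖(Cfsg.Agent.H82.inflate (P : Subgroup G) χ' : G → ℂ) (g ^ i)‖ ^ 2 =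
          ‖(χ' : G ⧸ (P : Subgroup G) → ℂ) 1‖ ^ 2 := by
        intro i _
        rw [Cfsg.Agent.H82.inflate_apply,
          (QuotientGroup.eq_one_iff (g ^ i)).mpr (Subgroup.pow_mem _ hg i)]
      rw [Finset.sum_congr rfl e, Finset.sum_const, nsmul_eq_mul] at h1
      obtain ⟨d, hd0, hd⟩ := irr_one_eq_natCast χ'
      rw [hd] at h1 ⊢
      have h2 : (T.card : ℝ) * (‖(d : ℂ)‖ ^ 2 - 1) = 0 := by linarith
      rcases mul_eq_zero.mp h2 with h3 | h3
      · exact absurd h3 hTpos.ne'
      · rw [Complex.norm_natCast] at h3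
        have h4 : (d : ℝ) ^ 2 = 1 := by linarith
        have h5 : d ^ 2 = 1 := by exact_mod_cast h4
        have h6 : d = 1 := by nlinarith
        rw [h6, Nat.cast_one]
    have hcomm := comm_of_forall_irr_linear hlin
    rw [commutator_def, Subgroup.commutator_le]
    intro a _ b _
    rw [← QuotientGroup.eq_one_iff, commutatorElement_def]
    have := hcomm (a : G ⧸ (P : Subgroup G)) (b : G ⧸ (P : Subgroup G))
    rw [QuotientGroup.mk_mul, QuotientGroup.mk_mul, QuotientGroup.mk_mul, QuotientGroup.mk_inv,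
      QuotientGroup.mk_inv, this, mul_inv_cancel_right, mul_inv_cancel]

end Main

end Cfsg.Agent.H19
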