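import Cfsg.Agent.H85.PtExDefs

/-!
# S5973-EX-MINUSPROD (helper19, for helper85): product-space form of `StMinusSum`.
-/

set_option autoImplicit false

namespace Cfsg.Agent.H19.PtEx

open Cfsg.Agent.H45 Cfsg.Agent.H77.Tm Module

universe u

section
variable {F : Type u} [Field F] {V : Type u} [AddCommGroup V] [Module F V]
  {C : Type u} [AddCommGroup C] [Module F C]

theorem pol_prod_apply (Q : QuadraticForm F V) (QC : QuadraticForm F C) (x y : V × C) :
    pol (Q.prod QC) x y =
      QuadraticMap.polar (⇑Q) x.1 y.1 + QuadraticMap.polar (⇑QC) x.2 y.2 := by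
  rw [pol, QuadraticMap.polarBilin_apply_apply, QuadraticMap.polar_prod]

/-- finrank of the comap of a subspace contained in the range of an injective map. -/
theorem finrank_comap_of_le_range {W : Type u} [AddCommGroup W] [Module F W] (f : V →ₗ[F] W)
    (hf : Function.Injective f) (U : Submodule F W) (hU : U ≤ LinearMap.range f) :
    Module.finrank F ↥(U.comap f) = Module.finrank F ↥U := by
  have h1 : (U.comap f).map f = U := by
    apply le_antisymm
    · exact Submodule.map_comap_le f U
    · intro x hx
      obtain ⟨v, rfl⟩ := hU hx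
      exact ⟨v, hx, rfl⟩
  have h2 := (Submodule.equivMapOfInjective f hf (U.comap f)).finrank_eq
  rw [h2, h1]

theorem minusProd (hMS : Cfsg.Agent.H77.Tm.StMinusSum.{u, u}) :
    Cfsg.Agent.H85.PtEx.StMinusProd.{u} := by
  intro F _ _ V _ _ _ C _ _ _ Q QC e₁ e₂ hQ hQC hV hC hUV hUC
  refine (hMS F (V × C) (Q.prod QC) (LinearMap.range (LinearMap.inl F V C))
    (LinearMap.range (LinearMap.inr F V C)) e₁ e₂ ?_ ?_ ?_ ?_ ?_ ?_ ?_).imp
    fun M hM => ⟨hM.2.1, hM.2.2⟩
  · rw [eq_bot_iff]
    rintro x ⟨⟨v, rfl⟩, hx⟩
    have hv : v = 0 := by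
      apply hQ
      intro y
      have := hx (LinearMap.inl F V C y) ⟨y, rfl⟩
      rw [pol_prod_apply] at this
      simp only [LinearMap.inl_apply, QuadraticMap.polar_zero_left, add_zero] at this
      rw [QuadraticMap.polar_comm]
      exact this
    subst hv
    exact Submodule.mem_bot F |>.mpr (by simp)
  · rw [eq_bot_iff]
    rintro x ⟨⟨c, rfl⟩, hx⟩
    have hc : c = 0 := by
      apply hQC
      intro y
      have := hx (LinearMap.inr F V C y) ⟨y, rfl⟩
      rw [pol_prod_apply] at this
      simp only [LinearMap.inr_apply, QuadraticMap.polar_zero_left, zero_add] at this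
      rw [QuadraticMap.polar_comm]
      exact this
    subst hc
    exact Submodule.mem_bot F |>.mpr (by simp)
  · rintro x ⟨v, rfl⟩ y ⟨c, rfl⟩
    rw [QuadraticMap.polar_prod]
    simp
  · rw [LinearMap.finrank_range_of_inj LinearMap.inl_injective, hV]
  · rw [LinearMap.finrank_range_of_inj LinearMap.inr_injective, hC]
  · intro U hU hTS
    have h1 := hUV (U.comap (LinearMap.inl F V C)) (by
      intro v hv
      have := hTS _ hv
      simpa using this)
    rwa [finrank_comap_of_le_range _ LinearMap.inl_injective U hU] at h1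
  · intro U hU hTS
    have h1 := hUC (U.comap (LinearMap.inr F V C)) (by
      intro v hv
      have := hTS _ hv
      simpa using this)
    rwa [finrank_comap_of_le_range _ LinearMap.inr_injective U hU] at h1

end

example (hMS : Cfsg.Agent.H77.Tm.StMinusSum.{u, u}) : Cfsg.Agent.H85.PtEx.StMinusProd.{u} :=
  minusProd hMS

end Cfsg.Agent.H19.PtEx
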