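import Mathlib
import Cfsg.Agent.S0016

/-!
# Nilpotent groups of odd order whose abelian subgroups are cyclic are abelian (helper19)

* `cyclic_subgroup_eq_of_card` : in a finite cyclic group, subgroups of equal order coincide
* `unique_order_p_of_abelian_cyclic` : a finite `p`-group whose abelian subgroups are cyclic has at
  most one subgroup of order `p`
* `comm_of_nilpotent_of_abelian_cyclic` : a finite nilpotent group of odd order whose abelian
  subgroups are all cyclic is commutative (its Sylow subgroups are cyclic by S0016)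
-/

set_option autoImplicit false
set_option linter.style.haveILetI false
set_option linter.unusedSectionVars false

namespace Cfsg.Agent.H19

theorem cyclic_subgroup_eq_of_card {A : Type*} [Group A] [Finite A] [IsCyclic A]
    (H K : Subgroup A) (n : ℕ) (hn : 0 < n) (hH : Nat.card H = n) (hK : Nat.card K = n) :
    H = K := by
  classical
  haveI : Fintype A := Fintype.ofFinite A
  have hle := IsCyclic.card_pow_eq_one_le (α := A) hn
  have hsub : ∀ L : Subgroup A, Nat.card L = n → ∀ x, x ∈ L ↔ x ^ n = 1 := by
    intro L hL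
    have h1 : (Finset.univ.filter (fun a : A => a ∈ L)) ⊆
        Finset.univ.filter (fun a : A => a ^ n = 1) := by
      intro x hx
      rw [Finset.mem_filter] at hx ⊢
      refine ⟨hx.1, ?_⟩
      have h2 : (⟨x, hx.2⟩ : L) ^ Nat.card L = 1 := pow_card_eq_one'
      rw [hL] at h2
      exact congrArg Subtype.val h2
    have h2 : (Finset.univ.filter (fun a : A => a ∈ L)).card = n := by
      rw [← hL, Nat.card_eq_fintype_card, Fintype.card_subtype]
    have h3 := Finset.eq_of_subset_of_card_le h1 (by rw [h2]; exact hle)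
    intro x
    have h4 : x ∈ Finset.univ.filter (fun a : A => a ∈ L) ↔
        x ∈ Finset.univ.filter (fun a : A => a ^ n = 1) := by rw [h3]
    simpa using h4
  ext x
  rw [hsub H hH, hsub K hK]

theorem unique_order_p_of_abelian_cyclic {S : Type*} [Group S] [Finite S] (p : ℕ) [Fact p.Prime]
    (hS : IsPGroup p S)
    (hcyc : ∀ A : Subgroup S, (∀ x ∈ A, ∀ y ∈ A, x * y = y * x) → IsCyclic A)
    (H K : Subgroup S) (hH : Nat.card H = p) (hK : Nat.card K = p) : H = K := by
  classical
  have hp : p.Prime := Fact.out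
  haveI : Nontrivial S := by
    have h1 : 1 < Nat.card S :=
      lt_of_lt_of_le (by rw [hH]; exact hp.one_lt) (Subgroup.card_le_card_group H)
    exact Finite.one_lt_card_iff_nontrivial.mp h1
  have hcen : ⊥ < Subgroup.center S := hS.bot_lt_center
  have hpc : p ∣ Nat.card (Subgroup.center S) := by
    have h1 : IsPGroup p (Subgroup.center S) := hS.to_subgroup _
    obtain ⟨n, hn⟩ := IsPGroup.iff_card.mp h1
    have hn0 : n ≠ 0 := by
      rintro rfl
      rw [pow_zero] at hn
      exact hcen.ne' (Subgroup.card_eq_one.mp hn)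
    rw [hn]
    exact dvd_pow_self p hn0
  obtain ⟨z, hz⟩ := exists_prime_orderOf_dvd_card' p hpc
  have hzS : orderOf (z : S) = p := by rw [Subgroup.orderOf_coe]; exact hz
  have hZcard : Nat.card (Subgroup.zpowers (z : S)) = p := by rw [Nat.card_zpowers, hzS]
  have hzc : ∀ x : S, x * (z : S) = (z : S) * x := fun x => Subgroup.mem_center_iff.mp z.2 x
  have hZc : ∀ w ∈ Subgroup.zpowers (z : S), ∀ x : S, x * w = w * x := by
    intro w hw x
    obtain ⟨i, rfl⟩ := Subgroup.mem_zpowers_iff.mp hw
    exact Commute.zpow_right (hzc x) i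
  have key : ∀ H : Subgroup S, Nat.card H = p → H = Subgroup.zpowers (z : S) := by
    intro H hH
    haveI : IsCyclic H := isCyclic_of_prime_card hH
    have hHab : ∀ x ∈ H, ∀ y ∈ H, x * y = y * x := by
      intro x hx y hy
      obtain ⟨g, hg⟩ := IsCyclic.exists_generator (α := H)
      obtain ⟨i, hi⟩ := Subgroup.mem_zpowers_iff.mp (hg ⟨x, hx⟩)
      obtain ⟨j, hj⟩ := Subgroup.mem_zpowers_iff.mp (hg ⟨y, hy⟩)
      have h1 : (⟨x, hx⟩ : H) * ⟨y, hy⟩ = ⟨y, hy⟩ * ⟨x, hx⟩ := by
        rw [← hi, ← hj]
        exact zpow_mul_comm g i j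
      exact congrArg Subtype.val h1
    obtain ⟨A, hA⟩ : ∃ A : Subgroup S, A = H ⊔ Subgroup.zpowers (z : S) := ⟨_, rfl⟩
    have hHA : H ≤ A := hA ▸ le_sup_left
    have hZA : Subgroup.zpowers (z : S) ≤ A := hA ▸ le_sup_right
    have hA1 : A ≤ Subgroup.centralizer (H : Set S) := by
      rw [hA]
      apply sup_le
      · intro x hx
        rw [Subgroup.mem_centralizer_iff]
        intro y hy
        exact hHab y hy x hx
      · intro w hw
        rw [Subgroup.mem_centralizer_iff]
        intro y _
        exact hZc w hw y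
    have hA2 : A ≤ Subgroup.centralizer (A : Set S) := by
      conv_lhs => rw [hA]
      apply sup_le
      · intro h hh
        rw [Subgroup.mem_centralizer_iff]
        intro y hy
        exact ((Subgroup.mem_centralizer_iff.mp (hA1 hy)) h hh).symm
      · intro w hw
        rw [Subgroup.mem_centralizer_iff]
        intro y _
        exact hZc w hw y
    have hAab : ∀ x ∈ A, ∀ y ∈ A, x * y = y * x := by
      intro x hx y hy
      exact Subgroup.mem_centralizer_iff.mp (hA2 hy) x hx
    haveI : IsCyclic A := hcyc A hAab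
    have h1 : Nat.card (H.subgroupOf A) = p := by
      rw [Nat.card_congr (Subgroup.subgroupOfEquivOfLe hHA).toEquiv, hH]
    have h2 : Nat.card ((Subgroup.zpowers (z : S)).subgroupOf A) = p := by
      rw [Nat.card_congr (Subgroup.subgroupOfEquivOfLe hZA).toEquiv, hZcard]
    have h3 := cyclic_subgroup_eq_of_card _ _ p hp.pos h1 h2
    ext x
    constructor
    · intro hx
      have h4 : (⟨x, hHA hx⟩ : A) ∈ H.subgroupOf A := Subgroup.mem_subgroupOf.mpr hx
      rw [h3] at h4
      exact Subgroup.mem_subgroupOf.mp h4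
    · intro hx
      have h4 : (⟨x, hZA hx⟩ : A) ∈ (Subgroup.zpowers (z : S)).subgroupOf A :=
        Subgroup.mem_subgroupOf.mpr hx
      rw [← h3] at h4
      exact Subgroup.mem_subgroupOf.mp h4
  rw [key H hH, key K hK]

theorem comm_of_nilpotent_of_abelian_cyclic {K : Type*} [Group K] [Finite K]
    (hnil : Group.IsNilpotent K) (hodd : Odd (Nat.card K))
    (hcyc : ∀ A : Subgroup K, (∀ x ∈ A, ∀ y ∈ A, x * y = y * x) → IsCyclic A) :
    ∀ x y : K, x * y = y * x := by
  classical
  have hsyl : ∀ (p : ℕ) (_ : p.Prime) (P : Sylow p K) (x y : (P : Subgroup K)),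
      x * y = y * x := by
    intro p hp P x y
    haveI : Fact p.Prime := ⟨hp⟩
    have hcycP : ∀ A : Subgroup (P : Subgroup K), (∀ x ∈ A, ∀ y ∈ A, x * y = y * x) →
        IsCyclic A := by
      intro A hA
      haveI : IsCyclic (A.map (P : Subgroup K).subtype) := hcyc _ (by
        rintro _ ⟨x, hx, rfl⟩ _ ⟨y, hy, rfl⟩
        rw [← map_mul, ← map_mul, hA x hx y hy])
      exact (A.equivMapOfInjective _ (Subgroup.subtype_injective _)).isCyclic.mpr inferInstance
    have huniq := unique_order_p_of_abelian_cyclic p P.isPGroup' hcycP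
    have hcases := Cfsg.Agent.S0016.result p P.isPGroup' huniq
    have hcP : IsCyclic (P : Subgroup K) := by
      rcases hcases with h | ⟨h2, -⟩
      · exact h
      · have h1 : Nat.card (P : Subgroup K) ∣ Nat.card K := Subgroup.card_subgroup_dvd_card _
        obtain ⟨n, hn⟩ := IsPGroup.iff_card.mp P.isPGroup'
        have hn0 : n = 0 := by
          by_contra hne
          have hpK : p ∣ Nat.card K := dvd_trans (by rw [hn]; exact dvd_pow_self p hne) h1
          rw [h2] at hpK
          exact (Nat.not_even_iff_odd.mpr hodd) (even_iff_two_dvd.mpr hpK)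
        rw [hn0, pow_zero] at hn
        haveI : Subsingleton (P : Subgroup K) := (Nat.card_eq_one_iff_unique.mp hn).1
        exact isCyclic_of_subsingleton
    obtain ⟨g, hg⟩ := hcP.exists_generator
    obtain ⟨i, hi⟩ := Subgroup.mem_zpowers_iff.mp (hg x)
    obtain ⟨j, hj⟩ := Subgroup.mem_zpowers_iff.mp (hg y)
    rw [← hi, ← hj]
    exact zpow_mul_comm g i j
  have htfae := (Group.isNilpotent_of_finite_tfae (G := K)).out 0 4
  obtain ⟨e⟩ := htfae.mp hnil
  intro x y
  have h1 : e.symm x * e.symm y = e.symm y * e.symm x := by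
    funext p
    funext P
    exact hsyl p (Nat.prime_of_mem_primeFactors p.2) P _ _
  have h2 := congrArg e h1
  rwa [map_mul, map_mul, e.apply_symm_apply, e.apply_symm_apply] at h2

end Cfsg.Agent.H19
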