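import Mathlib
import Cfsg.Agent.H19.PZ
import Cfsg.Agent.H19.RegN1
import Cfsg.Agent.H19.ZP4
import Cfsg.Agent.S0041

/-!
# Regular normal subgroups of "pre-Zassenhaus" groups (helper19)

`G` doubly transitive on `Ω`, three-point stabilizers trivial, some two-point stabilizer
nontrivial, `N` a regular normal subgroup, `K₀ ≤ G_a` the Frobenius kernel of `G_a`.

* `regn_conj_trans`, `regn_free` : `K₀` acts (by conjugation) regularly on `N ∖ {1}`
* `regn_exp_two`, `regn_comm` : `N` is an elementary abelian 2-group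
* `regn_kernel_comm` : `K₀` is abelian (nilpotent, odd order, abelian subgroups cyclic)
-/

set_option autoImplicit false
set_option linter.style.haveILetI false
set_option linter.unusedSectionVars false

namespace Cfsg.Agent.H19

open MulAction

variable {G Ω : Type*} [Group G] [MulAction G Ω]

theorem regn_conj_trans [Finite G] [Fintype Ω] (N : Subgroup G) (hNn : N.Normal)
    (hNr : ∀ n ∈ N, ∀ x : Ω, n • x = x → n = 1)
    (a : Ω) (K₀ : Subgroup G) (hKa : K₀ ≤ stabilizer G a)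
    (hKcard : Nat.card K₀ + 1 = Fintype.card Ω)
    (hKfix : ∀ u ∈ K₀, u ≠ 1 → ∀ c : Ω, u • c = c → c = a)
    (u : G) (hu : u ∈ N) (hu1 : u ≠ 1) (w : G) (hw : w ∈ N) (hw1 : w ≠ 1) :
    ∃ k ∈ K₀, k * u * k⁻¹ = w := by
  have hua : u • a ≠ a := fun h => hu1 (hNr u hu a h)
  have hwa : w • a ≠ a := fun h => hw1 (hNr w hw a h)
  obtain ⟨k, hk, hkc⟩ := zass_kernel_regular a K₀ hKa hKcard hKfix (u • a) (w • a) hua hwa
  refine ⟨k, hk, ?_⟩
  have hka : k • a = a := hKa hk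
  have hkinv : k⁻¹ • a = a := by rw [inv_smul_eq_iff, hka]
  have h1 : (w⁻¹ * (k * u * k⁻¹)) • a = a := by
    rw [mul_smul, mul_smul, mul_smul, hkinv, hkc, inv_smul_smul]
  have h2 := hNr _ (N.mul_mem (N.inv_mem hw) (hNn.conj_mem u hu k)) a h1
  exact (inv_mul_eq_one.mp h2).symm

theorem regn_free (N : Subgroup G)
    (hNr : ∀ n ∈ N, ∀ x : Ω, n • x = x → n = 1)
    (a : Ω) (K₀ : Subgroup G) (hKa : K₀ ≤ stabilizer G a)
    (hKfix : ∀ u ∈ K₀, u ≠ 1 → ∀ c : Ω, u • c = c → c = a)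
    (k : G) (hk : k ∈ K₀) (hk1 : k ≠ 1) (u : G) (hu : u ∈ N) (hu1 : u ≠ 1) :
    k * u * k⁻¹ ≠ u := by
  intro h
  have hka : k • a = a := hKa hk
  have h1 : k • (u • a) = u • a := by
    have h2 : (k * u * k⁻¹) • (k • a) = k • (u • a) := by
      rw [mul_smul, mul_smul, inv_smul_smul]
    rw [← h2, h, hka]
  have h3 := hKfix k hk hk1 (u • a) h1
  exact hu1 (hNr u hu a h3)

/-- Elements of `N` centralized by a non-identity element of `G_{ab}` move `a` to `a` or `b`. -/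
theorem regn_centralizer
    (h3 : ∀ g : G, ∀ a b c : Ω, a ≠ b → b ≠ c → a ≠ c → g • a = a → g • b = b → g • c = c →
      g = 1)
    {a b : Ω} (hab : a ≠ b) (h₀ : G) (h₀1 : h₀ ≠ 1) (h₀a : h₀ • a = a) (h₀b : h₀ • b = b)
    (u : G) (hc : h₀ * u * h₀⁻¹ = u) : u • a = a ∨ u • a = b := by
  have h1 : h₀ • (u • a) = u • a := by
    have h2 : (h₀ * u * h₀⁻¹) • (h₀ • a) = h₀ • (u • a) := by
      rw [mul_smul, mul_smul, inv_smul_smul]
    rw [← h2, hc, h₀a]
  by_contra hcon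
  push Not at hcon
  exact h₀1 (h3 h₀ a b (u • a) hab (Ne.symm hcon.2) (Ne.symm hcon.1) h₀a h₀b h1)

theorem regn_conj_e (N : Subgroup G) (hNn : N.Normal)
    (hNr : ∀ n ∈ N, ∀ x : Ω, n • x = x → n = 1)
    {a b : Ω} (h₀ : G) (h₀a : h₀ • a = a) (h₀b : h₀ • b = b)
    (e : G) (he : e ∈ N) (hea : e • a = b) : h₀ * e * h₀⁻¹ = e := by
  have h₀inv : h₀⁻¹ • a = a := by rw [inv_smul_eq_iff, h₀a]
  have h1 : (e⁻¹ * (h₀ * e * h₀⁻¹)) • a = a := by
    rw [mul_smul, mul_smul, mul_smul, h₀inv, hea, h₀b, inv_smul_eq_iff, hea]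
  have h2 := hNr _ (N.mul_mem (N.inv_mem he) (hNn.conj_mem e he h₀)) a h1
  exact (inv_mul_eq_one.mp h2).symm

theorem regn_sq (N : Subgroup G) (hNn : N.Normal)
    (hNr : ∀ n ∈ N, ∀ x : Ω, n • x = x → n = 1)
    (h3 : ∀ g : G, ∀ a b c : Ω, a ≠ b → b ≠ c → a ≠ c → g • a = a → g • b = b → g • c = c →
      g = 1)
    {a b : Ω} (hab : a ≠ b) (h₀ : G) (h₀1 : h₀ ≠ 1) (h₀a : h₀ • a = a) (h₀b : h₀ • b = b)
    (e : G) (he : e ∈ N) (hea : e • a = b) : e * e = 1 := by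
  have hce := regn_conj_e N hNn hNr h₀ h₀a h₀b e he hea
  have hc2 : h₀ * (e * e) * h₀⁻¹ = e * e := by
    have h1 : h₀ * (e * e) * h₀⁻¹ = (h₀ * e * h₀⁻¹) * (h₀ * e * h₀⁻¹) := by group
    rw [h1, hce]
  rcases regn_centralizer h3 hab h₀ h₀1 h₀a h₀b (e * e) hc2 with h | h
  · exact hNr _ (N.mul_mem he he) a h
  · exfalso
    rw [mul_smul, hea] at h
    have h4 : e • b = e • a := by rw [h, hea]
    exact hab (smul_left_cancel e h4).symm

theorem regn_exp_two [Finite G] [Fintype Ω] (N : Subgroup G) (hNn : N.Normal)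
    (hNr : ∀ n ∈ N, ∀ x : Ω, n • x = x → n = 1)
    (h3 : ∀ g : G, ∀ a b c : Ω, a ≠ b → b ≠ c → a ≠ c → g • a = a → g • b = b → g • c = c →
      g = 1)
    {a b : Ω} (hab : a ≠ b) (h₀ : G) (h₀1 : h₀ ≠ 1) (h₀a : h₀ • a = a) (h₀b : h₀ • b = b)
    (e : G) (he : e ∈ N) (hea : e • a = b)
    (K₀ : Subgroup G) (hKa : K₀ ≤ stabilizer G a)
    (hKcard : Nat.card K₀ + 1 = Fintype.card Ω)
    (hKfix : ∀ u ∈ K₀, u ≠ 1 → ∀ c : Ω, u • c = c → c = a)
    (u : G) (hu : u ∈ N) : u * u = 1 := by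
  by_cases hu1 : u = 1
  · rw [hu1, mul_one]
  have he1 : e ≠ 1 := by
    intro h
    rw [h, one_smul] at hea
    exact hab hea
  obtain ⟨k, -, hk⟩ := regn_conj_trans N hNn hNr a K₀ hKa hKcard hKfix e he he1 u hu hu1
  have hee := regn_sq N hNn hNr h3 hab h₀ h₀1 h₀a h₀b e he hea
  have h1 : u * u = k * (e * e) * k⁻¹ := by
    rw [← hk]
    group
  rw [h1, hee, mul_one, mul_inv_cancel]

theorem comm_of_exp_two {u w : G} (hu : u * u = 1) (hw : w * w = 1)
    (huw : (u * w) * (u * w) = 1) : u * w = w * u := by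
  have h1 : u⁻¹ = u := inv_eq_of_mul_eq_one_left hu
  have h2 : w⁻¹ = w := inv_eq_of_mul_eq_one_left hw
  have h3 : (u * w)⁻¹ = u * w := inv_eq_of_mul_eq_one_left huw
  rw [← h3, mul_inv_rev, h1, h2]

theorem regn_card [Fintype Ω] (N : Subgroup G) (hNt : ∀ x y : Ω, ∃ n ∈ N, n • x = y)
    (hNr : ∀ n ∈ N, ∀ x : Ω, n • x = x → n = 1) (a : Ω) :
    Nat.card N = Fintype.card Ω := by
  have hNbij : Function.Bijective (fun n : N => (n : G) • a) := by
    constructor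
    · intro n m h
      have h' : (n : G) • a = (m : G) • a := h
      have h1 : ((m : G)⁻¹ * (n : G)) • a = a := by rw [mul_smul, h', inv_smul_smul]
      have h2 := hNr _ (N.mul_mem (N.inv_mem m.2) n.2) a h1
      exact Subtype.ext (inv_mul_eq_one.mp h2).symm
    · intro c
      obtain ⟨n, hn, hna⟩ := hNt a c
      exact ⟨⟨n, hn⟩, hna⟩
  rw [Nat.card_congr (Equiv.ofBijective _ hNbij), Nat.card_eq_fintype_card]

/-- The Frobenius kernel `K₀` of `G_a` is abelian. -/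
theorem regn_kernel_comm [Finite G] (N : Subgroup G) (hNn : N.Normal)
    (hN1 : N ≠ ⊥) (hNab : ∀ u ∈ N, ∀ w ∈ N, u * w = w * u)
    (K₀ : Subgroup G) (hnil : Group.IsNilpotent K₀) (hodd : Odd (Nat.card K₀))
    (hfree : ∀ k ∈ K₀, k ≠ 1 → ∀ u ∈ N, u ≠ 1 → k * u * k⁻¹ ≠ u) :
    ∀ k ∈ K₀, ∀ k' ∈ K₀, k * k' = k' * k := by
  classical
  haveI : IsMulCommutative N := ⟨⟨fun x y => Subtype.ext (hNab x x.2 y y.2)⟩⟩
  have hcyc : ∀ A : Subgroup K₀, (∀ x ∈ A, ∀ y ∈ A, x * y = y * x) → IsCyclic A := by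
    intro A hA
    have hAab : ∀ x ∈ A.map K₀.subtype, ∀ y ∈ A.map K₀.subtype, x * y = y * x := by
      rintro _ ⟨x, hx, rfl⟩ _ ⟨y, hy, rfl⟩
      rw [← map_mul, ← map_mul, hA x hx y hy]
    haveI : IsMulCommutative (A.map K₀.subtype) :=
      ⟨⟨fun x y => Subtype.ext (hAab x x.2 y y.2)⟩⟩
    haveI : IsCyclic (A.map K₀.subtype) := by
      refine Cfsg.Agent.S0041.result (A.map K₀.subtype) N hN1 ?_ ?_ (Or.inl inferInstance)
      · intro x _
        rw [Subgroup.normalizer_eq_top_iff.mpr hNn]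
        exact Subgroup.mem_top x
      · rintro _ ⟨x, hx, rfl⟩ hx1
        rw [eq_bot_iff]
        rintro u ⟨huN, huc⟩
        rw [Subgroup.mem_bot]
        by_contra hu1
        have h1 : (K₀.subtype x) * u = u * (K₀.subtype x) :=
          (Subgroup.mem_centralizer_iff.mp huc _ (Set.mem_singleton _))
        apply hfree (K₀.subtype x) x.2 hx1 u huN hu1
        rw [h1, mul_inv_cancel_right]
    exact (A.equivMapOfInjective _ (Subgroup.subtype_injective _)).isCyclic.mpr inferInstance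
  have hcomm := comm_of_nilpotent_of_abelian_cyclic hnil hodd hcyc
  intro k hk k' hk'
  exact congrArg Subtype.val (hcomm ⟨k, hk⟩ ⟨k', hk'⟩)

end Cfsg.Agent.H19
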