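import Mathlib
import Cfsg.Agent.H19.RegN2

/-!
# Regular normal subgroups of "pre-Zassenhaus" groups: the field and its automorphism (helper19)

* `card_eq_two_pow_of_aut` : a finite field of characteristic 2 with an automorphism `τ`,
  `τ^s = 1` (`s` prime), whose only fixed points are `0` and `1`, has `2 ^ s` elements
* `regn_tau` : in a pre-Zassenhaus group with a regular normal subgroup `N`, the points are
  coordinatized by a finite field `K` of characteristic 2 on which a non-identity element `h₀` of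
  a two-point stabilizer induces an automorphism fixing only `0` and `1`
-/

set_option autoImplicit false
set_option linter.style.haveILetI false
set_option linter.unusedSectionVars false

namespace Cfsg.Agent.H19

open MulAction

theorem card_eq_two_pow_of_aut {K : Type*} [Field K] [Fintype K] (h2 : (2 : K) = 0)
    (τ : K → K) (s : ℕ) (hs : s.Prime)
    (hadd : ∀ x y, τ (x + y) = τ x + τ y) (hmul : ∀ x y, τ (x * y) = τ x * τ y) (hone : τ 1 = 1)
    (hinj : Function.Injective τ) (hfix : ∀ x, τ x = x → x = 0 ∨ x = 1)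
    (hiter : ∀ x, τ^[s] x = x) (hK : 2 < Fintype.card K) : Fintype.card K = 2 ^ s := by
  classical
  haveI : CharP K 2 := CharTwo.of_one_ne_zero_of_two_eq_zero one_ne_zero h2
  letI : Algebra (ZMod 2) K := ZMod.algebra K 2
  have hzero : τ 0 = 0 := by
    have h := hadd 0 0
    rw [add_zero] at h
    exact left_eq_add.mp h
  let f : K →+* K :=
    { toFun := τ, map_one' := hone, map_mul' := hmul, map_zero' := hzero, map_add' := hadd }
  have hbij : Function.Bijective f := Finite.injective_iff_bijective.mp hinj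
  let R : K ≃+* K := RingEquiv.ofBijective f hbij
  let T : K ≃ₐ[ZMod 2] K := AlgEquiv.ofRingEquiv (f := R) (by
    intro x
    have h2 : (R : K →+* K).comp (algebraMap (ZMod 2) K) = algebraMap (ZMod 2) K :=
      Subsingleton.elim _ _
    exact congrArg (fun g : ZMod 2 →+* K => g x) h2)
  have hT : ∀ x, T x = τ x := fun x => rfl
  have hTpow : ∀ (j : ℕ) (x : K), (T ^ j) x = τ^[j] x := by
    intro j
    induction j with
    | zero => intro x; rfl
    | succ j ih =>
      intro x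
      rw [pow_succ', AlgEquiv.mul_apply, ih, hT, Function.iterate_succ_apply']
  have hTs : T ^ s = 1 := by
    apply AlgEquiv.ext
    intro x
    rw [hTpow, hiter]
    rfl
  have hT1 : T ≠ 1 := by
    intro h
    have hall : ∀ x : K, x = 0 ∨ x = 1 := by
      intro x
      apply hfix
      rw [← hT, h]
      rfl
    have hsub : (Finset.univ : Finset K) ⊆ {0, 1} := by
      intro x _
      rcases hall x with h | h <;> simp [h]
    have h5 := Finset.card_le_card hsub
    have h6 : ({0, 1} : Finset K).card ≤ 2 := Finset.card_le_two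
    rw [Finset.card_univ] at h5
    omega
  have hord : orderOf T = s := by
    have h1 : orderOf T ∣ s := orderOf_dvd_of_pow_eq_one hTs
    rcases (Nat.dvd_prime hs).mp h1 with h | h
    · exact absurd (orderOf_eq_one_iff.mp h) hT1
    · exact h
  have hcard : Nat.card (Subgroup.zpowers T) = s := by rw [Nat.card_zpowers, hord]
  have hfixed : IntermediateField.fixedField (Subgroup.zpowers T) = ⊥ := by
    ext x
    rw [IntermediateField.mem_fixedField_iff]
    constructor
    · intro h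
      rcases hfix x (h T (Subgroup.mem_zpowers T)) with h | h
      · rw [h]; exact zero_mem _
      · rw [h]; exact one_mem _
    · intro h g _
      rw [IntermediateField.mem_bot] at h
      obtain ⟨r, rfl⟩ := h
      exact g.commutes r
  have h1 := IntermediateField.finrank_fixedField_eq_card (Subgroup.zpowers T)
  rw [hfixed, IntermediateField.finrank_bot', hcard] at h1
  rw [Module.card_eq_pow_finrank (K := ZMod 2) (V := K), ZMod.card, h1]

variable {G Ω : Type*} [Group G] [MulAction G Ω]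

set_option maxHeartbeats 1000000 in
theorem regn_tau [Finite G] [Fintype Ω] (hn3 : 3 ≤ Fintype.card Ω) (N : Subgroup G)
    (hNn : N.Normal) (hNt : ∀ x y : Ω, ∃ n ∈ N, n • x = y)
    (hNr : ∀ n ∈ N, ∀ x : Ω, n • x = x → n = 1)
    (h3 : ∀ g : G, ∀ a b c : Ω, a ≠ b → b ≠ c → a ≠ c → g • a = a → g • b = b → g • c = c →
      g = 1)
    {a b : Ω} (hab : a ≠ b) (h₀ : G) (h₀1 : h₀ ≠ 1) (h₀a : h₀ • a = a) (h₀b : h₀ • b = b)
    (K₀ : Subgroup G) (hKa : K₀ ≤ stabilizer G a)
    (hKcard : Nat.card K₀ + 1 = Fintype.card Ω)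
    (hKfix : ∀ u ∈ K₀, u ≠ 1 → ∀ c : Ω, u • c = c → c = a)
    (hKconj : ∀ k ∈ K₀, h₀ * k * h₀⁻¹ ∈ K₀)
    (hKnil : Group.IsNilpotent K₀)
    (s : ℕ) (hs : h₀ ^ s = 1) :
    ∃ (K : Type) (_ : Field K) (_ : Fintype K) (τ : K → K),
      Fintype.card K = Fintype.card Ω ∧ (2 : K) = 0 ∧
      (∀ x y, τ (x + y) = τ x + τ y) ∧ (∀ x y, τ (x * y) = τ x * τ y) ∧ τ 1 = 1 ∧
      Function.Injective τ ∧ (∀ x, τ x = x → x = 0 ∨ x = 1) ∧ (∀ x, τ^[s] x = x) := by
  classical
  obtain ⟨e, he, hea⟩ := hNt a b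
  have he1 : e ≠ 1 := by
    intro h
    rw [h, one_smul] at hea
    exact hab hea
  have hexp : ∀ u ∈ N, u * u = 1 := fun u hu =>
    regn_exp_two N hNn hNr h3 hab h₀ h₀1 h₀a h₀b e he hea K₀ hKa hKcard hKfix u hu
  have hNab : ∀ u ∈ N, ∀ w ∈ N, u * w = w * u := fun u hu w hw =>
    comm_of_exp_two (hexp u hu) (hexp w hw) (hexp _ (N.mul_mem hu hw))
  have hNcard := regn_card N hNt hNr a
  have hN1 : N ≠ ⊥ := by
    intro h
    rw [h, Subgroup.mem_bot] at he
    exact he1 he
  have hpg : IsPGroup 2 N := by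
    intro g
    refine ⟨1, ?_⟩
    rw [pow_one, pow_two]
    exact Subtype.ext (hexp g g.2)
  obtain ⟨m, hm⟩ := IsPGroup.iff_card.mp hpg
  have hfree : ∀ k ∈ K₀, k ≠ 1 → ∀ u ∈ N, u ≠ 1 → k * u * k⁻¹ ≠ u := fun k hk hk1 u hu hu1 =>
    regn_free N hNr a K₀ hKa hKfix k hk hk1 u hu hu1
  have hKodd : Odd (Nat.card K₀) := by
    have h1 : Nat.card K₀ + 1 = 2 ^ m := by rw [hKcard, ← hNcard, hm]
    have hm0 : m ≠ 0 := by
      rintro rfl
      rw [pow_zero] at h1
      omega
    have h2 : Even (2 ^ m) := Nat.even_pow.mpr ⟨even_two, hm0⟩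
    rw [← h1] at h2
    exact Nat.not_even_iff_odd.mp (fun h => (Nat.even_add_one.mp h2) h)
  have hKab := regn_kernel_comm N hNn hN1 hNab K₀ hKnil hKodd hfree
  have hnorm : ∀ h ∈ K₀, ∀ u ∈ N, h * u * h⁻¹ ∈ N := fun h _ u hu => hNn.conj_mem u hu h
  obtain ⟨K, iF, iFt, φ, σ, hφ, hφadd, hφσ⟩ := exists_field_coord' N K₀ hNab hKab hnorm hfree 2 m
    Nat.prime_two hm (by rw [hNcard]; omega) (by rw [hNcard, hKcard]; omega)
  let E : N ≃ K := Equiv.ofBijective φ hφ
  have hE : ∀ u, E u = φ u := fun u => rfl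
  have hφ1 : φ 1 = 0 := by
    have h := hφadd 1 1
    rw [mul_one] at h
    exact left_eq_add.mp h
  obtain ⟨eN, heN⟩ : ∃ eN : N, eN = ⟨e, he⟩ := ⟨_, rfl⟩
  obtain ⟨ε, hε⟩ : ∃ ε : K, ε = φ eN := ⟨_, rfl⟩
  have hε0 : ε ≠ 0 := by
    intro h
    rw [hε, ← hφ1] at h
    have h1 := hφ.1 h
    rw [heN] at h1
    exact he1 (congrArg Subtype.val h1)
  have h2K : (2 : K) = 0 := by
    have h := hφadd eN eN
    have hee : eN * eN = 1 := by
      rw [heN]
      exact Subtype.ext (hexp e he)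
    rw [hee, hφ1, ← hε] at h
    have h' : (2 : K) * ε = 0 := by rw [two_mul]; exact h.symm
    exact (mul_eq_zero.mp h').resolve_right hε0
  let c : N → N := fun u => ⟨h₀ * u * h₀⁻¹, hNn.conj_mem u u.2 h₀⟩
  have hc_mul : ∀ u w : N, c (u * w) = c u * c w := by
    intro u w
    apply Subtype.ext
    show h₀ * ((u : G) * (w : G)) * h₀⁻¹ = (h₀ * u * h₀⁻¹) * (h₀ * w * h₀⁻¹)
    group
  have hc_e : c eN = eN := by
    rw [heN]
    exact Subtype.ext (regn_conj_e N hNn hNr h₀ h₀a h₀b e he hea)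
  have hc_inj : Function.Injective c := by
    intro u w h
    have h1 : h₀ * (u : G) * h₀⁻¹ = h₀ * (w : G) * h₀⁻¹ := congrArg Subtype.val h
    apply Subtype.ext
    exact mul_left_cancel (mul_right_cancel h1)
  have hc_fix : ∀ u : N, c u = u → u = 1 ∨ u = eN := by
    intro u h
    have h1 : h₀ * (u : G) * h₀⁻¹ = u := congrArg Subtype.val h
    rcases regn_centralizer h3 hab h₀ h₀1 h₀a h₀b (u : G) h1 with h2 | h2
    · left
      exact Subtype.ext (hNr u u.2 a h2)
    · right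
      have h4 : ((e : G)⁻¹ * (u : G)) • a = a := by rw [mul_smul, h2, inv_smul_eq_iff, hea]
      have h5 := hNr _ (N.mul_mem (N.inv_mem he) u.2) a h4
      rw [heN]
      exact Subtype.ext (inv_mul_eq_one.mp h5).symm
  have hc_iter : ∀ (j : ℕ) (u : N), ((c^[j] u : N) : G) = h₀ ^ j * u * (h₀ ^ j)⁻¹ := by
    intro j
    induction j with
    | zero => intro u; simp
    | succ j ih =>
      intro u
      rw [Function.iterate_succ_apply']
      show h₀ * ((c^[j] u : N) : G) * h₀⁻¹ = _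
      rw [ih, pow_succ']
      group
  have hσsurj : ∀ y : K, y ≠ 0 → ∃ k : K₀, σ k = y := by
    intro y hy
    have hu1 : (E.symm (y * ε) : N) ≠ 1 := by
      intro h
      have h1 : E (E.symm (y * ε)) = E 1 := by rw [h]
      rw [E.apply_symm_apply, hE, hφ1] at h1
      exact (mul_ne_zero hy hε0) h1
    obtain ⟨k, hk, hku⟩ := regn_conj_trans N hNn hNr a K₀ hKa hKcard hKfix e he he1
      (E.symm (y * ε) : N) (E.symm (y * ε)).2 (fun h => hu1 (Subtype.ext h))
    refine ⟨⟨k, hk⟩, ?_⟩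
    have h1 := hφσ ⟨k, hk⟩ eN
    have h2 : (⟨((⟨k, hk⟩ : K₀) : G) * (eN : G) * (((⟨k, hk⟩ : K₀)⁻¹ : K₀) : G),
        hnorm _ hk _ eN.2⟩ : N) = E.symm (y * ε) := by
      apply Subtype.ext
      show k * (eN : G) * k⁻¹ = _
      rw [heN]
      exact hku
    have h3 : φ (E.symm (y * ε)) = σ ⟨k, hk⟩ * ε := by
      rw [← h2, hε]
      exact h1
    have h4 : φ (E.symm (y * ε)) = y * ε := E.apply_symm_apply _
    rw [h4] at h3
    exact (mul_right_cancel₀ hε0 h3).symm
  let τ : K → K := fun x => ε⁻¹ * φ (c (E.symm (ε * x)))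
  have hτ : ∀ x, τ x = ε⁻¹ * φ (c (E.symm (ε * x))) := fun x => rfl
  have hEsymm_add : ∀ x y : K, E.symm (x + y) = E.symm x * E.symm y := by
    intro x y
    apply hφ.1
    rw [hφadd]
    show E (E.symm (x + y)) = E (E.symm x) + E (E.symm y)
    rw [E.apply_symm_apply, E.apply_symm_apply, E.apply_symm_apply]
  have hτadd : ∀ x y, τ (x + y) = τ x + τ y := by
    intro x y
    rw [hτ, hτ, hτ, mul_add, hEsymm_add, hc_mul, hφadd, mul_add]
  have hτone : τ 1 = 1 := by
    rw [hτ, mul_one]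
    have h1 : E.symm ε = eN := by
      rw [Equiv.symm_apply_eq, hε]
      rfl
    rw [h1, hc_e, ← hε, inv_mul_cancel₀ hε0]
  have hτzero : τ 0 = 0 := by
    have h := hτadd 0 0
    rw [add_zero] at h
    exact left_eq_add.mp h
  have hτσ : ∀ (k : K₀) (x : K),
      τ (σ k * x) = σ ⟨h₀ * k * h₀⁻¹, hKconj k k.2⟩ * τ x := by
    intro k x
    obtain ⟨w, hw⟩ : ∃ w : N, w = E.symm (ε * x) := ⟨_, rfl⟩
    have hφw : φ w = ε * x := by rw [hw]; exact E.apply_symm_apply _
    have h1 := hφσ k w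
    have h2 : E.symm (ε * (σ k * x)) =
        ⟨(k : G) * w * ((k⁻¹ : K₀) : G), hnorm k k.2 w w.2⟩ := by
      rw [Equiv.symm_apply_eq]
      show ε * (σ k * x) = φ _
      rw [h1, hφw]
      ring
    obtain ⟨k', hk'⟩ : ∃ k' : K₀, k' = ⟨h₀ * k * h₀⁻¹, hKconj k k.2⟩ := ⟨_, rfl⟩
    have hk'v : (k' : G) = h₀ * k * h₀⁻¹ := congrArg Subtype.val hk'
    have h3 : c ⟨(k : G) * w * ((k⁻¹ : K₀) : G), hnorm k k.2 w w.2⟩ =
        ⟨(k' : G) * ((c w : N) : G) * ((k'⁻¹ : K₀) : G), hnorm k' k'.2 (c w) (c w).2⟩ := by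
      apply Subtype.ext
      show h₀ * ((k : G) * w * (k : G)⁻¹) * h₀⁻¹ = (k' : G) * (h₀ * w * h₀⁻¹) * (k' : G)⁻¹
      rw [hk'v]
      group
    have h4 := hφσ k' (c w)
    rw [hτ, h2, h3, h4, hτ, ← hw, ← hk']
    ring
  have hτmul : ∀ x y, τ (x * y) = τ x * τ y := by
    intro x y
    by_cases hx : x = 0
    · rw [hx, zero_mul, hτzero, zero_mul]
    · obtain ⟨k, rfl⟩ := hσsurj x hx
      have h1 := hτσ k 1
      rw [mul_one, hτone, mul_one] at h1
      rw [hτσ, h1]
  have hτinj : Function.Injective τ := by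
    intro x y h
    have h1 : φ (c (E.symm (ε * x))) = φ (c (E.symm (ε * y))) :=
      mul_left_cancel₀ (inv_ne_zero hε0) h
    have h2 := E.symm.injective (hc_inj (hφ.1 h1))
    exact mul_left_cancel₀ hε0 h2
  have hτfix : ∀ x, τ x = x → x = 0 ∨ x = 1 := by
    intro x h
    obtain ⟨w, hw⟩ : ∃ w : N, w = E.symm (ε * x) := ⟨_, rfl⟩
    have hφw : φ w = ε * x := by rw [hw]; exact E.apply_symm_apply _
    have h' : ε⁻¹ * φ (c w) = x := by rw [hw]; exact h
    have h1 : φ (c w) = φ w := by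
      rw [hφw, ← h', ← mul_assoc, mul_inv_cancel₀ hε0, one_mul]
    rcases hc_fix w (hφ.1 h1) with h2 | h2
    · left
      rw [h2, hφ1] at hφw
      exact (mul_eq_zero.mp hφw.symm).resolve_left hε0
    · right
      rw [h2, ← hε] at hφw
      have h5 : ε * 1 = ε * x := by rw [mul_one]; exact hφw
      exact (mul_left_cancel₀ hε0 h5).symm
  have hτiter : ∀ (j : ℕ) (x : K), τ^[j] x = ε⁻¹ * φ (c^[j] (E.symm (ε * x))) := by
    intro j
    induction j with
    | zero =>
      intro x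
      show x = ε⁻¹ * φ (E.symm (ε * x))
      have h5 : φ (E.symm (ε * x)) = ε * x := E.apply_symm_apply _
      rw [h5, ← mul_assoc, inv_mul_cancel₀ hε0, one_mul]
    | succ j ih =>
      intro x
      rw [Function.iterate_succ_apply', ih, hτ, Function.iterate_succ_apply']
      have h1 : E.symm (ε * (ε⁻¹ * φ (c^[j] (E.symm (ε * x))))) = c^[j] (E.symm (ε * x)) := by
        rw [Equiv.symm_apply_eq, ← mul_assoc, mul_inv_cancel₀ hε0, one_mul]
        rfl
      rw [h1]
  have hτs : ∀ x, τ^[s] x = x := by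
    intro x
    rw [hτiter]
    have h1 : c^[s] (E.symm (ε * x)) = E.symm (ε * x) := by
      apply Subtype.ext
      rw [hc_iter, hs]
      group
    rw [h1]
    have h5 : φ (E.symm (ε * x)) = ε * x := E.apply_symm_apply _
    rw [h5, ← mul_assoc, inv_mul_cancel₀ hε0, one_mul]
  refine ⟨K, iF, iFt, τ, ?_, h2K, hτadd, hτmul, hτone, hτinj, hτfix, hτs⟩
  rw [← hNcard, Nat.card_congr E, Nat.card_eq_fintype_card]

end Cfsg.Agent.H19
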