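import Mathlib
import Cfsg.Agent.H9.S77Defs

/-!
# S0429 team project, piece ZZ
-/

set_option autoImplicit false
open Finset Classical Cfsg.Agent.H9.S77

namespace Cfsg.Agent.H19.S77

universe u

/-- For `y ∈ Z(u,v)`, exactly 8 of the 12 vertices of `W₂` are adjacent to `y`. -/
theorem zz_card8 {V : Type u} [Fintype V] {G : SimpleGraph V} (hN : StNbW G)
    (hZ : StZnb G) {u v : V} (huv : NA G u v) {y : V} (hy : y ∈ Zset G u v) :
    (((Wset G u v).filter (fun w => tc G u v w = 2)).filter (fun w => G.Adj y w)).card = 8 := by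
  have hA : nb G y ∩ Wset G u v =
      ((Wset G u v).filter (fun w => tc G u v w = 2)).filter (fun w => G.Adj y w) := by
    ext x
    simp only [Finset.mem_inter, mem_nb, Finset.mem_filter]
    constructor
    · rintro ⟨h1, h2⟩
      exact ⟨⟨h2, hZ u v huv y hy x h2 h1⟩, h1⟩
    · rintro ⟨⟨h1, _⟩, h2⟩
      exact ⟨h2, h1⟩
  rw [← hA]
  have := (hN u v huv y (Finset.mem_filter.mp hy).1).1
  rw [this, (Finset.mem_filter.mp hy).2]

/-- The pair statement: common neighbours of `z ≠ z'` in `Z` lie in `W₂`, and `z, z'` dominate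
`W₂`. -/
theorem zz_pair {V : Type u} [Fintype V] {G : SimpleGraph V} (h : Hyp G) (hN : StNbW G)
    (hK : StK33 G) (hZ : StZnb G) {u v : V} (huv : NA G u v) {z z' : V}
    (hz : z ∈ Zset G u v) (hz' : z' ∈ Zset G u v) (hne : z ≠ z') :
    (∀ c, G.Adj z c → G.Adj z' c → c ∈ Wset G u v ∧ tc G u v c = 2) ∧
    (∀ w ∈ Wset G u v, tc G u v w = 2 → G.Adj z w ∨ G.Adj z' w) := by
  obtain ⟨hle, hz3, h32, h12⟩ := hK u v huv
  have hzW' : z' ∈ Wset G u v := (Finset.mem_filter.mp hz').1
  have hz0' : tc G u v z' = 0 := (Finset.mem_filter.mp hz').2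
  have h8 := zz_card8 hN hZ huv hz
  have h8' := zz_card8 hN hZ huv hz'
  have hnadj : ¬ G.Adj z z' := by
    intro hadj
    have := hZ u v huv z hz z' hzW' hadj
    omega
  have hmu := h.mu z z' hne hnadj
  generalize hW2 : (Wset G u v).filter (fun w => tc G u v w = 2) = W2 at h12 h8 h8'
  generalize hAdef : W2.filter (fun w => G.Adj z w) = A at h8
  generalize hAdef' : W2.filter (fun w => G.Adj z' w) = A' at h8'
  have hsub : A ∩ A' ⊆ nb G z ∩ nb G z' := by
    intro x hx
    rw [Finset.mem_inter] at hx ⊢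
    rw [← hAdef, ← hAdef'] at hx
    exact ⟨mem_nb.mpr (Finset.mem_filter.mp hx.1).2, mem_nb.mpr (Finset.mem_filter.mp hx.2).2⟩
  have hunion : A ∪ A' ⊆ W2 := by
    rw [← hAdef, ← hAdef']
    exact Finset.union_subset (Finset.filter_subset _ _) (Finset.filter_subset _ _)
  have hcu := Finset.card_union_add_card_inter A A'
  have hle1 := Finset.card_le_card hsub
  have hle2 := Finset.card_le_card hunion
  have hint : A ∩ A' = nb G z ∩ nb G z' := Finset.eq_of_subset_of_card_le hsub (by omega)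
  have hun : A ∪ A' = W2 := Finset.eq_of_subset_of_card_le hunion (by omega)
  constructor
  · intro c hc hc'
    have h1 : c ∈ A ∩ A' := by
      rw [hint, Finset.mem_inter]
      exact ⟨mem_nb.mpr hc, mem_nb.mpr hc'⟩
    have hcA := (Finset.mem_inter.mp h1).1
    rw [← hAdef] at hcA
    have h2 := (Finset.mem_filter.mp hcA).1
    rw [← hW2] at h2
    exact Finset.mem_filter.mp h2
  · intro w hw htw
    have h1 : w ∈ A ∪ A' := by
      rw [hun, ← hW2]
      exact Finset.mem_filter.mpr ⟨hw, htw⟩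
    rw [← hAdef, ← hAdef'] at h1
    rcases Finset.mem_union.mp h1 with h2 | h2
    · exact Or.inl (Finset.mem_filter.mp h2).2
    · exact Or.inr (Finset.mem_filter.mp h2).2

/-- S0429-ZZ. -/
theorem zz : Cfsg.Agent.H9.S77.PieceZZ.{u} := by
  intro V _ G h hN hK hZ u v huv z hz z' hz' hne
  obtain ⟨ha, hc⟩ := zz_pair h hN hK hZ huv hz hz' hne
  refine ⟨ha, ?_, hc⟩
  intro z'' hz'' hne1 hne2 c hcz hcz' hcz''
  obtain ⟨hle, hz3, h32, h12⟩ := hK u v huv
  obtain ⟨hcW, hct⟩ := ha c hcz hcz'
  obtain ⟨-, hc1⟩ := zz_pair h hN hK hZ huv hz hz'' (Ne.symm hne1)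
  obtain ⟨-, hc2⟩ := zz_pair h hN hK hZ huv hz' hz'' (Ne.symm hne2)
  have h8 := zz_card8 hN hZ huv hz
  have h8' := zz_card8 hN hZ huv hz'
  have h8'' := zz_card8 hN hZ huv hz''
  have hcW2 : c ∈ (Wset G u v).filter (fun w => tc G u v w = 2) :=
    Finset.mem_filter.mpr ⟨hcW, hct⟩
  have hmemW2 : ∀ w ∈ (Wset G u v).filter (fun w => tc G u v w = 2),
      w ∈ Wset G u v ∧ tc G u v w = 2 := fun w hw => Finset.mem_filter.mp hw
  generalize (Wset G u v).filter (fun w => tc G u v w = 2) = W2 at h12 h8 h8' h8'' hcW2 hmemW2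
  have e := Finset.card_filter_add_card_filter_not (s := W2) (fun w => G.Adj z w)
  have e' := Finset.card_filter_add_card_filter_not (s := W2) (fun w => G.Adj z' w)
  have e'' := Finset.card_filter_add_card_filter_not (s := W2) (fun w => G.Adj z'' w)
  have d1 : Disjoint (W2.filter (fun w => ¬ G.Adj z w)) (W2.filter (fun w => ¬ G.Adj z' w)) := by
    rw [Finset.disjoint_left]
    intro w hw hw'
    have h1 := Finset.mem_filter.mp hw
    have h2 := Finset.mem_filter.mp hw'
    have h3 := hmemW2 w h1.1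
    rcases hc w h3.1 h3.2 with h4 | h4
    · exact h1.2 h4
    · exact h2.2 h4
  have d2 : Disjoint (W2.filter (fun w => ¬ G.Adj z w) ∪ W2.filter (fun w => ¬ G.Adj z' w))
      (W2.filter (fun w => ¬ G.Adj z'' w)) := by
    rw [Finset.disjoint_left]
    intro w hw hw''
    have h2 := Finset.mem_filter.mp hw''
    have h3 := hmemW2 w h2.1
    rcases Finset.mem_union.mp hw with hw1 | hw1
    · have h1 := Finset.mem_filter.mp hw1
      rcases hc1 w h3.1 h3.2 with h4 | h4
      · exact h1.2 h4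
      · exact h2.2 h4
    · have h1 := Finset.mem_filter.mp hw1
      rcases hc2 w h3.1 h3.2 with h4 | h4
      · exact h1.2 h4
      · exact h2.2 h4
  have hsub : (W2.filter (fun w => ¬ G.Adj z w) ∪ W2.filter (fun w => ¬ G.Adj z' w)) ∪
      (W2.filter (fun w => ¬ G.Adj z'' w)) ⊆ W2.erase c := by
    intro w hw
    rw [Finset.mem_erase]
    rcases Finset.mem_union.mp hw with hw1 | hw1
    · rcases Finset.mem_union.mp hw1 with hw2 | hw2
      · have h1 := Finset.mem_filter.mp hw2
        refine ⟨?_, h1.1⟩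
        rintro rfl
        exact h1.2 hcz
      · have h1 := Finset.mem_filter.mp hw2
        refine ⟨?_, h1.1⟩
        rintro rfl
        exact h1.2 hcz'
    · have h1 := Finset.mem_filter.mp hw1
      refine ⟨?_, h1.1⟩
      rintro rfl
      exact h1.2 hcz''
  have hcard := Finset.card_le_card hsub
  rw [Finset.card_union_of_disjoint d2, Finset.card_union_of_disjoint d1,
    Finset.card_erase_of_mem hcW2] at hcard
  omega

example : Cfsg.Agent.H9.S77.PieceZZ.{u} := zz

end Cfsg.Agent.H19.S77
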