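import Mathlib
import Cfsg.Prelude.Def_OddOrderChar
import Cfsg.Agent.H32.Coherence
import Cfsg.Agent.H32.Virtual
import Cfsg.Agent.H4.Irr

/-!
# Sibley's coherence theorem: gluing two coherent sets whose images are orthogonal (helper19)

`S₁` is a coherent set of irreducible characters whose degrees are multiples of the degree of
`ξ₁ ∈ S₁`; `S₂` is a coherent set of irreducible characters of the same degree `d₂`, and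
`ξ₁ 1 = a * d₂`.  If `a` divides the inner product of `τ (ξ₁ - a ζ₁)` with one of the images of
`S₂`, then `S₁ ∪ S₂` is coherent.
-/

set_option autoImplicit false
set_option linter.style.haveILetI false
set_option linter.unusedSectionVars false
set_option linter.unusedVariables false

namespace Cfsg.Agent.H19

open Cfsg Cfsg.Agent.H4 Cfsg.Agent.H32
open scoped ComplexConjugate

theorem sib_int_nonneg (c s : ℤ) (hs : 2 ≤ s) : 0 ≤ c * (c * s - 2) := by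
  rcases le_or_gt c 0 with h | h
  · have h1 : c * s - 2 ≤ 0 := by nlinarith
    nlinarith
  · have h1 : 0 ≤ c * s - 2 := by nlinarith
    exact mul_nonneg h.le h1

section SibA

variable {L : Type*} [Group L] [Fintype L] {G : Type*} [Group G] [Fintype G]

/-- A reflection-type modification preserves inner products. -/
theorem sib_refl_inner (P f g : G → ℂ) (c s nf ng : ℤ) (hPP : classInner P P = (s : ℂ))
    (hc : c * (c * s - 2) = 0) (hf : classInner f P = (nf : ℂ))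
    (hg : classInner P g = (ng : ℂ)) :
    classInner (f - (c * nf) • P) (g - (c * ng) • P) = classInner f g := by
  simp only [classInner_sub_left, classInner_sub_right, classInner_zsmul_left,
    classInner_zsmul_right]
  rw [hPP, hf, hg]
  have h : ((c * (c * s - 2) : ℤ) : ℂ) = 0 := by
    rw [hc]
    simp
  push_cast at h ⊢
  linear_combination (nf : ℂ) * (ng : ℂ) * h

/-- The images of two coherent sets of irreducible characters under their extensions are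
orthogonal. -/
theorem sib_orth (S₁ S₂ : Set (L → ℂ))
    (hirr₁ : ∀ ξ ∈ S₁, IsIrrCharacter L ξ) (hirr₂ : ∀ ζ ∈ S₂, IsIrrCharacter L ζ)
    (hdisj : ∀ ξ ∈ S₁, ξ ∉ S₂)
    (τ τ₁ τ₂ : (L → ℂ) → (G → ℂ))
    (hτ : IsLinearIsometryOn (zspanOn (S₁ ∪ S₂) {1}ᶜ) τ)
    (hτ₁ : IsLinearIsometryOn (zspan S₁) τ₁)
    (hag₁ : ∀ α ∈ zspanOn S₁ {1}ᶜ, τ₁ α = τ α)
    (hτ₂ : IsLinearIsometryOn (zspan S₂) τ₂)
    (hag₂ : ∀ α ∈ zspanOn S₂ {1}ᶜ, τ₂ α = τ α)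
    (ε₁ ε₂ : ℂ) (hε₁ : ε₁ = 1 ∨ ε₁ = -1) (hε₂ : ε₂ = 1 ∨ ε₂ = -1)
    (hI₁ : ∀ ξ ∈ S₁, IsIrrCharacter G (ε₁ • τ₁ ξ))
    (hI₂ : ∀ ζ ∈ S₂, IsIrrCharacter G (ε₂ • τ₂ ζ))
    (hinj₁ : ∀ χ ∈ S₁, ∀ ψ ∈ S₁, τ₁ χ = τ₁ ψ → χ = ψ)
    (hinj₂ : ∀ χ ∈ S₂, ∀ ψ ∈ S₂, τ₂ χ = τ₂ ψ → χ = ψ)
    (ξ₁ ξ₂ ζ₁ ζ₂ : L → ℂ) (hξ₁ : ξ₁ ∈ S₁) (hξ₂ : ξ₂ ∈ S₁) (hξ₁₂ : ξ₂ ≠ ξ₁)
    (hζ₁ : ζ₁ ∈ S₂) (hζ₂ : ζ₂ ∈ S₂) (hζ₁₂ : ζ₂ ≠ ζ₁)
    (b : (L → ℂ) → ℤ) (hbpos : ∀ ξ ∈ S₁, 0 < b ξ)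
    (hb : ∀ ξ ∈ S₁, ξ 1 = (b ξ : ℂ) * ξ₁ 1)
    (hd₂ : ∀ ζ ∈ S₂, ζ 1 = ζ₁ 1) :
    ∀ ξ ∈ S₁, ∀ ζ ∈ S₂, classInner (τ₁ ξ) (τ₂ ζ) = 0 := by
  classical
  have hinner : ∀ χ ψ : L → ℂ, IsIrrCharacter L χ → IsIrrCharacter L ψ →
      classInner χ ψ = if χ = ψ then 1 else 0 := by
    intro χ ψ hχ hψ
    have := irr_inner (⟨χ, hχ⟩ : IrrCharacter L) ⟨ψ, hψ⟩
    simp only [Subtype.mk.injEq] at this
    exact this
  have hne12 : ∀ ξ ∈ S₁, ∀ ζ ∈ S₂, ξ ≠ ζ := fun ξ hξ ζ hζ h => hdisj ξ hξ (h ▸ hζ)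
  have hσ : (ε₁ * ε₂) * (ε₁ * ε₂) = 1 := by
    rcases hε₁ with h | h <;> rcases hε₂ with h' | h' <;> rw [h, h'] <;> norm_num
  have hconj₂ : conj ε₂ = ε₂ := by
    rcases hε₂ with h | h <;> rw [h] <;> simp
  have hε₁0 : ε₁ ≠ 0 := by
    rcases hε₁ with h | h <;> rw [h] <;> norm_num
  have hε₂0 : ε₂ ≠ 0 := by
    rcases hε₂ with h | h <;> rw [h] <;> norm_num
  have hσ0 : ε₁ * ε₂ ≠ 0 := mul_ne_zero hε₁0 hε₂0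
  have hval : ∀ ξ ∈ S₁, ∀ ζ ∈ S₂, classInner (τ₁ ξ) (τ₂ ζ) = 0 ∨
      (classInner (τ₁ ξ) (τ₂ ζ) = ε₁ * ε₂ ∧ ε₁ • τ₁ ξ = ε₂ • τ₂ ζ) := by
    intro ξ hξ ζ hζ
    have h := irr_inner (⟨ε₁ • τ₁ ξ, hI₁ ξ hξ⟩ : IrrCharacter G) ⟨ε₂ • τ₂ ζ, hI₂ ζ hζ⟩
    have h' : classInner (ε₁ • τ₁ ξ) (ε₂ • τ₂ ζ) =
        if (ε₁ • τ₁ ξ = ε₂ • τ₂ ζ) then 1 else 0 := by
      simp only [Subtype.mk.injEq] at h
      exact h
    rw [classInner_smul_left, classInner_smul_right, hconj₂] at h'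
    by_cases heq : ε₁ • τ₁ ξ = ε₂ • τ₂ ζ
    · right
      rw [if_pos heq] at h'
      refine ⟨?_, heq⟩
      calc classInner (τ₁ ξ) (τ₂ ζ)
          = (ε₁ * ε₂) * (ε₁ * ε₂) * classInner (τ₁ ξ) (τ₂ ζ) := by rw [hσ, one_mul]
        _ = (ε₁ * ε₂) * (ε₁ * (ε₂ * classInner (τ₁ ξ) (τ₂ ζ))) := by ring
        _ = ε₁ * ε₂ := by rw [h', mul_one]
    · left
      rw [if_neg heq] at h'
      rcases mul_eq_zero.mp h' with h1 | h1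
      · exact absurd h1 hε₁0
      · rcases mul_eq_zero.mp h1 with h2 | h2
        · exact absurd h2 hε₂0
        · exact h2
  have hrel : ∀ ξ ∈ S₁, ∀ ζ ∈ S₂, ∀ ζ' ∈ S₂,
      classInner (τ₁ ξ) (τ₂ ζ) - classInner (τ₁ ξ) (τ₂ ζ') =
        (b ξ : ℂ) * (classInner (τ₁ ξ₁) (τ₂ ζ) - classInner (τ₁ ξ₁) (τ₂ ζ')) := by
    intro ξ hξ ζ hζ ζ' hζ'
    have hm1 : ξ - b ξ • ξ₁ ∈ zspanOn S₁ {1}ᶜ := by
      apply mem_zspanOn_compl_one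
      · exact Submodule.sub_mem _ (Submodule.subset_span hξ)
          (Submodule.smul_mem _ _ (Submodule.subset_span hξ₁))
      · rw [Pi.sub_apply, Pi.smul_apply, hb ξ hξ, zsmul_eq_mul, sub_self]
    have hm2 : ζ - ζ' ∈ zspanOn S₂ {1}ᶜ := by
      apply mem_zspanOn_compl_one
      · exact Submodule.sub_mem _ (Submodule.subset_span hζ) (Submodule.subset_span hζ')
      · rw [Pi.sub_apply, hd₂ ζ hζ, hd₂ ζ' hζ', sub_self]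
    have e1 : τ₁ (ξ - b ξ • ξ₁) = τ₁ ξ - b ξ • τ₁ ξ₁ := by
      have := linIso_zspan_sub hτ₁ (Submodule.subset_span hξ) (Submodule.subset_span hξ₁) 1 (b ξ)
      rwa [one_smul, one_smul] at this
    have e2 : τ₂ (ζ - ζ') = τ₂ ζ - τ₂ ζ' := by
      have := linIso_zspan_sub hτ₂ (Submodule.subset_span hζ) (Submodule.subset_span hζ') 1 1
      rwa [one_smul, one_smul, one_smul, one_smul] at this
    have h1 := hτ.2.2.1 _ (zspanOn_mono Set.subset_union_left hm1) _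
      (zspanOn_mono Set.subset_union_right hm2)
    rw [← hag₁ _ hm1, ← hag₂ _ hm2, e1, e2] at h1
    have h2 : classInner (ξ - b ξ • ξ₁) (ζ - ζ') = 0 := by
      simp only [classInner_sub_left, classInner_sub_right, classInner_zsmul_left]
      rw [hinner ξ ζ (hirr₁ ξ hξ) (hirr₂ ζ hζ), hinner ξ ζ' (hirr₁ ξ hξ) (hirr₂ ζ' hζ'),
        hinner ξ₁ ζ (hirr₁ ξ₁ hξ₁) (hirr₂ ζ hζ), hinner ξ₁ ζ' (hirr₁ ξ₁ hξ₁) (hirr₂ ζ' hζ'),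
        if_neg (hne12 ξ hξ ζ hζ), if_neg (hne12 ξ hξ ζ' hζ'),
        if_neg (hne12 ξ₁ hξ₁ ζ hζ), if_neg (hne12 ξ₁ hξ₁ ζ' hζ')]
      ring
    rw [h2] at h1
    simp only [classInner_sub_left, classInner_sub_right, classInner_zsmul_left] at h1
    linear_combination h1
  by_contra hcon
  push Not at hcon
  obtain ⟨ξ₀, hξ₀, ζ₀, hζ₀, hne⟩ := hcon
  obtain ⟨hv₀, heq₀⟩ : classInner (τ₁ ξ₀) (τ₂ ζ₀) = ε₁ * ε₂ ∧ ε₁ • τ₁ ξ₀ = ε₂ • τ₂ ζ₀ := by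
    rcases hval ξ₀ hξ₀ ζ₀ hζ₀ with h | h
    · exact absurd h hne
    · exact h
  obtain ⟨ζ', hζ', hζ'ne⟩ : ∃ ζ' ∈ S₂, ζ' ≠ ζ₀ := by
    by_cases h : ζ₀ = ζ₁
    · exact ⟨ζ₂, hζ₂, by rw [h]; exact hζ₁₂⟩
    · exact ⟨ζ₁, hζ₁, fun h' => h h'.symm⟩
  have hsi₁ : ∀ f g : G → ℂ, ε₁ • f = ε₁ • g → f = g :=
    fun f g h => smul_right_injective _ hε₁0 h
  have hsi₂ : ∀ f g : G → ℂ, ε₂ • f = ε₂ • g → f = g :=
    fun f g h => smul_right_injective _ hε₂0 h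
  have hv₀' : classInner (τ₁ ξ₀) (τ₂ ζ') = 0 := by
    rcases hval ξ₀ hξ₀ ζ' hζ' with h | ⟨-, h⟩
    · exact h
    · exfalso
      have h3 : ε₂ • τ₂ ζ' = ε₂ • τ₂ ζ₀ := by rw [← heq₀, h]
      exact hζ'ne (hinj₂ ζ' hζ' ζ₀ hζ₀ (hsi₂ _ _ h3))
  have hr₀ := hrel ξ₀ hξ₀ ζ₀ hζ₀ ζ' hζ'
  rw [hv₀, hv₀', sub_zero] at hr₀
  have hb₀ := hbpos ξ₀ hξ₀
  obtain ⟨hv₁, heq₁⟩ : classInner (τ₁ ξ₁) (τ₂ ζ₀) = ε₁ * ε₂ ∧ ε₁ • τ₁ ξ₁ = ε₂ • τ₂ ζ₀ := by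
    rcases hval ξ₁ hξ₁ ζ₀ hζ₀ with h | h
    · exfalso
      rcases hval ξ₁ hξ₁ ζ' hζ' with h' | ⟨h', -⟩
      · rw [h, h', sub_zero, mul_zero] at hr₀
        exact hσ0 hr₀
      · rw [h, h', zero_sub] at hr₀
        have h3 : ((1 + b ξ₀ : ℤ) : ℂ) * (ε₁ * ε₂) = 0 := by
          push_cast
          linear_combination hr₀
        rcases mul_eq_zero.mp h3 with h4 | h4
        · have h5 : (1 + b ξ₀ : ℤ) = 0 := by exact_mod_cast h4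
          omega
        · exact hσ0 h4
    · exact h
  have hv₁' : classInner (τ₁ ξ₂) (τ₂ ζ₀) = 0 := by
    rcases hval ξ₂ hξ₂ ζ₀ hζ₀ with h | ⟨-, h⟩
    · exact h
    · exfalso
      have h3 : ε₁ • τ₁ ξ₂ = ε₁ • τ₁ ξ₁ := by rw [h, heq₁]
      exact hξ₁₂ (hinj₁ ξ₂ hξ₂ ξ₁ hξ₁ (hsi₁ _ _ h3))
  have hv₁'' : classInner (τ₁ ξ₁) (τ₂ ζ') = 0 := by
    rcases hval ξ₁ hξ₁ ζ' hζ' with h | ⟨-, h⟩
    · exact h
    · exfalso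
      have h3 : ε₂ • τ₂ ζ' = ε₂ • τ₂ ζ₀ := by rw [← heq₁, h]
      exact hζ'ne (hinj₂ ζ' hζ' ζ₀ hζ₀ (hsi₂ _ _ h3))
  have hr₂ := hrel ξ₂ hξ₂ ζ₀ hζ₀ ζ' hζ'
  rw [hv₁', hv₁, hv₁'', sub_zero, zero_sub] at hr₂
  have hb₂ := hbpos ξ₂ hξ₂
  rcases hval ξ₂ hξ₂ ζ' hζ' with h | ⟨h, -⟩
  · rw [h, neg_zero] at hr₂
    rcases mul_eq_zero.mp hr₂.symm with h4 | h4
    · have h5 : b ξ₂ = 0 := by exact_mod_cast h4
      omega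
    · exact hσ0 h4
  · rw [h] at hr₂
    have h3 : ((1 + b ξ₂ : ℤ) : ℂ) * (ε₁ * ε₂) = 0 := by
      push_cast
      linear_combination -hr₂
    rcases mul_eq_zero.mp h3 with h4 | h4
    · have h5 : (1 + b ξ₂ : ℤ) = 0 := by exact_mod_cast h4
      omega
    · exact hσ0 h4

end SibA

end Cfsg.Agent.H19
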