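import Mathlib
import Cfsg.Prelude.Def_OddOrderChar
import Cfsg.Agent.H19.SibA

/-!
# Sibley's coherence theorem: the gluing lemma (helper19)
-/

set_option autoImplicit false
set_option linter.style.haveILetI false
set_option linter.unusedSectionVars false
set_option linter.unusedVariables false

namespace Cfsg.Agent.H19

open Cfsg Cfsg.Agent.H4 Cfsg.Agent.H32
open scoped ComplexConjugate

section SibB

variable {L : Type*} [Group L] [Fintype L] {G : Type*} [Group G] [Fintype G]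

set_option maxHeartbeats 3200000 in
/-- The gluing lemma. -/
theorem sib_glue (S₁ S₂ : Finset (L → ℂ))
    (hirr₁ : ∀ ξ ∈ S₁, IsIrrCharacter L ξ) (hirr₂ : ∀ ζ ∈ S₂, IsIrrCharacter L ζ)
    (hdisj : ∀ ξ ∈ S₁, ξ ∉ S₂)
    (τ τ₁ τ₂ : (L → ℂ) → (G → ℂ))
    (hτ : IsLinearIsometryOn (zspanOn ((↑S₁ : Set (L → ℂ)) ∪ ↑S₂) {1}ᶜ) τ)
    (hτ₁ : IsLinearIsometryOn (zspan (↑S₁ : Set (L → ℂ))) τ₁)
    (hag₁ : ∀ α ∈ zspanOn (↑S₁ : Set (L → ℂ)) {1}ᶜ, τ₁ α = τ α)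
    (hτ₂ : IsLinearIsometryOn (zspan (↑S₂ : Set (L → ℂ))) τ₂)
    (hag₂ : ∀ α ∈ zspanOn (↑S₂ : Set (L → ℂ)) {1}ᶜ, τ₂ α = τ α)
    (ξ₁ ξ₂ ζ₁ ζ₂ : L → ℂ) (hξ₁ : ξ₁ ∈ S₁) (hξ₂ : ξ₂ ∈ S₁) (hξ₁₂ : ξ₂ ≠ ξ₁)
    (hζ₁ : ζ₁ ∈ S₂) (hζ₂ : ζ₂ ∈ S₂) (hζ₁₂ : ζ₂ ≠ ζ₁)
    (a d₂ : ℤ) (ha : 0 < a) (hd₂pos : 0 < d₂) (hd₂ : ∀ ζ ∈ S₂, ζ 1 = (d₂ : ℂ))
    (b : (L → ℂ) → ℤ) (hbpos : ∀ ξ ∈ S₁, 0 < b ξ)
    (hb : ∀ ξ ∈ S₁, ξ 1 = ((b ξ * (a * d₂) : ℤ) : ℂ)) (hb₁ : b ξ₁ = 1)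
    (horth : ∀ ξ ∈ S₁, ∀ ζ ∈ S₂, classInner (τ₁ ξ) (τ₂ ζ) = 0)
    (hH : ∃ k : ℤ, classInner (τ (ξ₁ - a • ζ₁)) (τ₂ ζ₂) = ((a * k : ℤ) : ℂ)) :
    IsCoherent ((↑S₁ : Set (L → ℂ)) ∪ ↑S₂) {1}ᶜ τ := by
  classical
  obtain ⟨k, hk⟩ := hH
  have hinner : ∀ χ ψ : L → ℂ, IsIrrCharacter L χ → IsIrrCharacter L ψ →
      classInner χ ψ = if χ = ψ then 1 else 0 := by
    intro χ ψ hχ hψ
    have := irr_inner (⟨χ, hχ⟩ : IrrCharacter L) ⟨ψ, hψ⟩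
    simp only [Subtype.mk.injEq] at this
    exact this
  have hS₁S : (↑S₁ : Set (L → ℂ)) ⊆ ↑S₁ ∪ ↑S₂ := Set.subset_union_left
  have hS₂S : (↑S₂ : Set (L → ℂ)) ⊆ (↑S₁ : Set (L → ℂ)) ∪ ↑S₂ := Set.subset_union_right
  have hmem₁ : ∀ ξ ∈ S₁, ξ ∈ zspan (↑S₁ : Set (L → ℂ)) :=
    fun ξ hξ => Submodule.subset_span (Finset.mem_coe.mpr hξ)
  have hmem₂ : ∀ ζ ∈ S₂, ζ ∈ zspan (↑S₂ : Set (L → ℂ)) :=
    fun ζ hζ => Submodule.subset_span (Finset.mem_coe.mpr hζ)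
  have hne12 : ∀ ξ ∈ S₁, ∀ ζ ∈ S₂, ξ ≠ ζ := fun ξ hξ ζ hζ h => hdisj ξ hξ (h ▸ hζ)
  have hζ₁S₁ : ζ₁ ∉ S₁ := fun h => hdisj ζ₁ h hζ₁
  -- the elements vanishing at 1
  have hαmem : ∀ ξ ∈ S₁, ξ - b ξ • ξ₁ ∈ zspanOn (↑S₁ : Set (L → ℂ)) {1}ᶜ := by
    intro ξ hξ
    apply mem_zspanOn_compl_one
    · exact Submodule.sub_mem _ (hmem₁ ξ hξ) (Submodule.smul_mem _ _ (hmem₁ ξ₁ hξ₁))
    · rw [Pi.sub_apply, Pi.smul_apply, hb ξ hξ, hb ξ₁ hξ₁, hb₁, zsmul_eq_mul]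
      push_cast
      ring
  have hβmem : ∀ ζ ∈ S₂, ζ - ζ₁ ∈ zspanOn (↑S₂ : Set (L → ℂ)) {1}ᶜ := by
    intro ζ hζ
    apply mem_zspanOn_compl_one
    · exact Submodule.sub_mem _ (hmem₂ ζ hζ) (hmem₂ ζ₁ hζ₁)
    · rw [Pi.sub_apply, hd₂ ζ hζ, hd₂ ζ₁ hζ₁, sub_self]
  have hγmem : ξ₁ - a • ζ₁ ∈ zspanOn ((↑S₁ : Set (L → ℂ)) ∪ ↑S₂) {1}ᶜ := by
    apply mem_zspanOn_compl_one
    · exact Submodule.sub_mem _ (Submodule.span_mono hS₁S (hmem₁ ξ₁ hξ₁))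
        (Submodule.smul_mem _ _ (Submodule.span_mono hS₂S (hmem₂ ζ₁ hζ₁)))
    · rw [Pi.sub_apply, Pi.smul_apply, hb ξ₁ hξ₁, hb₁, hd₂ ζ₁ hζ₁, zsmul_eq_mul]
      push_cast
      ring
  have eα : ∀ ξ ∈ S₁, τ (ξ - b ξ • ξ₁) = τ₁ ξ - b ξ • τ₁ ξ₁ := by
    intro ξ hξ
    rw [← hag₁ _ (hαmem ξ hξ)]
    have := linIso_zspan_sub hτ₁ (hmem₁ ξ hξ) (hmem₁ ξ₁ hξ₁) 1 (b ξ)
    rwa [one_smul, one_smul] at this
  have eβ : ∀ ζ ∈ S₂, τ (ζ - ζ₁) = τ₂ ζ - τ₂ ζ₁ := by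
    intro ζ hζ
    rw [← hag₂ _ (hβmem ζ hζ)]
    have := linIso_zspan_sub hτ₂ (hmem₂ ζ hζ) (hmem₂ ζ₁ hζ₁) 1 1
    rwa [one_smul, one_smul, one_smul, one_smul] at this
  obtain ⟨V, hV⟩ : ∃ V, V = τ (ξ₁ - a • ζ₁) := ⟨_, rfl⟩
  rw [← hV] at hk
  have hVgen : IsGeneralizedCharacter G V := by
    rw [hV]
    exact hτ.2.2.2 _ hγmem
  have hVV : classInner V V = ((1 + a ^ 2 : ℤ) : ℂ) := by
    rw [hV, hτ.2.2.1 _ hγmem _ hγmem]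
    simp only [classInner_sub_left, classInner_sub_right, classInner_zsmul_left,
      classInner_zsmul_right]
    rw [hinner ξ₁ ξ₁ (hirr₁ ξ₁ hξ₁) (hirr₁ ξ₁ hξ₁), hinner ξ₁ ζ₁ (hirr₁ ξ₁ hξ₁) (hirr₂ ζ₁ hζ₁),
      hinner ζ₁ ξ₁ (hirr₂ ζ₁ hζ₁) (hirr₁ ξ₁ hξ₁), hinner ζ₁ ζ₁ (hirr₂ ζ₁ hζ₁) (hirr₂ ζ₁ hζ₁),
      if_pos rfl, if_neg (hne12 ξ₁ hξ₁ ζ₁ hζ₁), if_neg (Ne.symm (hne12 ξ₁ hξ₁ ζ₁ hζ₁)),
      if_pos rfl]
    push_cast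
    ring
  -- inner products with the images of `S₁`
  obtain ⟨x₁, hx₁⟩ := genChar_inner_int hVgen (hτ₁.2.2.2 ξ₁ (hmem₁ ξ₁ hξ₁))
  obtain ⟨c, hc⟩ : ∃ c : ℤ, c = 1 - x₁ := ⟨_, rfl⟩
  have hVξ : ∀ ξ ∈ S₁, classInner V (τ₁ ξ) =
      (((if ξ = ξ₁ then 1 else 0) - b ξ * c : ℤ) : ℂ) := by
    intro ξ hξ
    have h1 := hτ.2.2.1 _ hγmem _ (zspanOn_mono hS₁S (hαmem ξ hξ))
    rw [eα ξ hξ, ← hV] at h1
    have h2 : classInner (ξ₁ - a • ζ₁) (ξ - b ξ • ξ₁) =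
        (((if ξ = ξ₁ then 1 else 0) - b ξ : ℤ) : ℂ) := by
      simp only [classInner_sub_left, classInner_sub_right, classInner_zsmul_left,
        classInner_zsmul_right]
      rw [hinner ξ₁ ξ (hirr₁ ξ₁ hξ₁) (hirr₁ ξ hξ), hinner ξ₁ ξ₁ (hirr₁ ξ₁ hξ₁) (hirr₁ ξ₁ hξ₁),
        hinner ζ₁ ξ (hirr₂ ζ₁ hζ₁) (hirr₁ ξ hξ), hinner ζ₁ ξ₁ (hirr₂ ζ₁ hζ₁) (hirr₁ ξ₁ hξ₁),
        if_pos rfl, if_neg (Ne.symm (hne12 ξ hξ ζ₁ hζ₁)),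
        if_neg (Ne.symm (hne12 ξ₁ hξ₁ ζ₁ hζ₁))]
      by_cases h : ξ = ξ₁
      · rw [if_pos h.symm, if_pos h]
        push_cast
        ring
      · rw [if_neg (fun h' => h h'.symm), if_neg h]
        push_cast
        ring
    rw [h2, classInner_sub_right, classInner_zsmul_right, hx₁] at h1
    rw [hc]
    push_cast at h1 ⊢
    linear_combination h1
  -- inner products with the images of `S₂`
  have hrelζ : ∀ ζ ∈ S₂, classInner V (τ₂ ζ) - classInner V (τ₂ ζ₁) =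
      ((a - (if ζ = ζ₁ then a else 0) : ℤ) : ℂ) := by
    intro ζ hζ
    have h1 := hτ.2.2.1 _ hγmem _ (zspanOn_mono hS₂S (hβmem ζ hζ))
    rw [eβ ζ hζ, ← hV, classInner_sub_right] at h1
    rw [h1]
    simp only [classInner_sub_left, classInner_sub_right, classInner_zsmul_left]
    rw [hinner ξ₁ ζ (hirr₁ ξ₁ hξ₁) (hirr₂ ζ hζ), hinner ξ₁ ζ₁ (hirr₁ ξ₁ hξ₁) (hirr₂ ζ₁ hζ₁),
      hinner ζ₁ ζ (hirr₂ ζ₁ hζ₁) (hirr₂ ζ hζ), hinner ζ₁ ζ₁ (hirr₂ ζ₁ hζ₁) (hirr₂ ζ₁ hζ₁),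
      if_neg (hne12 ξ₁ hξ₁ ζ hζ), if_neg (hne12 ξ₁ hξ₁ ζ₁ hζ₁), if_pos rfl]
    by_cases h : ζ = ζ₁
    · rw [if_pos h.symm, if_pos h]
      push_cast
      ring
    · rw [if_neg (fun h' => h h'.symm), if_neg h]
      push_cast
      ring
  have hζ₁v : classInner V (τ₂ ζ₁) = ((a * k - a : ℤ) : ℂ) := by
    have h₂ := hrelζ ζ₂ hζ₂
    rw [hk, if_neg hζ₁₂] at h₂
    push_cast at h₂ ⊢
    linear_combination -h₂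
  have hVζ : ∀ ζ ∈ S₂, classInner V (τ₂ ζ) =
      ((a * k - (if ζ = ζ₁ then a else 0) : ℤ) : ℂ) := by
    intro ζ hζ
    have h := hrelζ ζ hζ
    rw [hζ₁v] at h
    by_cases hz : ζ = ζ₁
    · rw [if_pos hz] at h ⊢
      push_cast at h ⊢
      linear_combination h
    · rw [if_neg hz] at h ⊢
      push_cast at h ⊢
      linear_combination h
  -- the orthonormal family
  obtain ⟨e, he⟩ : ∃ e : (L → ℂ) → (G → ℂ), e = fun χ => if χ ∈ S₁ then τ₁ χ else τ₂ χ :=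
    ⟨_, rfl⟩
  obtain ⟨cc, hcc⟩ : ∃ cc : (L → ℂ) → ℤ, cc = fun χ => if χ ∈ S₁ then
      (if χ = ξ₁ then 1 else 0) - b χ * c else a * k - (if χ = ζ₁ then a else 0) := ⟨_, rfl⟩
  have he₁ : ∀ ξ ∈ S₁, e ξ = τ₁ ξ := fun ξ hξ => by rw [he]; exact if_pos hξ
  have he₂ : ∀ ζ ∈ S₂, e ζ = τ₂ ζ := fun ζ hζ => by
    rw [he]
    exact if_neg (fun h => hdisj ζ h hζ)
  have hcc₁ : ∀ ξ ∈ S₁, cc ξ = (if ξ = ξ₁ then 1 else 0) - b ξ * c := fun ξ hξ => by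
    rw [hcc]
    exact if_pos hξ
  have hcc₂ : ∀ ζ ∈ S₂, cc ζ = a * k - (if ζ = ζ₁ then a else 0) := fun ζ hζ => by
    rw [hcc]
    exact if_neg (fun h => hdisj ζ h hζ)
  have h11 : ∀ ξ ∈ S₁, ∀ η ∈ S₁, classInner (τ₁ ξ) (τ₁ η) = if ξ = η then 1 else 0 := by
    intro ξ hξ η hη
    rw [hτ₁.2.2.1 ξ (hmem₁ ξ hξ) η (hmem₁ η hη), hinner ξ η (hirr₁ ξ hξ) (hirr₁ η hη)]
  have h22 : ∀ ζ ∈ S₂, ∀ η ∈ S₂, classInner (τ₂ ζ) (τ₂ η) = if ζ = η then 1 else 0 := by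
    intro ζ hζ η hη
    rw [hτ₂.2.2.1 ζ (hmem₂ ζ hζ) η (hmem₂ η hη), hinner ζ η (hirr₂ ζ hζ) (hirr₂ η hη)]
  have h21 : ∀ ζ ∈ S₂, ∀ ξ ∈ S₁, classInner (τ₂ ζ) (τ₁ ξ) = 0 := by
    intro ζ hζ ξ hξ
    rw [← classInner_conj_symm, horth ξ hξ ζ hζ, map_zero]
  have hee : ∀ χ ∈ S₁ ∪ S₂, ∀ ψ ∈ S₁ ∪ S₂, classInner (e χ) (e ψ) = if χ = ψ then 1 else 0 := by
    intro χ hχ ψ hψ
    rcases Finset.mem_union.mp hχ with h | h <;> rcases Finset.mem_union.mp hψ with h' | h'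
    · rw [he₁ χ h, he₁ ψ h', h11 χ h ψ h']
    · rw [he₁ χ h, he₂ ψ h', horth χ h ψ h', if_neg (hne12 χ h ψ h')]
    · rw [he₂ χ h, he₁ ψ h', h21 χ h ψ h', if_neg (Ne.symm (hne12 ψ h' χ h))]
    · rw [he₂ χ h, he₂ ψ h', h22 χ h ψ h']
  have hVe : ∀ χ ∈ S₁ ∪ S₂, classInner V (e χ) = ((cc χ : ℤ) : ℂ) := by
    intro χ hχ
    rcases Finset.mem_union.mp hχ with h | h
    · rw [he₁ χ h, hcc₁ χ h, hVξ χ h]
    · rw [he₂ χ h, hcc₂ χ h, hVζ χ h]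
  have hproj := (classInner_proj (S₁ ∪ S₂) e (fun χ => ((cc χ : ℤ) : ℂ)) V
    (fun i hi j hj hij => by rw [hee i hi j hj, if_neg hij])
    (fun i hi => by rw [hVe i hi, hee i hi i hi, if_pos rfl, mul_one])).2
  -- the sums of squares
  obtain ⟨sb, hsbdef⟩ : ∃ sb : ℤ, sb = ∑ ξ ∈ S₁, b ξ ^ 2 := ⟨_, rfl⟩
  have hsum₁ : ∑ ξ ∈ S₁, cc ξ ^ 2 = 1 - 2 * c + c ^ 2 * sb := by
    have h1 : ∀ ξ ∈ S₁, cc ξ ^ 2 = (if ξ = ξ₁ then 1 - 2 * b ξ * c else 0) + c ^ 2 * b ξ ^ 2 := by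
      intro ξ hξ
      rw [hcc₁ ξ hξ]
      split_ifs <;> ring
    rw [Finset.sum_congr rfl h1, Finset.sum_add_distrib, Finset.sum_ite_eq' S₁ ξ₁, if_pos hξ₁,
      ← Finset.mul_sum, hb₁, ← hsbdef]
    ring
  have hsum₂ : ∑ ζ ∈ S₂, cc ζ ^ 2 = (S₂.card : ℤ) * (a * k) ^ 2 + (a ^ 2 - 2 * a ^ 2 * k) := by
    have h1 : ∀ ζ ∈ S₂, cc ζ ^ 2 = (a * k) ^ 2 + (if ζ = ζ₁ then a ^ 2 - 2 * a ^ 2 * k else 0) := by
      intro ζ hζ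
      rw [hcc₂ ζ hζ]
      split_ifs <;> ring
    rw [Finset.sum_congr rfl h1, Finset.sum_add_distrib, Finset.sum_const, Finset.sum_ite_eq' S₂ ζ₁,
      if_pos hζ₁, nsmul_eq_mul]
  have hdisjF : Disjoint S₁ S₂ := Finset.disjoint_left.mpr hdisj
  obtain ⟨W, hW⟩ : ∃ W, W = V - ∑ i ∈ S₁ ∪ S₂, ((cc i : ℤ) : ℂ) • e i := ⟨_, rfl⟩
  rw [← hW] at hproj
  have hWW : classInner W W = ((-(c * (c * sb - 2)) -
      a ^ 2 * (k * ((S₂.card : ℤ) * k - 2)) : ℤ) : ℂ) := by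
    rw [hproj, hVV]
    have h1 : ∑ i ∈ S₁ ∪ S₂, ((cc i : ℤ) : ℂ) * (starRingEnd ℂ) ((cc i : ℤ) : ℂ) *
        (starRingEnd ℂ) (classInner (e i) (e i)) = ((∑ i ∈ S₁ ∪ S₂, cc i ^ 2 : ℤ) : ℂ) := by
      push_cast
      apply Finset.sum_congr rfl
      intro i hi
      rw [hee i hi i hi, if_pos rfl, map_one, map_intCast]
      ring
    rw [h1, Finset.sum_union hdisjF, hsum₁, hsum₂]
    push_cast
    ring
  -- the integer inequality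
  have hs2 : 2 ≤ sb := by
    have hsub : ({ξ₁, ξ₂} : Finset (L → ℂ)) ⊆ S₁ := by
      intro x hx
      rcases Finset.mem_insert.mp hx with rfl | hx
      · exact hξ₁
      · rw [Finset.mem_singleton.mp hx]
        exact hξ₂
    have h1 := Finset.sum_le_sum_of_subset_of_nonneg hsub
      (f := fun ξ => b ξ ^ 2) (fun i _ _ => sq_nonneg _)
    rw [Finset.sum_pair (Ne.symm hξ₁₂), hb₁] at h1
    have h2 := hbpos ξ₂ hξ₂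
    rw [hsbdef]
    nlinarith
  have hm2 : (2 : ℤ) ≤ (S₂.card : ℤ) := by
    have : 1 < S₂.card := Finset.one_lt_card.mpr ⟨ζ₁, hζ₁, ζ₂, hζ₂, Ne.symm hζ₁₂⟩
    omega
  have hn1 := sib_int_nonneg c sb hs2
  have hn2 := sib_int_nonneg k (S₂.card : ℤ) hm2
  have hle : c * (c * sb - 2) + a ^ 2 * (k * ((S₂.card : ℤ) * k - 2)) ≤ 0 := by
    have h0 := classInner_self_re_nonneg W
    rw [hWW, Complex.intCast_re] at h0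
    have h0' : (0 : ℤ) ≤ -(c * (c * sb - 2)) - a ^ 2 * (k * ((S₂.card : ℤ) * k - 2)) := by
      exact_mod_cast h0
    linarith
  have ha2 : 0 < a ^ 2 := by positivity
  have hn2' : 0 ≤ a ^ 2 * (k * ((S₂.card : ℤ) * k - 2)) := mul_nonneg ha2.le (by
    have : k * ((S₂.card : ℤ) * k - 2) = k * (k * (S₂.card : ℤ) - 2) := by ring
    rw [this]
    exact hn2)
  have hc0 : c * (c * sb - 2) = 0 := by linarith
  have hk0 : k * (k * (S₂.card : ℤ) - 2) = 0 := by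
    have h1 : a ^ 2 * (k * ((S₂.card : ℤ) * k - 2)) = 0 := by linarith
    rcases mul_eq_zero.mp h1 with h | h
    · exact absurd h ha2.ne'
    · rw [← h]
      ring
  have hW0 : W = 0 := by
    apply classInner_self_eq_zero
    rw [hWW]
    have : -(c * (c * sb - 2)) - a ^ 2 * (k * ((S₂.card : ℤ) * k - 2)) = 0 := by
      have h1 : k * ((S₂.card : ℤ) * k - 2) = 0 := by
        rw [← hk0]
        ring
      rw [hc0, h1]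
      ring
    rw [this]
    simp
  -- the new images
  obtain ⟨P₁, hP₁⟩ : ∃ P₁ : G → ℂ, P₁ = ∑ η ∈ S₁, b η • τ₁ η := ⟨_, rfl⟩
  obtain ⟨P₂, hP₂⟩ : ∃ P₂ : G → ℂ, P₂ = ∑ η ∈ S₂, τ₂ η := ⟨_, rfl⟩
  obtain ⟨T, hT⟩ : ∃ T : (L → ℂ) → (G → ℂ), T = fun χ => if χ ∈ S₁ then
      τ₁ χ - (c * b χ) • P₁ else τ₂ χ - (k * 1) • P₂ := ⟨_, rfl⟩
  have hT₁ : ∀ ξ ∈ S₁, T ξ = τ₁ ξ - (c * b ξ) • P₁ := fun ξ hξ => by
    rw [hT]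
    exact if_pos hξ
  have hT₂ : ∀ ζ ∈ S₂, T ζ = τ₂ ζ - (k * 1) • P₂ := fun ζ hζ => by
    rw [hT]
    exact if_neg (fun h => hdisj ζ h hζ)
  -- `V` in terms of the new images
  have hVT : V = T ξ₁ - a • T ζ₁ := by
    have h1 : V = ∑ i ∈ S₁ ∪ S₂, ((cc i : ℤ) : ℂ) • e i := by
      have := hW0
      rw [hW] at this
      exact sub_eq_zero.mp this
    rw [h1, Finset.sum_union hdisjF]
    have h2 : ∑ i ∈ S₁, ((cc i : ℤ) : ℂ) • e i = τ₁ ξ₁ - c • P₁ := by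
      have h3 : ∀ ξ ∈ S₁, ((cc ξ : ℤ) : ℂ) • e ξ =
          (if ξ = ξ₁ then τ₁ ξ else 0) - c • (b ξ • τ₁ ξ) := by
        intro ξ hξ
        rw [← zsmul_fun_eq_smul, he₁ ξ hξ, hcc₁ ξ hξ]
        split_ifs <;> module
      rw [Finset.sum_congr rfl h3, Finset.sum_sub_distrib, Finset.sum_ite_eq' S₁ ξ₁, if_pos hξ₁,
        ← Finset.smul_sum, ← hP₁]
    have h4 : ∑ i ∈ S₂, ((cc i : ℤ) : ℂ) • e i = (a * k) • P₂ - a • τ₂ ζ₁ := by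
      have h5 : ∀ ζ ∈ S₂, ((cc ζ : ℤ) : ℂ) • e ζ =
          (a * k) • τ₂ ζ - (if ζ = ζ₁ then a • τ₂ ζ else 0) := by
        intro ζ hζ
        rw [← zsmul_fun_eq_smul, he₂ ζ hζ, hcc₂ ζ hζ]
        split_ifs <;> module
      rw [Finset.sum_congr rfl h5, Finset.sum_sub_distrib, Finset.sum_ite_eq' S₂ ζ₁, if_pos hζ₁,
        ← Finset.smul_sum, ← hP₂]
    rw [h2, h4, hT₁ ξ₁ hξ₁, hT₂ ζ₁ hζ₁, hb₁]
    module
  -- inner products with `P₁` and `P₂`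
  have hξP₁ : ∀ ξ ∈ S₁, classInner (τ₁ ξ) P₁ = ((b ξ : ℤ) : ℂ) := by
    intro ξ hξ
    rw [hP₁, classInner_sum_right]
    have h1 : ∀ η ∈ S₁, classInner (τ₁ ξ) (b η • τ₁ η) = if η = ξ then ((b η : ℤ) : ℂ) else 0 := by
      intro η hη
      rw [classInner_zsmul_right, h11 ξ hξ η hη]
      by_cases h : η = ξ
      · rw [if_pos h.symm, if_pos h, mul_one]
      · rw [if_neg (fun h' => h h'.symm), if_neg h, mul_zero]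
    rw [Finset.sum_congr rfl h1, Finset.sum_ite_eq' S₁ ξ, if_pos hξ]
  have hP₁ξ : ∀ ξ ∈ S₁, classInner P₁ (τ₁ ξ) = ((b ξ : ℤ) : ℂ) := by
    intro ξ hξ
    rw [← classInner_conj_symm, hξP₁ ξ hξ, map_intCast]
  have hP₁P₁ : classInner P₁ P₁ = ((sb : ℤ) : ℂ) := by
    have h1 : classInner P₁ P₁ = classInner (∑ η ∈ S₁, b η • τ₁ η) P₁ := by rw [← hP₁]
    rw [h1, classInner_sum_left, hsbdef]
    push_cast
    apply Finset.sum_congr rfl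
    intro η hη
    rw [classInner_zsmul_left, hξP₁ η hη]
    ring
  have hζP₂ : ∀ ζ ∈ S₂, classInner (τ₂ ζ) P₂ = (((1 : ℤ) : ℤ) : ℂ) := by
    intro ζ hζ
    rw [hP₂, classInner_sum_right]
    have h1 : ∀ η ∈ S₂, classInner (τ₂ ζ) (τ₂ η) = if η = ζ then (1 : ℂ) else 0 := by
      intro η hη
      rw [h22 ζ hζ η hη]
      by_cases h : η = ζ
      · rw [if_pos h.symm, if_pos h]
      · rw [if_neg (fun h' => h h'.symm), if_neg h]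
    rw [Finset.sum_congr rfl h1, Finset.sum_ite_eq' S₂ ζ, if_pos hζ]
    simp
  have hP₂ζ : ∀ ζ ∈ S₂, classInner P₂ (τ₂ ζ) = (((1 : ℤ) : ℤ) : ℂ) := by
    intro ζ hζ
    rw [← classInner_conj_symm, hζP₂ ζ hζ, map_intCast]
  have hP₂P₂ : classInner P₂ P₂ = (((S₂.card : ℤ) : ℤ) : ℂ) := by
    have h1 : classInner P₂ P₂ = classInner (∑ η ∈ S₂, τ₂ η) P₂ := by rw [← hP₂]
    rw [h1, classInner_sum_left, Finset.sum_congr rfl (fun η hη => hζP₂ η hη), Finset.sum_const,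
      nsmul_eq_mul]
    push_cast
    ring
  have hξP₂ : ∀ ξ ∈ S₁, classInner (τ₁ ξ) P₂ = 0 := by
    intro ξ hξ
    rw [hP₂, classInner_sum_right]
    exact Finset.sum_eq_zero (fun η hη => horth ξ hξ η hη)
  have hP₁ζ : ∀ ζ ∈ S₂, classInner P₁ (τ₂ ζ) = 0 := by
    intro ζ hζ
    rw [hP₁, classInner_sum_left]
    exact Finset.sum_eq_zero (fun η hη => by
      rw [classInner_zsmul_left, horth η hη ζ hζ, mul_zero])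
  have hP₁P₂ : classInner P₁ P₂ = 0 := by
    rw [hP₂, classInner_sum_right]
    exact Finset.sum_eq_zero (fun η hη => hP₁ζ η hη)
  have hζP₁ : ∀ ζ ∈ S₂, classInner (τ₂ ζ) P₁ = 0 := by
    intro ζ hζ
    rw [← classInner_conj_symm, hP₁ζ ζ hζ, map_zero]
  have hP₂ξ : ∀ ξ ∈ S₁, classInner P₂ (τ₁ ξ) = 0 := by
    intro ξ hξ
    rw [← classInner_conj_symm, hξP₂ ξ hξ, map_zero]
  have hP₂P₁ : classInner P₂ P₁ = 0 := by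
    rw [← classInner_conj_symm, hP₁P₂, map_zero]
  have hk0' : k * (k * (S₂.card : ℤ) - 2) = 0 := hk0
  -- the Gram matrix of `T`
  have hTT : ∀ χ ∈ S₁ ∪ S₂, ∀ ψ ∈ S₁ ∪ S₂, classInner (T χ) (T ψ) = if χ = ψ then 1 else 0 := by
    intro χ hχ ψ hψ
    rcases Finset.mem_union.mp hχ with h | h <;> rcases Finset.mem_union.mp hψ with h' | h'
    · rw [hT₁ χ h, hT₁ ψ h', sib_refl_inner P₁ (τ₁ χ) (τ₁ ψ) c sb (b χ) (b ψ) hP₁P₁ hc0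
        (hξP₁ χ h) (hP₁ξ ψ h'), h11 χ h ψ h']
    · rw [hT₁ χ h, hT₂ ψ h', if_neg (hne12 χ h ψ h')]
      simp only [classInner_sub_left, classInner_sub_right, classInner_zsmul_left,
        classInner_zsmul_right]
      rw [horth χ h ψ h', hξP₂ χ h, hP₁ζ ψ h', hP₁P₂]
      ring
    · rw [hT₂ χ h, hT₁ ψ h', if_neg (Ne.symm (hne12 ψ h' χ h))]
      simp only [classInner_sub_left, classInner_sub_right, classInner_zsmul_left,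
        classInner_zsmul_right]
      rw [h21 χ h ψ h', hζP₁ χ h, hP₂ξ ψ h', hP₂P₁]
      ring
    · rw [hT₂ χ h, hT₂ ψ h', sib_refl_inner P₂ (τ₂ χ) (τ₂ ψ) k (S₂.card : ℤ) 1 1 hP₂P₂ hk0'
        (hζP₂ χ h) (hP₂ζ ψ h'), h22 χ h ψ h']
  -- assembling
  have hP₁gen : IsGeneralizedCharacter G P₁ := by
    rw [hP₁]
    exact isGeneralizedCharacter_sum _ _ (fun η hη =>
      isGeneralizedCharacter_zsmul _ (hτ₁.2.2.2 η (hmem₁ η hη)))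
  have hP₂gen : IsGeneralizedCharacter G P₂ := by
    rw [hP₂]
    exact isGeneralizedCharacter_sum _ _ (fun η hη => hτ₂.2.2.2 η (hmem₂ η hη))
  have hSmem : ∀ χ, χ ∈ ((↑S₁ : Set (L → ℂ)) ∪ ↑S₂) ↔ χ ∈ S₁ ∪ S₂ := by
    intro χ
    rw [Set.mem_union, Finset.mem_coe, Finset.mem_coe, Finset.mem_union]
  have hirrS : ∀ χ ∈ S₁ ∪ S₂, IsIrrCharacter L χ := by
    intro χ hχ
    rcases Finset.mem_union.mp hχ with h | h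
    · exact hirr₁ χ h
    · exact hirr₂ χ h
  obtain ⟨d, hd⟩ : ∃ d : (L → ℂ) → ℤ, d = fun χ => if χ ∈ S₁ then b χ * (a * d₂) else d₂ :=
    ⟨_, rfl⟩
  have hd₁' : ∀ ξ ∈ S₁, d ξ = b ξ * (a * d₂) := fun ξ hξ => by
    rw [hd]
    exact if_pos hξ
  have hd₂' : ∀ ζ ∈ S₂, d ζ = d₂ := fun ζ hζ => by
    rw [hd]
    exact if_neg (fun h => hdisj ζ h hζ)
  refine ⟨⟨ζ₂ - ζ₁, zspanOn_mono hS₂S (hβmem ζ₂ hζ₂), fun h0 => hζ₁₂ (sub_eq_zero.mp h0)⟩, ?_⟩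
  apply coherence_of_T _ τ hτ
    (fun χ hχ ψ hψ hne => by
      rw [hinner χ ψ (hirrS χ ((hSmem χ).mp hχ)) (hirrS ψ ((hSmem ψ).mp hψ)), if_neg hne])
    (fun χ hχ => by
      rw [hinner χ χ (hirrS χ ((hSmem χ).mp hχ)) (hirrS χ ((hSmem χ).mp hχ)), if_pos rfl]
      exact one_ne_zero)
    d
    (fun χ hχ => by
      rcases Finset.mem_union.mp ((hSmem χ).mp hχ) with h | h
      · rw [hd₁' χ h, hb χ h]
      · rw [hd₂' χ h, hd₂ χ h])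
    ζ₁ ((hSmem ζ₁).mpr (Finset.mem_union_right _ hζ₁))
    (by rw [hd₂' ζ₁ hζ₁]; exact hd₂pos.ne') T
  · intro χ hχ
    rcases Finset.mem_union.mp ((hSmem χ).mp hχ) with h | h
    · rw [hT₁ χ h]
      exact isGeneralizedCharacter_sub (hτ₁.2.2.2 χ (hmem₁ χ h))
        (isGeneralizedCharacter_zsmul _ hP₁gen)
    · rw [hT₂ χ h]
      exact isGeneralizedCharacter_sub (hτ₂.2.2.2 χ (hmem₂ χ h))
        (isGeneralizedCharacter_zsmul _ hP₂gen)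
  · intro χ hχ ψ hψ
    rw [hTT χ ((hSmem χ).mp hχ) ψ ((hSmem ψ).mp hψ),
      hinner χ ψ (hirrS χ ((hSmem χ).mp hχ)) (hirrS ψ ((hSmem ψ).mp hψ))]
  · intro ψ hψ
    rw [hd₂' ζ₁ hζ₁]
    rcases Finset.mem_union.mp ((hSmem ψ).mp hψ) with h | h
    · -- ψ ∈ S₁
      rw [hd₁' ψ h]
      have hα := zspanOn_mono hS₁S (hαmem ψ h)
      have e1 : (b ψ * (a * d₂)) • ζ₁ - d₂ • ψ =
          (-d₂) • (ψ - b ψ • ξ₁) + (-(d₂ * b ψ)) • (ξ₁ - a • ζ₁) := by module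
      rw [e1, hτ.1 _ (zspanOn_zsmul _ hα) _ (zspanOn_zsmul _ hγmem), hτ.2.1 _ hα, hτ.2.1 _ hγmem,
        eα ψ h, ← hV, hVT, hT₁ ψ h, hT₁ ξ₁ hξ₁, hb₁]
      module
    · -- ψ ∈ S₂
      rw [hd₂' ψ h]
      have hβ := zspanOn_mono hS₂S (hβmem ψ h)
      have e1 : d₂ • ζ₁ - d₂ • ψ = (-d₂) • (ψ - ζ₁) := by module
      rw [e1, hτ.2.1 _ hβ, eβ ψ h, hT₂ ψ h, hT₂ ζ₁ hζ₁]
      module

end SibB

end Cfsg.Agent.H19
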