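import Mathlib
import Cfsg.Prelude.Def_OddOrderChar
import Cfsg.Agent.H19.SibB
import Cfsg.Agent.H19.CohZ2
import Cfsg.Agent.H19.FeitG1
import Cfsg.Agent.H4.TICount
import Cfsg.Agent.S0145

/-!
# Sibley's coherence theorem: the divisibility coming from Peterfalvi (6.7) (helper19)
-/

set_option autoImplicit false
set_option linter.style.haveILetI false
set_option linter.unusedSectionVars false
set_option linter.unusedVariables false

namespace Cfsg.Agent.H19

open Cfsg Cfsg.Agent.H4 Cfsg.Agent.H32 Cfsg.Agent.H5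
open scoped ComplexConjugate

universe u

section General

variable {N : Type*} [Group N] [Fintype N]

/-- The characters not trivial on a nontrivial normal subgroup exist. -/
theorem SKall_nonempty (Z : Subgroup N) [Z.Normal] (hZ1 : Z ≠ ⊥) : (SKall Z).Nonempty := by
  classical
  have hsum := SK_sum_sq Z ⊥ bot_le
  rw [Subgroup.card_bot, one_mul] at hsum
  have hZcard : 1 < Nat.card Z := by
    have h1 : Nat.card Z ≠ 1 := fun h => hZ1 (Subgroup.card_eq_one.mp h)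
    have h2 : 0 < Nat.card Z := Nat.card_pos
    omega
  have hidx : 0 < Z.index := Nat.pos_of_ne_zero Subgroup.index_ne_zero_of_finite
  have hne : ((SK_finite Z ⊥).toFinset).Nonempty := by
    by_contra hcon
    rw [Finset.not_nonempty_iff_eq_empty] at hcon
    rw [hcon, Finset.sum_empty] at hsum
    have h3 : 0 < Z.index * (Nat.card Z - 1) := Nat.mul_pos hidx (by omega)
    omega
  obtain ⟨χ, hχ⟩ := hne
  rw [Set.Finite.mem_toFinset, SK_bot] at hχ
  exact ⟨χ, hχ⟩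

/-- In a group of odd order the conjugate of a character not trivial on `Z` is another such
character of the same degree. -/
theorem SKall_conj (hodd : Odd (Nat.card N)) (Z : Subgroup N) {ξ : N → ℂ} (hξ : ξ ∈ SKall Z) :
    (fun g => conj (ξ g)) ∈ SKall Z ∧ (fun g => conj (ξ g)) ≠ ξ ∧
      degN (fun g => conj (ξ g)) = degN ξ := by
  obtain ⟨hirr, h, hh, hne⟩ := hξ
  refine ⟨⟨isIrrCharacter_conj hirr, h, hh, fun heq => hne ((starRingEnd ℂ).injective heq)⟩,
    ?_, ?_⟩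
  · intro heq
    have hreal : ∀ g : N, ((⟨ξ, hirr⟩ : IrrCharacter N).1 g).im = 0 := by
      intro g
      exact Complex.conj_eq_iff_im.mp (congrFun heq g)
    have h1 := Cfsg.Agent.S0161.result hodd (⟨ξ, hirr⟩ : IrrCharacter N) hreal
    have h2 : ξ = fun _ => 1 := h1
    apply hne
    rw [h2]
  · unfold degN
    simp

/-- The degrees of the characters not trivial on a normal `p`-subgroup containing the
centralizers of its non-identity elements. -/
theorem SKall_pgroup_deg (K : Subgroup N) [K.Normal]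
    (hC : ∀ k ∈ K, k ≠ 1 → Subgroup.centralizer ({k} : Set N) ≤ K)
    (p : ℕ) (hp : p.Prime) (n : ℕ) (hKp : Nat.card K = p ^ n) {ξ : N → ℂ} (hξ : ξ ∈ SKall K) :
    ∃ k, degN ξ = K.index * p ^ k := by
  obtain ⟨φ, hφ, rfl⟩ := Cfsg.Agent.S1528.result K hC ξ hξ.1 hξ.2
  obtain ⟨m, hmdvd, e1⟩ := irr_degree_dvd_card (⟨φ, hφ⟩ : IrrCharacter K)
  have e' : φ 1 = (m : ℂ) := e1
  rw [hKp] at hmdvd
  obtain ⟨k, hk, rfl⟩ := (Nat.dvd_prime_pow hp).mp hmdvd
  have h1 : indFun K φ 1 = ((K.index * p ^ k : ℕ) : ℂ) := by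
    rw [Cfsg.Agent.H82.indFun_one, e']
    push_cast
    ring
  refine ⟨k, ?_⟩
  unfold degN
  rw [h1, Complex.natCast_re, Nat.floor_natCast]

end General

section Concrete

variable {G : Type u} [Group G] [Fintype G] (p : ℕ) [Fact p.Prime] (P : Sylow p G)

local notation "NP" => Subgroup.normalizer ((P : Subgroup G) : Set G)
local notation "HP" => Subgroup.subgroupOf (P : Subgroup G)
  (Subgroup.normalizer ((P : Subgroup G) : Set G))

set_option maxHeartbeats 1600000 in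
/-- The divisibility coming from Peterfalvi (6.7): an irreducible character `Θ` of `G`
orthogonal to the images of the differences `ξ - b ξ • ξ₁` has `a ∣ ⟨ξ₁, Θ|N⟩`. -/
theorem sib_div (hTI : IsTISubset ((P : Subgroup G) : Set G)) [Fintype ↥NP]
    (hodd : Odd (Nat.card ↥NP))
    (ZN : Subgroup ↥NP) [ZN.Normal] (hZ1 : ZN ≠ ⊥) (hZK : ZN ≤ HP)
    (hZc : ∀ z ∈ ZN, ∀ k ∈ HP, z * k = k * z)
    (ξ₁ : ↥NP → ℂ) (hξ₁ : ξ₁ ∈ SKall ZN) (a : ℤ) (ha : 0 < a) (b : (↥NP → ℂ) → ℤ)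
    (hdeg : ∀ ξ ∈ SKall ZN, ξ 1 = ((b ξ * (a * ((HP).index : ℤ)) : ℤ) : ℂ))
    (Θ : G → ℂ) (hΘ : IsIrrCharacter G Θ)
    (hO : ∀ ξ ∈ SKall ZN, classInner (ξ - b ξ • ξ₁) (fun x : ↥NP => Θ x) = 0) :
    ∃ j : ℤ, classInner ξ₁ (fun x : ↥NP => Θ x) = ((a * j : ℤ) : ℂ) := by
  classical
  letI := fintypeIrr ↥NP
  have hres : IsCharacter ↥NP (fun x : ↥NP => Θ x) :=
    isCharacter_restrict NP (isCharacter_of_isIrrCharacter hΘ)
  obtain ⟨res, hresdef⟩ : ∃ res : ↥NP → ℂ, res = fun x : ↥NP => Θ x := ⟨_, rfl⟩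
  rw [← hresdef] at hres hO ⊢
  have hexp := character_eq_sum_ncoef hres
  obtain ⟨ν, hνdef⟩ : ∃ ν : ℕ, ν = ncoef res ⟨ξ₁, hξ₁.1⟩ := ⟨_, rfl⟩
  have hν : classInner ξ₁ res = (ν : ℂ) := by
    rw [hνdef]
    exact ncoef_cast' hres ⟨ξ₁, hξ₁.1⟩
  have hr : ∀ χ : IrrCharacter ↥NP, χ.1 ∈ SKall ZN →
      (ncoef res χ : ℂ) = (b χ.1 : ℂ) * (ν : ℂ) := by
    intro χ hχ
    have h1 := hO χ.1 hχ
    rw [classInner_sub_left, classInner_zsmul_left, ncoef_cast' hres χ, hν] at h1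
    linear_combination h1
  have he0 : ((HP).index : ℂ) ≠ 0 := by
    have : (HP).index ≠ 0 := Subgroup.index_ne_zero_of_finite
    exact_mod_cast this
  have hcardN : (Nat.card ↥NP : ℂ) = ((HP).index : ℂ) * (Nat.card (P : Subgroup G) : ℂ) := by
    have h1 : Nat.card HP * (HP).index = Nat.card ↥NP := Subgroup.card_mul_index _
    have h2 : Nat.card HP = Nat.card (P : Subgroup G) :=
      Nat.card_congr (Subgroup.subgroupOfEquivOfLe Subgroup.le_normalizer).toEquiv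
    rw [← h1, h2]
    push_cast
    ring
  -- the key formula
  have hkey : ∀ w ∈ ZN, w ≠ 1 →
      (a : ℂ) * (Θ 1 - Θ (w : G)) = (ν : ℂ) * (Nat.card (P : Subgroup G) : ℂ) := by
    intro w hw hw1
    have e1 : Θ 1 = ∑ χ : IrrCharacter ↥NP, (ncoef res χ : ℂ) * χ.1 1 := by
      have h := hexp 1
      have h' : res 1 = Θ 1 := by
        rw [hresdef]
        rfl
      rw [← h', h]
    have ew : Θ (w : G) = ∑ χ : IrrCharacter ↥NP, (ncoef res χ : ℂ) * χ.1 w := by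
      have h := hexp w
      have h' : res w = Θ (w : G) := by rw [hresdef]
      rw [← h', h]
    have hcol1 : ∑ χ : IrrCharacter ↥NP, χ.1 1 * χ.1 1 = (Nat.card ↥NP : ℂ) := by
      have h := (Cfsg.Agent.S0145.result (G := ↥NP) 1 1).1 (IsConj.refl 1)
      have hc : Subgroup.centralizer ({1} : Set ↥NP) = ⊤ := by
        rw [Subgroup.centralizer_eq_top_iff_subset]
        simp
      rw [hc, Subgroup.card_top, finsum_irr_eq_sum] at h
      rw [← h]
      apply Finset.sum_congr rfl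
      intro χ _
      rw [irr_one_conj]
    have hcolw : ∑ χ : IrrCharacter ↥NP, χ.1 w * χ.1 1 = 0 := by
      have h := (Cfsg.Agent.S0145.result (G := ↥NP) w 1).2
        (fun h => hw1 (isConj_one_left.mp h))
      rw [finsum_irr_eq_sum] at h
      rw [← h]
      apply Finset.sum_congr rfl
      intro χ _
      rw [irr_one_conj]
    have hterm : ∀ χ : IrrCharacter ↥NP,
        ((a : ℂ) * ((HP).index : ℂ)) * ((ncoef res χ : ℂ) * (χ.1 1 - χ.1 w)) =
          (ν : ℂ) * (χ.1 1 * (χ.1 1 - χ.1 w)) := by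
      intro χ
      by_cases hχ : χ.1 ∈ SKall ZN
      · rw [hr χ hχ, hdeg χ.1 hχ]
        push_cast
        ring
      · have hw' : χ.1 w = χ.1 1 := by
          by_contra hne
          exact hχ ⟨χ.2, w, hw, hne⟩
        rw [hw', sub_self, mul_zero, mul_zero, mul_zero, mul_zero]
    have hsum : ((a : ℂ) * ((HP).index : ℂ)) * (Θ 1 - Θ (w : G)) =
        (ν : ℂ) * (Nat.card ↥NP : ℂ) := by
      rw [e1, ew, ← Finset.sum_sub_distrib]
      have h1 : ∀ χ : IrrCharacter ↥NP, (ncoef res χ : ℂ) * χ.1 1 - (ncoef res χ : ℂ) * χ.1 w =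
          (ncoef res χ : ℂ) * (χ.1 1 - χ.1 w) := fun χ => by ring
      rw [Finset.sum_congr rfl (fun χ _ => h1 χ), Finset.mul_sum,
        Finset.sum_congr rfl (fun χ _ => hterm χ), ← Finset.mul_sum]
      have h2 : ∑ χ : IrrCharacter ↥NP, χ.1 1 * (χ.1 1 - χ.1 w) = (Nat.card ↥NP : ℂ) := by
        have h3 : ∀ χ : IrrCharacter ↥NP, χ.1 1 * (χ.1 1 - χ.1 w) =
            χ.1 1 * χ.1 1 - χ.1 w * χ.1 1 := fun χ => by ring
        rw [Finset.sum_congr rfl (fun χ _ => h3 χ), Finset.sum_sub_distrib, hcol1, hcolw,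
          sub_zero]
      rw [h2]
    rw [hcardN] at hsum
    have h4 : ((HP).index : ℂ) * ((a : ℂ) * (Θ 1 - Θ (w : G))) =
        ((HP).index : ℂ) * ((ν : ℂ) * (Nat.card (P : Subgroup G) : ℂ)) := by
      linear_combination hsum
    exact mul_left_cancel₀ he0 h4
  -- the subgroup of `G`
  obtain ⟨Z, hZdef⟩ : ∃ Z : Subgroup G, Z = ZN.map (Subgroup.subtype NP) := ⟨_, rfl⟩
  have hZmem : ∀ z : G, z ∈ Z ↔ ∃ w ∈ ZN, (w : G) = z := by
    intro z
    rw [hZdef, Subgroup.mem_map]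
    rfl
  have hZ1' : Z ≠ ⊥ := by
    intro hbot
    apply hZ1
    rw [Subgroup.eq_bot_iff_forall]
    intro w hw
    have h1 : (w : G) ∈ Z := (hZmem _).mpr ⟨w, hw, rfl⟩
    rw [hbot, Subgroup.mem_bot] at h1
    exact Subtype.ext h1
  have hZP : Z ≤ (P : Subgroup G) := by
    intro z hz
    obtain ⟨w, hw, rfl⟩ := (hZmem z).mp hz
    exact Subgroup.mem_subgroupOf.mp (hZK hw)
  have hZn : ∀ x ∈ NP, ∀ z ∈ Z, x * z * x⁻¹ ∈ Z := by
    intro x hx z hz
    obtain ⟨w, hw, rfl⟩ := (hZmem z).mp hz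
    exact (hZmem _).mpr ⟨⟨x, hx⟩ * w * ⟨x, hx⟩⁻¹,
      (inferInstance : ZN.Normal).conj_mem w hw ⟨x, hx⟩, rfl⟩
  have hZc' : ∀ z ∈ Z, ∀ y ∈ (P : Subgroup G), z * y = y * z := by
    intro z hz y hy
    obtain ⟨w, hw, rfl⟩ := (hZmem z).mp hz
    have h1 := hZc w hw ⟨y, Subgroup.le_normalizer hy⟩ (Subgroup.mem_subgroupOf.mpr hy)
    exact congrArg Subtype.val h1
  have ha0 : (a : ℂ) ≠ 0 := by exact_mod_cast ha.ne'
  have hconst : ∀ z ∈ Z, ∀ z' ∈ Z, z ≠ 1 → z' ≠ 1 → Θ z = Θ z' := by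
    intro z hz z' hz' hz1 hz'1
    obtain ⟨w, hw, rfl⟩ := (hZmem z).mp hz
    obtain ⟨w', hw', rfl⟩ := (hZmem z').mp hz'
    have h1 := hkey w hw (fun h => hz1 (by rw [h]; rfl))
    have h2 := hkey w' hw' (fun h => hz'1 (by rw [h]; rfl))
    have h3 : (a : ℂ) * Θ (w : G) = (a : ℂ) * Θ (w' : G) := by
      linear_combination h2 - h1
    exact mul_left_cancel₀ ha0 h3
  obtain ⟨w, hw, hw1⟩ : ∃ w ∈ ZN, w ≠ 1 := by
    by_contra hcon
    push Not at hcon
    exact hZ1 ((Subgroup.eq_bot_iff_forall _).mpr hcon)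
  have hwG1 : (w : G) ≠ 1 := fun h => hw1 (Subtype.ext h)
  obtain ⟨n, d, hn, hd, hdvd⟩ := ti_const_congr P hTI hodd Z hZ1' hZP hZn hZc' Θ hΘ hconst
    (w : G) ((hZmem _).mpr ⟨w, hw, rfl⟩) hwG1
  have h5 : (a : ℂ) * ((d : ℂ) - (n : ℂ)) = (ν : ℂ) * (Nat.card (P : Subgroup G) : ℂ) := by
    rw [← hd, ← hn]
    exact hkey w hw hw1
  obtain ⟨j, hj⟩ := hdvd
  have h6 : a * (d - n) = (ν : ℤ) * (Nat.card (P : Subgroup G) : ℤ) := by exact_mod_cast h5
  have hPpos : (0 : ℤ) < (Nat.card (P : Subgroup G) : ℤ) := by exact_mod_cast Nat.card_pos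
  have h7 : (ν : ℤ) = a * j := by
    have h8 : (Nat.card (P : Subgroup G) : ℤ) * (ν : ℤ) =
        (Nat.card (P : Subgroup G) : ℤ) * (a * j) := by
      rw [hj] at h6
      linarith
    exact mul_left_cancel₀ hPpos.ne' h8
  refine ⟨j, ?_⟩
  rw [hν]
  exact_mod_cast h7

end Concrete

end Cfsg.Agent.H19
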