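import Mathlib
import Cfsg.Prelude.Def_OddOrderChar
import Cfsg.Agent.H19.SibC
import Cfsg.Agent.H19.CohC
import Cfsg.Agent.S1529

/-!
# Sibley's coherence theorem for a non-abelian T.I. Sylow `p`-subgroup, `p` odd (helper19)
-/

set_option autoImplicit false
set_option linter.style.haveILetI false
set_option linter.unusedSectionVars false
set_option linter.unusedVariables false

namespace Cfsg.Agent.H19

open Cfsg Cfsg.Agent.H4 Cfsg.Agent.H32 Cfsg.Agent.H5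
open scoped ComplexConjugate commutatorElement

universe u

section SibD

variable {G : Type u} [Group G] [Fintype G] (p : ℕ) [Fact p.Prime] (P : Sylow p G)

local notation "NP" => Subgroup.normalizer ((P : Subgroup G) : Set G)
local notation "HP" => Subgroup.subgroupOf (P : Subgroup G)
  (Subgroup.normalizer ((P : Subgroup G) : Set G))

set_option maxHeartbeats 6400000 in
/-- **Sibley's theorem** for a non-abelian Sylow `p`-subgroup `P` (`p` odd) which is a T.I.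
set containing the centralizers of its non-identity elements: the irreducible characters of
`N_G(P)` not having `P` in their kernel form a coherent set. -/
theorem sibley_core (hp : p ≠ 2) (hna : ¬ IsMulCommutative (P : Subgroup G))
    (hTI : IsTISubset ((P : Subgroup G) : Set G))
    (hC : ∀ k ∈ (P : Subgroup G), k ≠ 1 →
      Subgroup.centralizer ({k} : Set G) ≤ (P : Subgroup G))
    [Fintype ↥NP] :
    IsCoherent (SKall HP) ({1}ᶜ : Set ↥NP) (fun α => indFun NP α) := by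
  classical
  have hpP : p.Prime := Fact.out
  have hp3 : 3 ≤ p := by
    have := hpP.two_le
    omega
  have hC' : ∀ k ∈ HP, k ≠ 1 → Subgroup.centralizer ({k} : Set ↥NP) ≤ HP := by
    intro k hk hk1 x hx
    by_contra hxK
    have hcomm : x * k = k * x := (Subgroup.mem_centralizer_iff.mp hx k rfl).symm
    exact hk1 (normalizer_fpf (P : Subgroup G) hC x hxK k hk hcomm)
  obtain ⟨hτ, hτ1⟩ := indFun_linIso (P : Subgroup G) hTI hC
  obtain ⟨τ, hτdef⟩ : ∃ τ : (↥NP → ℂ) → (G → ℂ), τ = fun α => indFun NP α := ⟨_, rfl⟩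
  have hτ' : IsLinearIsometryOn (zspanOn (SKall HP) ({1}ᶜ : Set ↥NP)) τ := by
    rw [hτdef]
    exact hτ
  have hτ1' : ∀ α ∈ zspanOn (SKall HP) ({1}ᶜ : Set ↥NP), τ α 1 = 0 := by
    rw [hτdef]
    exact hτ1
  rw [← hτdef]
  obtain ⟨n, hn⟩ := IsPGroup.iff_card.mp P.isPGroup'
  have hHcard : Nat.card HP = p ^ n := by
    rw [← hn]
    exact Nat.card_congr (Subgroup.subgroupOfEquivOfLe Subgroup.le_normalizer).toEquiv
  have hcop : Nat.Coprime (HP).index p := by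
    rw [Nat.coprime_comm, Nat.Prime.coprime_iff_not_dvd hpP]
    intro hdvd
    apply P.not_dvd_index
    rw [← Subgroup.relIndex_mul_index (Subgroup.le_normalizer : (P : Subgroup G) ≤ NP)]
    exact Dvd.dvd.mul_right hdvd _
  have hna' : ∃ a ∈ HP, ∃ b ∈ HP, a * b ≠ b * a := by
    by_contra hcon
    push Not at hcon
    apply hna
    refine ⟨⟨fun a b => ?_⟩⟩
    have h1 := hcon ⟨a.1, Subgroup.le_normalizer a.2⟩ (Subgroup.mem_subgroupOf.mpr a.2)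
      ⟨b.1, Subgroup.le_normalizer b.2⟩ (Subgroup.mem_subgroupOf.mpr b.2)
    have h2 : (a : G) * (b : G) = (b : G) * (a : G) := congrArg Subtype.val h1
    exact Subtype.ext h2
  have hKodd : Odd (Nat.card HP) := by
    rw [hHcard]
    exact Odd.pow (hpP.odd_of_ne_two hp)
  have hodd : Odd (Nat.card ↥NP) :=
    odd_of_fpf_nonabelian HP (normalizer_fpf (P : Subgroup G) hC) hKodd hna'
  have he0 : 0 < (HP).index := Nat.pos_of_ne_zero Subgroup.index_ne_zero_of_finite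
  have heodd : Odd (HP).index := Odd.of_dvd_nat hodd (Subgroup.index_dvd_card _)
  -- the central subgroup
  haveI hnilK : Group.IsNilpotent HP := (IsPGroup.of_card hHcard).isNilpotent
  have hnil := cser_self_eq_bot HP
  have hR : (⁅HP, HP⁆ : Subgroup ↥NP) ≠ ⊥ := by
    intro hbot
    obtain ⟨a, ha, b, hb, hab⟩ := hna'
    apply hab
    have h1 : ⁅a, b⁆ ∈ (⁅HP, HP⁆ : Subgroup ↥NP) := Subgroup.commutator_mem_commutator ha hb
    rw [hbot, Subgroup.mem_bot] at h1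
    exact commutatorElement_eq_one_iff_mul_comm.mp h1
  obtain ⟨j, hj1, hj2⟩ := exists_last_cser HP hnil ⁅HP, HP⁆ (Subgroup.commutator_le_left _ _) hR
  obtain ⟨ZN, hZNdef⟩ : ∃ ZN : Subgroup ↥NP, ZN = cser ⁅HP, HP⁆ HP j := ⟨_, rfl⟩
  haveI hZNn : ZN.Normal := by
    rw [hZNdef]
    exact cser_normal _ _ j
  have hZN1 : ZN ≠ ⊥ := by
    rw [hZNdef]
    exact hj1
  have hZNR : ZN ≤ ⁅HP, HP⁆ := by
    rw [hZNdef]
    exact cser_le_left _ _ j
  have hZNK : ZN ≤ HP := hZNR.trans (Subgroup.commutator_le_left _ _)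
  have hZNc : ∀ z ∈ ZN, ∀ k ∈ HP, z * k = k * z := by
    intro z hz k hk
    rw [hZNdef] at hz
    have h1 := cser_comm_mem ⁅HP, HP⁆ HP j hz hk
    rw [hj2, Subgroup.mem_bot] at h1
    calc z * k = (z * k * z⁻¹ * k⁻¹) * k * z := by group
      _ = k * z := by rw [h1, one_mul]
  -- the first coherent set
  obtain ⟨-, τ₁, hτ₁, hag₁⟩ := coh_central HP hC' p hpP hp n hHcard hcop hodd ZN hZN1 hZNK hZNc
    τ hτ' hτ1'
  have hS₁K : SKall ZN ⊆ SKall HP := by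
    rintro χ ⟨hirr, h, hh, hne⟩
    exact ⟨hirr, h, hZNK hh, hne⟩
  obtain ⟨S₁f, hS₁f⟩ : ∃ S₁f : Finset (↥NP → ℂ), S₁f = (SKall_finite ZN).toFinset := ⟨_, rfl⟩
  have hS₁mem : ∀ ξ, ξ ∈ S₁f ↔ ξ ∈ SKall ZN := by
    intro ξ
    rw [hS₁f, Set.Finite.mem_toFinset]
  have hS₁ne : S₁f.Nonempty := by
    obtain ⟨χ, hχ⟩ := SKall_nonempty ZN hZN1
    exact ⟨χ, (hS₁mem χ).mpr hχ⟩
  obtain ⟨ξ₁, hξ₁F, hξ₁min⟩ := Finset.exists_min_image S₁f degN hS₁ne
  have hξ₁ : ξ₁ ∈ SKall ZN := (hS₁mem ξ₁).mp hξ₁F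
  obtain ⟨hξ₂, hξ₁₂, hξ₂deg⟩ := SKall_conj hodd ZN hξ₁
  obtain ⟨k₁, hk₁⟩ := SKall_pgroup_deg HP hC' p hpP n hHcard (hS₁K hξ₁)
  have hdvd₁ : ∀ ξ ∈ SKall ZN, degN ξ₁ ∣ degN ξ := by
    intro ξ hξ
    obtain ⟨k, hk⟩ := SKall_pgroup_deg HP hC' p hpP n hHcard (hS₁K hξ)
    have hle := hξ₁min ξ ((hS₁mem ξ).mpr hξ)
    rw [hk₁, hk] at hle ⊢
    have hkk : k₁ ≤ k := by
      by_contra hcon
      push Not at hcon
      have h1 : p ^ k < p ^ k₁ := Nat.pow_lt_pow_right hpP.one_lt hcon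
      have h2 : (HP).index * p ^ k < (HP).index * p ^ k₁ := Nat.mul_lt_mul_of_pos_left h1 he0
      omega
    exact Nat.mul_dvd_mul_left _ (Nat.pow_dvd_pow _ hkk)
  have hd₁pos : 0 < degN ξ₁ := (degN_irr hξ₁.1).2
  obtain ⟨b, hbdef⟩ : ∃ b : (↥NP → ℂ) → ℤ, b = fun ξ => ((degN ξ / degN ξ₁ : ℕ) : ℤ) :=
    ⟨_, rfl⟩
  have hbmul : ∀ ξ ∈ SKall ZN, degN ξ = (degN ξ / degN ξ₁) * degN ξ₁ :=
    fun ξ hξ => (Nat.div_mul_cancel (hdvd₁ ξ hξ)).symm
  have hbpos : ∀ ξ ∈ SKall ZN, 0 < b ξ := by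
    intro ξ hξ
    rw [hbdef]
    have h1 := (degN_irr hξ.1).2
    have h2 := hbmul ξ hξ
    have h3 : 0 < degN ξ / degN ξ₁ := by
      rcases Nat.eq_zero_or_pos (degN ξ / degN ξ₁) with h | h
      · rw [h, zero_mul] at h2
        omega
      · exact h
    show (0 : ℤ) < ((degN ξ / degN ξ₁ : ℕ) : ℤ)
    exact_mod_cast h3
  have hb₁ : b ξ₁ = 1 := by
    rw [hbdef]
    show ((degN ξ₁ / degN ξ₁ : ℕ) : ℤ) = 1
    rw [Nat.div_self hd₁pos]
    rfl
  obtain ⟨a, hadef⟩ : ∃ a : ℤ, a = ((p ^ k₁ : ℕ) : ℤ) := ⟨_, rfl⟩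
  have ha : 0 < a := by
    rw [hadef]
    exact_mod_cast pow_pos hpP.pos k₁
  have hb : ∀ ξ ∈ SKall ZN, ξ 1 = ((b ξ * (a * ((HP).index : ℤ)) : ℤ) : ℂ) := by
    intro ξ hξ
    rw [(degN_irr hξ.1).1, hbdef, hadef]
    have h2 := hbmul ξ hξ
    have h3 : degN ξ = (degN ξ / degN ξ₁) * (p ^ k₁ * (HP).index) := by
      rw [mul_comm (p ^ k₁), ← hk₁]
      exact h2
    have h4 : ((degN ξ : ℕ) : ℂ) =
        ((degN ξ / degN ξ₁ : ℕ) : ℂ) * (((p ^ k₁ : ℕ) : ℂ) * (((HP).index : ℕ) : ℂ)) := by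
      conv_lhs => rw [h3]
      rw [Nat.cast_mul, Nat.cast_mul]
    show ((degN ξ : ℕ) : ℂ) =
      ((((degN ξ / degN ξ₁ : ℕ) : ℤ) * (((p ^ k₁ : ℕ) : ℤ) * ((HP).index : ℤ)) : ℤ) : ℂ)
    rw [h4, Int.cast_mul, Int.cast_mul, Int.cast_natCast, Int.cast_natCast, Int.cast_natCast]
  -- the second coherent set
  have hHP1 : HP ≠ ⊥ := by
    intro h
    obtain ⟨x, hx, y, hy, hxy⟩ := hna'
    rw [h, Subgroup.mem_bot] at hx hy
    rw [hx, hy] at hxy
    exact hxy rfl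
  have hH'lt : (⁅HP, HP⁆ : Subgroup ↥NP) < HP := comm_lt_of_nilpotent HP hnil HP le_rfl hHP1
  have hlt : Nat.card (⁅HP, HP⁆ : Subgroup ↥NP) < Nat.card HP := by
    have hle := Subgroup.card_le_of_le hH'lt.le
    rcases hle.lt_or_eq with h | h
    · exact h
    · exact absurd (Subgroup.eq_of_le_of_card_ge hH'lt.le h.ge) hH'lt.ne
  have hne : Nat.card HP ≠ ((HP).index + 1) * Nat.card (⁅HP, HP⁆ : Subgroup ↥NP) := by
    intro h
    have h2 : Even ((HP).index + 1) := heodd.add_one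
    rw [h] at hKodd
    exact (Nat.not_even_iff_odd.mpr hKodd) (h2.mul_right _)
  obtain ⟨⟨-, τ₂, hτ₂, hag₂⟩, hdeg₂, ⟨ζ₁, hζ₁⟩⟩ := coh_base HP hC' τ hτ' hτ1' hlt hne
  obtain ⟨hζc, hζ₁₂, -⟩ := SKall_conj hodd HP hζ₁.1
  have hζ₂ : (fun g => conj (ζ₁ g)) ∈ SK HP ⁅HP, HP⁆ := ⟨hζc, fun x hx => by
    show conj (ζ₁ x) = conj (ζ₁ 1)
    rw [hζ₁.2 x hx]⟩
  obtain ⟨S₂f, hS₂f⟩ : ∃ S₂f : Finset (↥NP → ℂ), S₂f = (SK_finite HP ⁅HP, HP⁆).toFinset :=
    ⟨_, rfl⟩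
  have hS₂mem : ∀ ζ, ζ ∈ S₂f ↔ ζ ∈ SK HP ⁅HP, HP⁆ := by
    intro ζ
    rw [hS₂f, Set.Finite.mem_toFinset]
  have hcoe₁ : (↑S₁f : Set (↥NP → ℂ)) = SKall ZN := by rw [hS₁f, Set.Finite.coe_toFinset]
  have hcoe₂ : (↑S₂f : Set (↥NP → ℂ)) = SK HP ⁅HP, HP⁆ := by
    rw [hS₂f, Set.Finite.coe_toFinset]
  have hdisj : ∀ ξ ∈ SKall ZN, ξ ∉ SK HP ⁅HP, HP⁆ := by
    rintro ξ ⟨-, h, hh, hne⟩ hξ2
    exact hne (hξ2.2 h (hZNR hh))
  have hS₂K : SK HP ⁅HP, HP⁆ ⊆ SKall HP := SK_subset_all HP _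
  have hUK : SKall ZN ∪ SK HP ⁅HP, HP⁆ ⊆ SKall HP := Set.union_subset hS₁K hS₂K
  have hτU : IsLinearIsometryOn (zspanOn (SKall ZN ∪ SK HP ⁅HP, HP⁆) ({1}ᶜ : Set ↥NP)) τ :=
    isLinearIsometryOn_mono hτ' (fun f hf => zspanOn_mono hUK hf)
  -- the signs
  obtain ⟨ε₁, hε₁, hI₁, hinj₁⟩ := Cfsg.Agent.S1529.result NP (SKall ZN) (fun χ hχ => hχ.1)
    ⟨ξ₁, hξ₁, _, hξ₂, Ne.symm hξ₁₂⟩ τ₁ hτ₁ (by
      intro α hα hα1
      have hmem := mem_zspanOn_compl_one hα hα1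
      rw [hag₁ α hmem]
      exact hτ1' α (zspanOn_mono hS₁K hmem))
  obtain ⟨ε₂, hε₂, hI₂, hinj₂⟩ := Cfsg.Agent.S1529.result NP (SK HP ⁅HP, HP⁆)
    (fun χ hχ => hχ.1.1) ⟨ζ₁, hζ₁, _, hζ₂, Ne.symm hζ₁₂⟩ τ₂ hτ₂ (by
      intro α hα hα1
      have hmem := mem_zspanOn_compl_one hα hα1
      rw [hag₂ α hmem]
      exact hτ1' α (zspanOn_mono hS₂K hmem))
  have hdeg₂' : ∀ ζ ∈ SK HP ⁅HP, HP⁆, ζ 1 = ((((HP).index : ℤ) : ℤ) : ℂ) := by
    intro ζ hζ
    rw [(degN_irr hζ.1.1).1, hdeg₂ ζ hζ]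
    simp
  have horth := sib_orth (SKall ZN) (SK HP ⁅HP, HP⁆) (fun χ hχ => hχ.1) (fun χ hχ => hχ.1.1)
    hdisj τ τ₁ τ₂ hτU hτ₁ hag₁ hτ₂ hag₂ ε₁ ε₂ hε₁ hε₂ hI₁ hI₂ hinj₁ hinj₂ ξ₁ _ ζ₁ _ hξ₁ hξ₂
    hξ₁₂ hζ₁ hζ₂ hζ₁₂ b hbpos
    (fun ξ hξ => by
      rw [hb ξ hξ, hb ξ₁ hξ₁, hb₁]
      push_cast
      ring)
    (fun ζ hζ => by rw [hdeg₂' ζ hζ, hdeg₂' ζ₁ hζ₁])
  -- the divisibility
  have hH : ∃ k : ℤ, classInner (τ (ξ₁ - a • ζ₁)) (τ₂ (fun g => conj (ζ₁ g))) =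
      ((a * k : ℤ) : ℂ) := by
    obtain ⟨ζ₂, hζ₂def⟩ : ∃ ζ₂ : ↥NP → ℂ, ζ₂ = fun g => conj (ζ₁ g) := ⟨_, rfl⟩
    rw [← hζ₂def] at hζ₂ ⊢
    obtain ⟨Θ, hΘdef⟩ : ∃ Θ : G → ℂ, Θ = ε₂ • τ₂ ζ₂ := ⟨_, rfl⟩
    have hΘ : IsIrrCharacter G Θ := by
      rw [hΘdef]
      exact hI₂ ζ₂ hζ₂
    have hΘcf : IsClassFunction G Θ :=
      isClassFunction_of_isCharacter (isCharacter_of_isIrrCharacter hΘ)
    have hconj₂ : conj ε₂ = ε₂ := by
      rcases hε₂ with h | h <;> rw [h] <;> simp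
    have hO : ∀ ξ ∈ SKall ZN, classInner (ξ - b ξ • ξ₁) (fun x : ↥NP => Θ x) = 0 := by
      intro ξ hξ
      rw [← frobenius_reciprocity NP (ξ - b ξ • ξ₁) Θ hΘcf]
      have hm1 : ξ - b ξ • ξ₁ ∈ zspanOn (SKall ZN) ({1}ᶜ : Set ↥NP) := by
        apply mem_zspanOn_compl_one
        · exact Submodule.sub_mem _ (Submodule.subset_span hξ)
            (Submodule.smul_mem _ _ (Submodule.subset_span hξ₁))
        · rw [Pi.sub_apply, Pi.smul_apply, hb ξ hξ, hb ξ₁ hξ₁, hb₁, zsmul_eq_mul]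
          push_cast
          ring
      have e1 : indFun NP (ξ - b ξ • ξ₁) = τ₁ ξ - b ξ • τ₁ ξ₁ := by
        have h1 : indFun NP (ξ - b ξ • ξ₁) = τ (ξ - b ξ • ξ₁) := by rw [hτdef]
        rw [h1, ← hag₁ _ hm1]
        have := linIso_zspan_sub hτ₁ (Submodule.subset_span hξ) (Submodule.subset_span hξ₁) 1
          (b ξ)
        rwa [one_smul, one_smul] at this
      rw [e1, hΘdef, classInner_smul_right, classInner_sub_left, classInner_zsmul_left,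
        horth ξ hξ ζ₂ hζ₂, horth ξ₁ hξ₁ ζ₂ hζ₂]
      ring
    obtain ⟨j, hj⟩ := sib_div p P hTI hodd ZN hZN1 hZNK hZNc ξ₁ hξ₁ a ha b hb Θ hΘ hO
    obtain ⟨r, hr⟩ := classInner_isCharacter_nat (isCharacter_of_isIrrCharacter hζ₁.1.1)
      (isCharacter_restrict NP (isCharacter_of_isIrrCharacter hΘ))
    have h1 : classInner (τ (ξ₁ - a • ζ₁)) Θ = ((a * (j - r) : ℤ) : ℂ) := by
      have h0 : τ (ξ₁ - a • ζ₁) = indFun NP (ξ₁ - a • ζ₁) := by rw [hτdef]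
      rw [h0, frobenius_reciprocity NP (ξ₁ - a • ζ₁) Θ hΘcf, classInner_sub_left,
        classInner_zsmul_left, hj, hr]
      push_cast
      ring
    have h2 : τ₂ ζ₂ = ε₂ • Θ := by
      rw [hΘdef, smul_smul]
      have h3 : ε₂ * ε₂ = 1 := by
        rcases hε₂ with h | h <;> rw [h] <;> norm_num
      rw [h3, one_smul]
    rw [h2, classInner_smul_right, hconj₂, h1]
    rcases hε₂ with h | h
    · exact ⟨j - r, by rw [h, one_mul]⟩
    · exact ⟨-(j - r), by rw [h]; push_cast; ring⟩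
  -- gluing
  have hglue := sib_glue S₁f S₂f (fun ξ hξ => ((hS₁mem ξ).mp hξ).1)
    (fun ζ hζ => ((hS₂mem ζ).mp hζ).1.1)
    (fun ξ hξ h => hdisj ξ ((hS₁mem ξ).mp hξ) ((hS₂mem ξ).mp h)) τ τ₁ τ₂
    (by rw [hcoe₁, hcoe₂]; exact hτU) (by rw [hcoe₁]; exact hτ₁) (by rw [hcoe₁]; exact hag₁)
    (by rw [hcoe₂]; exact hτ₂) (by rw [hcoe₂]; exact hag₂)
    ξ₁ (fun g => conj (ξ₁ g)) ζ₁ (fun g => conj (ζ₁ g)) hξ₁F ((hS₁mem _).mpr hξ₂) hξ₁₂
    ((hS₂mem _).mpr hζ₁) ((hS₂mem _).mpr hζ₂) hζ₁₂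
    a ((HP).index : ℤ) ha (by exact_mod_cast he0)
    (fun ζ hζ => hdeg₂' ζ ((hS₂mem ζ).mp hζ))
    b (fun ξ hξ => hbpos ξ ((hS₁mem ξ).mp hξ)) (fun ξ hξ => hb ξ ((hS₁mem ξ).mp hξ)) hb₁
    (fun ξ hξ ζ hζ => horth ξ ((hS₁mem ξ).mp hξ) ζ ((hS₂mem ζ).mp hζ)) hH
  -- the remaining characters
  obtain ⟨Tf, hTf⟩ : ∃ Tf : Finset (↥NP → ℂ), Tf = (SKall_finite HP).toFinset := ⟨_, rfl⟩
  have hTmem : ∀ χ, χ ∈ Tf ↔ χ ∈ SKall HP := by
    intro χ
    rw [hTf, Set.Finite.mem_toFinset]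
  have hcoeU : (↑((S₁f ∪ S₂f) ∪ Tf) : Set (↥NP → ℂ)) = SKall HP := by
    ext χ
    rw [Finset.mem_coe, Finset.mem_union, Finset.mem_union, hS₁mem, hS₂mem, hTmem]
    constructor
    · rintro ((h | h) | h)
      · exact hS₁K h
      · exact hS₂K h
      · exact h
    · exact fun h => Or.inr h
  rw [← hcoeU]
  apply feit_criterion_many (SKall HP) (fun ξ hξ => hξ.1) degN
    (fun ξ hξ => (degN_irr hξ.1).1) τ hτ' hτ1'
  · intro χ hχ
    rcases Finset.mem_union.mp (Finset.mem_coe.mp hχ) with h | h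
    · exact hS₁K ((hS₁mem χ).mp h)
    · exact hS₂K ((hS₂mem χ).mp h)
  · intro χ hχ
    exact (hTmem χ).mp (Finset.mem_coe.mp hχ)
  · rw [Finset.coe_union]
    exact hglue
  · intro χ hχ hχ0
    have hχK : χ ∈ SKall HP := (hTmem χ).mp hχ
    have hχ1 : χ ∉ SKall ZN := fun h => hχ0 (Finset.mem_union_left _ ((hS₁mem χ).mpr h))
    refine ⟨ζ₁, Finset.mem_union_right _ ((hS₂mem ζ₁).mpr hζ₁), ?_, ?_⟩
    · rw [hdeg₂ ζ₁ hζ₁]
      exact SKall_dvd HP hC' hχK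
    · rw [hdeg₂ ζ₁ hζ₁]
      obtain ⟨t, ht⟩ := SKall_dvd HP hC' hχK
      have hχZ : χ ∈ SK HP ZN := ⟨hχK, fun z hz => by
        by_contra hne
        exact hχ1 ⟨hχK.1, z, hz, hne⟩⟩
      have hbound := SK_deg_bound HP ZN ZN le_rfl hZNK (fun d hd c' hc' => by
        rw [hZNc d hd c' hc']
        have h1 : c' * d * d⁻¹ * c'⁻¹ = 1 := by group
        rw [h1]
        exact ZN.one_mem) hχZ
      obtain ⟨c, hc, hZcard⟩ : ∃ c ≤ n, Nat.card ZN = p ^ c := by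
        have h1 : Nat.card ZN ∣ Nat.card HP := Subgroup.card_dvd_of_le hZNK
        rw [hHcard] at h1
        exact (Nat.dvd_prime_pow hpP).mp h1
      have hc1 : 1 ≤ c := by
        by_contra hcon
        have hc0 : c = 0 := by omega
        rw [hc0, pow_zero] at hZcard
        exact hZN1 (Subgroup.card_eq_one.mp hZcard)
      have hcn : c < n := by
        have h1 : Nat.card ZN ≤ Nat.card (⁅HP, HP⁆ : Subgroup ↥NP) :=
          Subgroup.card_le_of_le hZNR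
        have h2 : p ^ c < p ^ n := by
          rw [← hZcard, ← hHcard]
          omega
        exact (Nat.pow_lt_pow_iff_right hpP.one_lt).mp h2
      have hZidx : ZN.index = (HP).index * p ^ (n - c) := by
        have h1 : Nat.card ZN * ZN.index = Nat.card ↥NP := Subgroup.card_mul_index ZN
        have h2 : Nat.card HP * (HP).index = Nat.card ↥NP := Subgroup.card_mul_index HP
        rw [hZcard] at h1
        rw [hHcard] at h2
        have h3 : p ^ c * ZN.index = p ^ c * ((HP).index * p ^ (n - c)) := by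
          rw [h1, ← h2]
          have h : p ^ n = p ^ c * p ^ (n - c) := by
            rw [← pow_add]
            congr 1
            omega
          rw [h]
          ring
        exact Nat.eq_of_mul_eq_mul_left (by positivity) h3
      have hsum₁ : ∑ ξ ∈ S₁f, degN ξ ^ 2 = (HP).index * p ^ (n - c) * (p ^ c - 1) := by
        have h0 := SK_sum_sq ZN ⊥ bot_le
        rw [Subgroup.card_bot, one_mul, hZcard, hZidx] at h0
        have hF' : (SK_finite ZN ⊥).toFinset = S₁f := by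
          ext ξ
          rw [Set.Finite.mem_toFinset, SK_bot, hS₁mem]
        rw [hF'] at h0
        exact h0
      have hsumle : ∑ ξ ∈ S₁f, degN ξ ^ 2 ≤ ∑ ξ ∈ S₁f ∪ S₂f, degN ξ ^ 2 :=
        Finset.sum_le_sum_of_subset_of_nonneg Finset.subset_union_left
          (fun _ _ _ => Nat.zero_le _)
      have hfrob := frobK_card_modEq HP hC' ZN hZNK
      rw [hZcard] at hfrob
      obtain ⟨q, hq⟩ := hfrob
      have hpc : 1 < p ^ c := Nat.one_lt_pow (by omega) hpP.one_lt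
      have hpcodd : Odd (p ^ c) := Odd.pow (hpP.odd_of_ne_two hp)
      have hq2 : 2 ≤ q := by
        have h1 : Even (p ^ c - 1) := by
          obtain ⟨m, hm⟩ := hpcodd
          exact ⟨m, by omega⟩
        rw [hq] at h1
        have h2 : Even q := by
          rcases Nat.even_mul.mp h1 with h | h
          · exact absurd h (Nat.not_even_iff_odd.mpr heodd)
          · exact h
        obtain ⟨m, hm⟩ := h2
        have h3 : q ≠ 0 := by
          intro h0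
          rw [h0, mul_zero] at hq
          omega
        omega
      have ht2 : t ^ 2 ≤ p ^ (n - c) := by
        rw [ht, hZcard, hHcard] at hbound
        have h1 : p ^ n = p ^ (n - c) * p ^ c := by
          rw [← pow_add]
          congr 1
          omega
        rw [h1] at hbound
        have h2 : ((HP).index ^ 2 * p ^ c) * t ^ 2 ≤
            ((HP).index ^ 2 * p ^ c) * p ^ (n - c) := by
          calc ((HP).index ^ 2 * p ^ c) * t ^ 2 = ((HP).index * t) ^ 2 * p ^ c := by ring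
            _ ≤ (HP).index ^ 2 * (p ^ (n - c) * p ^ c) := hbound
            _ = ((HP).index ^ 2 * p ^ c) * p ^ (n - c) := by ring
        exact Nat.le_of_mul_le_mul_left h2 (by positivity)
      have hM3 : 3 ≤ p ^ (n - c) := by
        calc 3 ≤ p := hp3
          _ = p ^ 1 := (pow_one p).symm
          _ ≤ p ^ (n - c) := Nat.pow_le_pow_right hpP.pos (by omega)
      have htM : t < p ^ (n - c) := by
        by_contra hcon
        push Not at hcon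
        nlinarith
      have h2e : 2 * (HP).index ≤ p ^ c - 1 := by
        rw [hq]
        nlinarith
      rw [ht]
      calc 2 * (HP).index * ((HP).index * t) = (HP).index * ((2 * (HP).index) * t) := by ring
        _ ≤ (HP).index * ((p ^ c - 1) * t) :=
            Nat.mul_le_mul_left _ (Nat.mul_le_mul_right _ h2e)
        _ < (HP).index * ((p ^ c - 1) * p ^ (n - c)) :=
            Nat.mul_lt_mul_of_pos_left (Nat.mul_lt_mul_of_pos_left htM (by omega)) he0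
        _ = (HP).index * p ^ (n - c) * (p ^ c - 1) := by ring
        _ = ∑ ξ ∈ S₁f, degN ξ ^ 2 := hsum₁.symm
        _ ≤ _ := hsumle

end SibD

end Cfsg.Agent.H19
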