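import Mathlib
import Cfsg.Prelude.Def_OddOrderChar
import Cfsg.Prelude.Def_Transfer
import Cfsg.Agent.H19.SibD
import Cfsg.Agent.S1535

/-!
# Sibley's coherence theorem for T.I. Frobenius kernels: the case analysis (helper19)
-/

set_option autoImplicit false
set_option linter.style.haveILetI false
set_option linter.unusedSectionVars false
set_option linter.unusedVariables false

namespace Cfsg.Agent.H19

open Cfsg Cfsg.Agent.H4 Cfsg.Agent.H32 Cfsg.Agent.H5
open scoped ComplexConjugate commutatorElement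

universe u

section Exc

variable {N : Type*} [Group N] [Fintype N] (K : Subgroup N) [K.Normal]

/-- In the exceptional case `|K| = e + 1` there is exactly one character. -/
theorem frobK_exc_card (hC : ∀ k ∈ K, k ≠ 1 → Subgroup.centralizer ({k} : Set N) ≤ K)
    (he : Nat.card K = K.index + 1) :
    Nat.card {χ : N → ℂ // IsIrrCharacter N χ ∧ ∃ h ∈ K, χ h ≠ χ 1} = 1 := by
  classical
  have he0 : 0 < K.index := Nat.pos_of_ne_zero Subgroup.index_ne_zero_of_finite
  have hsum := SK_sum_sq K ⊥ bot_le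
  rw [Subgroup.card_bot, one_mul, he, Nat.add_sub_cancel] at hsum
  obtain ⟨F, hF⟩ : ∃ F : Finset (N → ℂ), F = (SK_finite K ⊥).toFinset := ⟨_, rfl⟩
  rw [← hF] at hsum
  have hFmem : ∀ ξ, ξ ∈ F ↔ ξ ∈ SKall K := by
    intro ξ
    rw [hF, Set.Finite.mem_toFinset, SK_bot]
  have hle : F.card * K.index ^ 2 ≤ ∑ ξ ∈ F, degN ξ ^ 2 := by
    rw [← smul_eq_mul, ← Finset.sum_const]
    apply Finset.sum_le_sum
    intro ξ hξ
    have h1 := SKall_dvd K hC ((hFmem ξ).mp hξ)
    have h2 := (degN_irr ((hFmem ξ).mp hξ).1).2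
    exact Nat.pow_le_pow_left (Nat.le_of_dvd h2 h1) 2
  have hcard1 : F.card = 1 := by
    have h1 : F.card * K.index ^ 2 ≤ 1 * K.index ^ 2 := by
      rw [one_mul]
      calc F.card * K.index ^ 2 ≤ ∑ ξ ∈ F, degN ξ ^ 2 := hle
        _ = K.index * K.index := hsum
        _ = K.index ^ 2 := (sq _).symm
    have h2 : F.card ≤ 1 := Nat.le_of_mul_le_mul_right h1 (by positivity)
    have h3 : F.card ≠ 0 := by
      intro h0
      rw [Finset.card_eq_zero.mp h0, Finset.sum_empty] at hsum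
      have : 0 < K.index * K.index := Nat.mul_pos he0 he0
      omega
    omega
  have hS : Nat.card ↥(SKall K) = F.card := by
    rw [Nat.card_coe_set_eq, Set.ncard_eq_toFinset_card (SKall K) (SKall_finite K)]
    congr 1
    ext ξ
    rw [Set.Finite.mem_toFinset, hFmem]
  rw [← hcard1, ← hS]
  rfl

/-- In the exceptional case `K` is a minimal normal subgroup. -/
theorem frobK_exc_min (hC : ∀ k ∈ K, k ≠ 1 → Subgroup.centralizer ({k} : Set N) ≤ K)
    (he : Nat.card K = K.index + 1) (B : Subgroup N) [B.Normal] (hBK : B ≤ K) (hB1 : B ≠ ⊥) :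
    B = K := by
  have hdiv := frobK_card_modEq K hC B hBK
  have hB2 : 1 < Nat.card B := (Subgroup.one_lt_card_iff_ne_bot B).mpr hB1
  have h1 : K.index ≤ Nat.card B - 1 := Nat.le_of_dvd (by omega) hdiv
  have h2 : Nat.card K ≤ Nat.card B := by omega
  exact Subgroup.eq_of_le_of_card_ge hBK h2

/-- In the exceptional case `K` is elementary abelian. -/
theorem frobK_exc_elem (hC : ∀ k ∈ K, k ≠ 1 → Subgroup.centralizer ({k} : Set N) ≤ K)
    (hK1 : K ≠ ⊥) (hK2 : K ≠ ⊤) (he : Nat.card K = K.index + 1) (p : ℕ) (hp : p.Prime)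
    (hpK : p ∣ Nat.card K) :
    (∀ a ∈ K, ∀ b ∈ K, a * b = b * a) ∧ ∀ a ∈ K, a ^ p = 1 := by
  classical
  haveI hnilK := frobK_nilpotent K hC hK1 hK2
  have hnil := cser_self_eq_bot K
  have hH'lt : (⁅K, K⁆ : Subgroup N) < K := comm_lt_of_nilpotent K hnil K le_rfl hK1
  have hab : (⁅K, K⁆ : Subgroup N) = ⊥ := by
    by_contra hne
    exact hH'lt.ne (frobK_exc_min K hC he ⁅K, K⁆ hH'lt.le hne)
  have hcomm : ∀ a ∈ K, ∀ b ∈ K, a * b = b * a := by
    intro a ha b hb
    have h1 : ⁅a, b⁆ ∈ (⁅K, K⁆ : Subgroup N) := Subgroup.commutator_mem_commutator ha hb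
    rw [hab, Subgroup.mem_bot] at h1
    exact commutatorElement_eq_one_iff_mul_comm.mp h1
  refine ⟨hcomm, ?_⟩
  obtain ⟨B, hB⟩ : ∃ B : Subgroup N, ∀ k, k ∈ B ↔ k ∈ K ∧ k ^ p = 1 :=
    ⟨{ carrier := {k | k ∈ K ∧ k ^ p = 1}
       mul_mem' := by
         rintro a b ⟨ha, ha'⟩ ⟨hb, hb'⟩
         refine ⟨K.mul_mem ha hb, ?_⟩
         rw [(show Commute a b from hcomm a ha b hb).mul_pow, ha', hb', one_mul]
       one_mem' := ⟨K.one_mem, one_pow p⟩
       inv_mem' := by
         rintro a ⟨ha, ha'⟩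
         exact ⟨K.inv_mem ha, by rw [inv_pow, ha', inv_one]⟩ }, fun k => Iff.rfl⟩
  haveI hBn : B.Normal := by
    constructor
    intro k hk n
    rw [hB] at hk ⊢
    refine ⟨(inferInstance : K.Normal).conj_mem k hk.1 n, ?_⟩
    rw [conj_pow, hk.2, mul_one, mul_inv_cancel]
  have hBK : B ≤ K := fun k hk => ((hB k).mp hk).1
  have hB1 : B ≠ ⊥ := by
    haveI : Fact p.Prime := ⟨hp⟩
    obtain ⟨x, hx⟩ := exists_prime_orderOf_dvd_card' p hpK
    intro hbot
    have hxB : (x : N) ∈ B := by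
      rw [hB]
      refine ⟨x.2, ?_⟩
      have h1 : x ^ p = 1 := by
        rw [← hx]
        exact pow_orderOf_eq_one x
      have h2 := congrArg Subtype.val h1
      rw [Subgroup.coe_pow] at h2
      exact h2
    rw [hbot, Subgroup.mem_bot] at hxB
    have hx1 : x = 1 := Subtype.ext hxB
    rw [hx1, orderOf_one] at hx
    exact hp.one_lt.ne hx
  have hBeq := frobK_exc_min K hC he B hBK hB1
  intro a ha
  rw [← hBeq, hB] at ha
  exact ha.2

end Exc

section TI

variable {G : Type u} [Group G] [Fintype G] (K : Subgroup G)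

local notation "NK" => Subgroup.normalizer (K : Set G)
local notation "HK" => Subgroup.subgroupOf K (Subgroup.normalizer (K : Set G))

theorem tiK_hC (hC : ∀ k ∈ K, k ≠ 1 → Subgroup.centralizer ({k} : Set G) ≤ K) :
    ∀ k ∈ HK, k ≠ 1 → Subgroup.centralizer ({k} : Set ↥NK) ≤ HK := by
  intro k hk hk1 x hx
  by_contra hxK
  have hcomm : x * k = k * x := (Subgroup.mem_centralizer_iff.mp hx k rfl).symm
  exact hk1 (normalizer_fpf K hC x hxK k hk hcomm)

theorem tiK_card : Nat.card HK = Nat.card K :=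
  Nat.card_congr (Subgroup.subgroupOfEquivOfLe Subgroup.le_normalizer).toEquiv

theorem tiK_ne_bot (hK1 : K ≠ ⊥) : HK ≠ ⊥ := by
  intro h
  apply hK1
  rw [← Subgroup.card_eq_one, ← tiK_card K, h, Subgroup.card_bot]

theorem tiK_ne_top (hlt : K < Subgroup.normalizer (K : Set G)) : HK ≠ ⊤ := by
  intro h
  apply hlt.ne
  apply le_antisymm hlt.le
  intro x hx
  have h1 : (⟨x, hx⟩ : ↥NK) ∈ HK := by
    rw [h]
    exact Subgroup.mem_top _
  exact Subgroup.mem_subgroupOf.mp h1

/-- A T.I. Frobenius kernel of prime power order is a Sylow subgroup. -/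
theorem tiK_sylow_card (hC : ∀ k ∈ K, k ≠ 1 → Subgroup.centralizer ({k} : Set G) ≤ K)
    (hK1 : K ≠ ⊥) (p : ℕ) [Fact p.Prime] (m : ℕ) (hm : Nat.card K = p ^ m) :
    Nat.card K = p ^ (Nat.card G).factorization p := by
  have hpP : p.Prime := Fact.out
  have hC' := tiK_hC K hC
  have hcop := frobK_coprime HK hC' HK le_rfl
  rw [tiK_card K, hm] at hcop
  have hm1 : 1 ≤ m := by
    by_contra hcon
    have h0 : m = 0 := by omega
    rw [h0, pow_zero] at hm
    exact hK1 (Subgroup.card_eq_one.mp hm)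
  have hnd : ¬ p ^ (m + 1) ∣ Nat.card G := by
    intro hdvd
    have h1 := Sylow.prime_dvd_card_quotient_normalizer hdvd hm
    have h2 : p ∣ (HK).index := h1
    have h3 : p ∣ p ^ m := dvd_pow_self p (by omega)
    have h4 : p ∣ 1 := by
      have := Nat.dvd_gcd h3 h2
      rwa [Nat.Coprime.gcd_eq_one hcop] at this
    exact hpP.one_lt.ne' (Nat.dvd_one.mp h4)
  rw [hm]
  congr 1
  have hdvd : p ^ m ∣ Nat.card G := hm ▸ Subgroup.card_subgroup_dvd_card K
  apply le_antisymm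
  · exact (hpP.pow_dvd_iff_le_factorization Nat.card_pos.ne').mp hdvd
  · by_contra hcon
    push Not at hcon
    apply hnd
    exact (pow_dvd_pow p hcon).trans (Nat.ordProj_dvd _ _)

/-- **Sibley's theorem**, general form: a T.I. Frobenius kernel is coherent, or exceptional,
or a non-abelian `2`-group with small commutator quotient. -/
theorem sibley_TI (hK1 : K ≠ ⊥) (hTI : IsTISubset (K : Set G))
    (hlt : K < Subgroup.normalizer (K : Set G))
    (hC : ∀ k ∈ K, k ≠ 1 → Subgroup.centralizer ({k} : Set G) ≤ K)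
    [Fintype ↥NK] :
    IsCoherent (SKall HK) ({1}ᶜ : Set ↥NK) (fun α => indFun NK α) ∨
    Nat.card HK = (HK).index + 1 ∨
    ((∃ m : ℕ, Nat.card HK = 2 ^ m) ∧
      (⁅HK, HK⁆.subgroupOf HK).index ≤ 4 * (HK).index ^ 2 + 1) := by
  classical
  have hC' := tiK_hC K hC
  obtain ⟨hτ, hτ1⟩ := indFun_linIso K hTI hC
  have hH1 := tiK_ne_bot K hK1
  have hH2 := tiK_ne_top K hlt
  by_cases he : Nat.card HK = (HK).index + 1
  · exact Or.inr (Or.inl he)
  rcases Cfsg.Agent.S1535.result HK hH1 hH2 hC' he (fun α => indFun NK α) hτ hτ1 with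
    h | ⟨p, hpp, ⟨m, hm⟩, hna, hidx⟩
  · exact Or.inl h
  · by_cases hp2 : p = 2
    · subst hp2
      exact Or.inr (Or.inr ⟨⟨m, hm⟩, hidx⟩)
    · left
      haveI : Fact p.Prime := ⟨hpp⟩
      have hKcard : Nat.card K = p ^ m := by
        rw [← hm]
        exact (tiK_card K).symm
      have hsyl := tiK_sylow_card K hC hK1 p m hKcard
      obtain ⟨P, hP⟩ : ∃ P : Sylow p G, (P : Subgroup G) = K := ⟨Sylow.ofCard K hsyl, rfl⟩
      subst hP
      have hna' : ¬ IsMulCommutative (P : Subgroup G) := by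
        intro hcomm
        apply hna
        refine ⟨⟨fun a b => ?_⟩⟩
        have h1 := hcomm.is_comm.comm (⟨a.1.1, a.2⟩ : (P : Subgroup G)) ⟨b.1.1, b.2⟩
        have h2 : (a.1.1 : G) * b.1.1 = b.1.1 * a.1.1 := congrArg Subtype.val h1
        exact Subtype.ext (Subtype.ext h2)
      exact sibley_core p P hp2 hna' hTI hC

/-- The exceptional case, for a subgroup of `G`. -/
theorem tiK_exc (hK1 : K ≠ ⊥) (hlt : K < Subgroup.normalizer (K : Set G))
    (hC : ∀ k ∈ K, k ≠ 1 → Subgroup.centralizer ({k} : Set G) ≤ K)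
    [Fintype ↥NK] (he : Nat.card HK = (HK).index + 1) :
    Nat.card {χ : ↥NK → ℂ // IsIrrCharacter ↥NK χ ∧ ∃ x : ↥NK, (x : G) ∈ K ∧ χ x ≠ χ 1} = 1 ∧
    Nat.card K = (HK).index + 1 ∧
    ∀ p : ℕ, p.Prime → p ∣ Nat.card K → IsElementaryAbelian p K := by
  classical
  have hC' := tiK_hC K hC
  have hH1 := tiK_ne_bot K hK1
  have hH2 := tiK_ne_top K hlt
  refine ⟨frobK_exc_card HK hC' he, ?_, ?_⟩
  · rw [← he]
    exact (tiK_card K).symm
  · intro p hp hpK
    rw [← tiK_card K] at hpK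
    obtain ⟨hcomm, hpow⟩ := frobK_exc_elem HK hC' hH1 hH2 he p hp hpK
    refine ⟨⟨⟨fun a b => ?_⟩⟩, fun a ha => ?_⟩
    · have h1 := hcomm ⟨a.1, Subgroup.le_normalizer a.2⟩ (Subgroup.mem_subgroupOf.mpr a.2)
        ⟨b.1, Subgroup.le_normalizer b.2⟩ (Subgroup.mem_subgroupOf.mpr b.2)
      have h2 : (a : G) * (b : G) = (b : G) * (a : G) := congrArg Subtype.val h1
      exact Subtype.ext h2
    · have h1 := hpow ⟨a, Subgroup.le_normalizer ha⟩ (Subgroup.mem_subgroupOf.mpr ha)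
      have h2 := congrArg Subtype.val h1
      rw [Subgroup.coe_pow] at h2
      exact h2

/-- The `2`-group case. -/
theorem tiK_two (hK1 : K ≠ ⊥) (hlt : K < Subgroup.normalizer (K : Set G))
    (hC : ∀ k ∈ K, k ≠ 1 → Subgroup.centralizer ({k} : Set G) ≤ K)
    (m : ℕ) (hm : Nat.card HK = 2 ^ m)
    (hidx : (⁅HK, HK⁆.subgroupOf HK).index ≤ 4 * (HK).index ^ 2 + 1) :
    Nat.card K = 2 ^ (Nat.card G).factorization 2 ∧
      (⁅K, K⁆.subgroupOf K).index < 4 * (HK).index ^ 2 := by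
  classical
  have hC' := tiK_hC K hC
  have hH1 := tiK_ne_bot K hK1
  have hH2 := tiK_ne_top K hlt
  have hKcard : Nat.card K = 2 ^ m := by
    rw [← hm]
    exact (tiK_card K).symm
  refine ⟨tiK_sylow_card K hC hK1 2 m hKcard, ?_⟩
  have hm1 : 1 ≤ m := by
    by_contra hcon
    have h0 : m = 0 := by omega
    rw [h0, pow_zero] at hKcard
    exact hK1 (Subgroup.card_eq_one.mp hKcard)
  -- transfer of the index
  have hmap : (⁅HK, HK⁆ : Subgroup ↥NK).map (NK).subtype = ⁅K, K⁆ := by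
    rw [Subgroup.map_commutator, Subgroup.map_subgroupOf_eq_of_le Subgroup.le_normalizer]
  have hcardc : Nat.card (⁅HK, HK⁆ : Subgroup ↥NK) = Nat.card (⁅K, K⁆ : Subgroup G) := by
    rw [← hmap]
    exact (Subgroup.card_map_of_injective (Subgroup.subtype_injective _)).symm
  have hKK : (⁅K, K⁆ : Subgroup G) ≤ K := Subgroup.commutator_le.mpr (fun a ha b hb => by
    rw [commutatorElement_def]
    exact K.mul_mem (K.mul_mem (K.mul_mem ha hb) (K.inv_mem ha)) (K.inv_mem hb))
  have hi1 : (⁅K, K⁆.subgroupOf K).index * Nat.card (⁅K, K⁆ : Subgroup G) = Nat.card K := by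
    have h2 := Subgroup.card_mul_index (⁅K, K⁆.subgroupOf K)
    rw [Nat.card_congr (Subgroup.subgroupOfEquivOfLe hKK).toEquiv] at h2
    rw [mul_comm]
    exact h2
  have hi2 : (⁅HK, HK⁆.subgroupOf HK).index * Nat.card (⁅HK, HK⁆ : Subgroup ↥NK) =
      Nat.card HK := by
    have h2 := Subgroup.card_mul_index (⁅HK, HK⁆.subgroupOf HK)
    rw [Nat.card_congr (Subgroup.subgroupOfEquivOfLe
      (Subgroup.commutator_le_left HK HK)).toEquiv] at h2
    rw [mul_comm]
    exact h2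
  have hieq : (⁅K, K⁆.subgroupOf K).index = (⁅HK, HK⁆.subgroupOf HK).index := by
    rw [hcardc, tiK_card K, ← hi1] at hi2
    exact (Nat.eq_of_mul_eq_mul_right Nat.card_pos hi2).symm
  rw [hieq]
  obtain ⟨e, hedef⟩ : ∃ e : ℕ, e = (HK).index := ⟨_, rfl⟩
  obtain ⟨i, hidef⟩ : ∃ i : ℕ, i = (⁅HK, HK⁆.subgroupOf HK).index := ⟨_, rfl⟩
  rw [← hedef, ← hidef] at hidx ⊢
  have he0 : 0 < e := by
    rw [hedef]
    exact Nat.pos_of_ne_zero Subgroup.index_ne_zero_of_finite
  have he1 : e ≠ 1 := by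
    rw [hedef]
    exact fun h => hH2 (Subgroup.index_eq_one.mp h)
  have hodd_e : Odd e := by
    obtain ⟨q, hq⟩ := frobK_card_modEq HK hC' HK le_rfl
    rw [hm, ← hedef] at hq
    have h1 : Odd (2 ^ m - 1) := by
      have h2 : Even (2 ^ m) := Nat.even_pow.mpr ⟨even_two, by omega⟩
      obtain ⟨r, hr⟩ := h2
      have hpos : 0 < 2 ^ m := by positivity
      exact ⟨r - 1, by omega⟩
    rw [hq] at h1
    exact (Nat.odd_mul.mp h1).1
  have hdvd_i : i ∣ 2 ^ m := by
    rw [hidef, ← hm]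
    exact Subgroup.index_dvd_card _
  obtain ⟨j, hj, hij⟩ := (Nat.dvd_prime_pow Nat.prime_two).mp hdvd_i
  have hne1 : i ≠ 4 * e ^ 2 + 1 := by
    intro h
    rcases Nat.eq_zero_or_pos j with h0 | h0
    · rw [h0, pow_zero] at hij
      have : 0 < e ^ 2 := by positivity
      omega
    · have h2 : Even i := by
        rw [hij]
        exact Nat.even_pow.mpr ⟨even_two, by omega⟩
      rw [h] at h2
      exact absurd h2 (by
        rw [Nat.not_even_iff_odd]
        exact ⟨2 * e ^ 2, by ring⟩)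
  have hne2 : i ≠ 4 * e ^ 2 := by
    intro h
    have h1 : e ∣ 2 ^ j := by
      rw [← hij, h]
      exact Dvd.intro_left (4 * e) (by ring)
    obtain ⟨r, hr, her⟩ := (Nat.dvd_prime_pow Nat.prime_two).mp h1
    rcases Nat.eq_zero_or_pos r with h0 | h0
    · rw [h0, pow_zero] at her
      exact he1 her
    · have h2 : Even e := by
        rw [her]
        exact Nat.even_pow.mpr ⟨even_two, by omega⟩
      exact (Nat.not_even_iff_odd.mpr hodd_e) h2
  omega

end TI

end Cfsg.Agent.H19
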