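import Mathlib

/-!
# Frobenius complements act without fixed points: centralizers (helper19)
-/

set_option autoImplicit false
set_option linter.unusedVariables false

namespace Cfsg.Agent.H19

/-- If `W₁` normalizes `H` and acts on it without non-identity fixed points, then no element of
`H W₁` outside `H` centralizes a non-identity element of `H`. -/
theorem frobCompl_fpf {G : Type*} [Group G] [Finite G] (H W₁ : Subgroup G)
    (hW : ∀ w ∈ W₁, ∀ h ∈ H, w * h * w⁻¹ ∈ H)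
    (hfpf : ∀ w ∈ W₁, w ≠ 1 → ∀ h ∈ H, w * h = h * w → h = 1) :
    ∀ x ∈ H ⊔ W₁, x ∉ H → ∀ k ∈ H, x * k = k * x → k = 1 := by
  intro x hx hxH k hk hcomm
  obtain ⟨T, hT⟩ : ∃ T : Subgroup G, ∀ y, y ∈ T ↔ ∃ h ∈ H, ∃ w ∈ W₁, y = h * w :=
    ⟨{ carrier := {y | ∃ h ∈ H, ∃ w ∈ W₁, y = h * w}
       mul_mem' := by
         rintro a b ⟨h, hh, w, hw, rfl⟩ ⟨h', hh', w', hw', rfl⟩
         refine ⟨h * (w * h' * w⁻¹), H.mul_mem hh (hW w hw h' hh'), w * w',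
           W₁.mul_mem hw hw', ?_⟩
         group
       one_mem' := ⟨1, H.one_mem, 1, W₁.one_mem, (mul_one 1).symm⟩
       inv_mem' := by
         rintro a ⟨h, hh, w, hw, rfl⟩
         refine ⟨w⁻¹ * h⁻¹ * w⁻¹⁻¹, hW w⁻¹ (W₁.inv_mem hw) h⁻¹ (H.inv_mem hh), w⁻¹,
           W₁.inv_mem hw, ?_⟩
         group }, fun y => Iff.rfl⟩
  have hle : H ⊔ W₁ ≤ T := sup_le
    (fun h hh => (hT h).mpr ⟨h, hh, 1, W₁.one_mem, (mul_one h).symm⟩)
    (fun w hw => (hT w).mpr ⟨1, H.one_mem, w, hw, (one_mul w).symm⟩)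
  obtain ⟨h₀, hh₀, w, hw, rfl⟩ := (hT x).mp (hle hx)
  have hw1 : w ≠ 1 := by
    intro h1
    apply hxH
    rw [h1, mul_one]
    exact hh₀
  have hinj : Function.Injective (fun h : ↥H =>
      (⟨(h : G)⁻¹ * (w * h * w⁻¹), H.mul_mem (H.inv_mem h.2) (hW w hw h h.2)⟩ : ↥H)) := by
    intro a b hab
    have h1 : (a : G)⁻¹ * (w * a * w⁻¹) = (b : G)⁻¹ * (w * b * w⁻¹) := congrArg Subtype.val hab
    have h3 : (a : G)⁻¹ * w * a = (b : G)⁻¹ * w * b := by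
      calc (a : G)⁻¹ * w * a = ((a : G)⁻¹ * (w * a * w⁻¹)) * w := by group
        _ = ((b : G)⁻¹ * (w * b * w⁻¹)) * w := by rw [h1]
        _ = (b : G)⁻¹ * w * b := by group
    have h2 : w * ((a : G) * (b : G)⁻¹) = ((a : G) * (b : G)⁻¹) * w := by
      calc w * ((a : G) * (b : G)⁻¹) = a * ((a : G)⁻¹ * w * a) * (b : G)⁻¹ := by group
        _ = a * ((b : G)⁻¹ * w * b) * (b : G)⁻¹ := by rw [h3]
        _ = ((a : G) * (b : G)⁻¹) * w := by group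
    have h4 := hfpf w hw hw1 _ (H.mul_mem a.2 (H.inv_mem b.2)) h2
    exact Subtype.ext (mul_inv_eq_one.mp h4)
  obtain ⟨h, hh⟩ := (Finite.injective_iff_surjective.mp hinj) ⟨h₀, hh₀⟩
  have hh' : (h : G)⁻¹ * (w * h * w⁻¹) = h₀ := congrArg Subtype.val hh
  have hx' : h₀ * w = (h : G)⁻¹ * w * h := by
    rw [← hh']
    group
  rw [hx'] at hcomm
  have h5 : w * ((h : G) * k * (h : G)⁻¹) = ((h : G) * k * (h : G)⁻¹) * w := by
    calc w * ((h : G) * k * (h : G)⁻¹) = h * (((h : G)⁻¹ * w * h) * k) * (h : G)⁻¹ := by group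
      _ = h * (k * ((h : G)⁻¹ * w * h)) * (h : G)⁻¹ := by rw [hcomm]
      _ = ((h : G) * k * (h : G)⁻¹) * w := by group
  have h6 := hfpf w hw hw1 _ (H.mul_mem (H.mul_mem h.2 hk) (H.inv_mem h.2)) h5
  have h7 : k = (h : G)⁻¹ * ((h : G) * k * (h : G)⁻¹) * h := by group
  rw [h7, h6]
  group

end Cfsg.Agent.H19
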