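import Cfsg.Agent.H19.SpUNum

/-!
# S2316 team project, piece ALG: from the two convolution identities to `u m = q^(2m²)`.
-/

set_option autoImplicit false

open Cfsg.Agent.H48.SpU Matrix

namespace Cfsg.Agent.H19.SpU

/-- S2316-ALG. -/
theorem alg (hN : NumStmt) : AlgStmt := by
  intro q hq u e a X Y hX hXs hY hYs ha m
  have hsp : ∀ k, (spN q k : ℚ) ≠ 0 := fun k => (spN_cast_pos hq k).ne'
  have hgl : ∀ k, (glN q k : ℚ) ≠ 0 := fun k => by
    have := glN_pos hq k
    positivity
  -- the power series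
  set U : PowerSeries ℚ := PowerSeries.mk (fun k => (u k : ℚ) / (spN q k : ℚ)) with hU
  set U0 : PowerSeries ℚ := PowerSeries.mk (fun k => (q : ℚ) ^ (2 * k ^ 2) / (spN q k : ℚ))
    with hU0
  set E : PowerSeries ℚ := PowerSeries.mk (fun k => (e k : ℚ) / (spN q k : ℚ)) with hE
  set A : PowerSeries ℚ := PowerSeries.mk (fun k => (a k : ℚ) / (spN q k : ℚ)) with hA
  set Tau : PowerSeries ℚ :=
    PowerSeries.mk (fun k => (q : ℚ) ^ (2 * k ^ 2 + k) / (spN q k : ℚ)) with hTau
  set One : PowerSeries ℚ := PowerSeries.mk (fun _ => (1 : ℚ)) with hOne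
  -- pointwise product identities
  have hXq : ∀ k j, (X k j : ℚ) / (spN q (k + j) : ℚ) =
      (u k : ℚ) / (spN q k : ℚ) * ((e j : ℚ) / (spN q j : ℚ)) := by
    intro k j
    have h := hX k j
    have h' : (X k j : ℚ) * ((spN q k : ℚ) * (spN q j : ℚ)) =
        (spN q (k + j) : ℚ) * ((u k : ℚ) * (e j : ℚ)) := by exact_mod_cast h
    have h1 := hsp k
    have h2 := hsp j
    have h3 := hsp (k + j)
    field_simp
    linarith
  have hYq : ∀ k j, (Y k j : ℚ) / (spN q (k + j) : ℚ) =
      (a k : ℚ) / (spN q k : ℚ) * ((e j : ℚ) / (spN q j : ℚ)) := by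
    intro k j
    have h := hY k j
    have h' : (Y k j : ℚ) * ((spN q k : ℚ) * (spN q j : ℚ)) =
        (spN q (k + j) : ℚ) * ((a k : ℚ) * (e j : ℚ)) := by exact_mod_cast h
    have h1 := hsp k
    have h2 := hsp j
    have h3 := hsp (k + j)
    field_simp
    linarith
  have hUE : U * E = One := by
    ext n
    rw [PowerSeries.coeff_mul, hOne, PowerSeries.coeff_mk]
    have h1 : ∀ p ∈ Finset.HasAntidiagonal.antidiagonal n,
        (PowerSeries.coeff p.1) U * (PowerSeries.coeff p.2) E =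
          (X p.1 p.2 : ℚ) / (spN q n : ℚ) := by
      intro p hp
      have hp' : p.1 + p.2 = n := Finset.HasAntidiagonal.mem_antidiagonal.mp hp
      rw [hU, hE, PowerSeries.coeff_mk, PowerSeries.coeff_mk, ← hXq, hp']
    rw [Finset.sum_congr rfl h1, ← Finset.sum_div,
      Finset.Nat.sum_antidiagonal_eq_sum_range_succ (fun i j => (X i j : ℚ)) n]
    have h2 : (∑ k ∈ Finset.range (n + 1), (X k (n - k) : ℚ)) = (spN q n : ℚ) := by
      exact_mod_cast hXs n
    rw [h2]
    exact div_self (hsp n)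
  have hAE : A * E = Tau := by
    ext n
    rw [PowerSeries.coeff_mul, hTau, PowerSeries.coeff_mk]
    have h1 : ∀ p ∈ Finset.HasAntidiagonal.antidiagonal n,
        (PowerSeries.coeff p.1) A * (PowerSeries.coeff p.2) E =
          (Y p.1 p.2 : ℚ) / (spN q n : ℚ) := by
      intro p hp
      have hp' : p.1 + p.2 = n := Finset.HasAntidiagonal.mem_antidiagonal.mp hp
      rw [hA, hE, PowerSeries.coeff_mk, PowerSeries.coeff_mk, ← hYq, hp']
    rw [Finset.sum_congr rfl h1, ← Finset.sum_div,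
      Finset.Nat.sum_antidiagonal_eq_sum_range_succ (fun i j => (Y i j : ℚ)) n]
    have h2 : (∑ k ∈ Finset.range (n + 1), (Y k (n - k) : ℚ)) = (q : ℚ) ^ (2 * n ^ 2 + n) := by
      exact_mod_cast hYs n
    rw [h2]
  have haq : ∀ k, (a k : ℚ) / (spN q k : ℚ) = (q : ℚ) ^ (k * (k - 1)) / (glN q k : ℚ) := by
    intro k
    have h := ha k
    have h' : (a k : ℚ) * (glN q k : ℚ) = (spN q k : ℚ) * (q : ℚ) ^ (k * (k - 1)) := by
      exact_mod_cast h
    have h1 := hsp k
    have h2 := hgl k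
    field_simp
    linarith
  have hNum : U0 * Tau = A * One := by
    ext n
    rw [PowerSeries.coeff_mul, PowerSeries.coeff_mul]
    have h1 : ∀ p ∈ Finset.HasAntidiagonal.antidiagonal n,
        (PowerSeries.coeff p.1) A * (PowerSeries.coeff p.2) One =
          (q : ℚ) ^ (p.1 * (p.1 - 1)) / (glN q p.1 : ℚ) := by
      intro p _
      rw [hA, hOne, PowerSeries.coeff_mk, PowerSeries.coeff_mk, mul_one, haq]
    have h2 : ∀ p ∈ Finset.HasAntidiagonal.antidiagonal n,
        (PowerSeries.coeff p.1) U0 * (PowerSeries.coeff p.2) Tau =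
          (q : ℚ) ^ (2 * p.1 ^ 2) / (spN q p.1 : ℚ) *
            ((q : ℚ) ^ (2 * p.2 ^ 2 + p.2) / (spN q p.2 : ℚ)) := by
      intro p _
      rw [hU0, hTau, PowerSeries.coeff_mk, PowerSeries.coeff_mk]
    rw [Finset.sum_congr rfl h1, Finset.sum_congr rfl h2,
      Finset.Nat.sum_antidiagonal_eq_sum_range_succ
        (fun i j => (q : ℚ) ^ (2 * i ^ 2) / (spN q i : ℚ) *
            ((q : ℚ) ^ (2 * j ^ 2 + j) / (spN q j : ℚ))) n,
      Finset.Nat.sum_antidiagonal_eq_sum_range_succ
        (fun i _ => (q : ℚ) ^ (i * (i - 1)) / (glN q i : ℚ)) n]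
    exact hN q hq n
  have hTau0 : Tau ≠ 0 := by
    intro h0
    have h1 : PowerSeries.coeff 0 Tau = 0 := by rw [h0]; simp
    rw [hTau, PowerSeries.coeff_mk] at h1
    have h2 : (q : ℚ) ^ (2 * 0 ^ 2 + 0) / (spN q 0 : ℚ) ≠ 0 := by
      have := hsp 0
      simp only [ne_eq, OfNat.ofNat_ne_zero, not_false_eq_true, zero_pow, mul_zero, add_zero,
        pow_zero, one_div, inv_eq_zero]
      exact this
    exact h2 h1
  have hkey : Tau * (U0 - U) = 0 := by
    have e1 : Tau * U0 = A * One := by rw [mul_comm, hNum]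
    have e2 : Tau * U = A * One := by
      rw [← hAE, ← hUE]
      ring
    rw [mul_sub, e1, e2, sub_self]
  have hUU : U0 = U := by
    rcases mul_eq_zero.mp hkey with h | h
    · exact absurd h hTau0
    · exact sub_eq_zero.mp h
  have hm : PowerSeries.coeff m U0 = PowerSeries.coeff m U := by rw [hUU]
  rw [hU0, hU, PowerSeries.coeff_mk, PowerSeries.coeff_mk] at hm
  have h3 : (q : ℚ) ^ (2 * m ^ 2) = (u m : ℚ) := by
    have := hsp m
    field_simp at hm
    exact hm
  exact_mod_cast h3.symm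

example (hN : NumStmt) : AlgStmt := alg hN

end Cfsg.Agent.H19.SpU
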