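import Cfsg.Agent.H48.SpUDefs

/-!
# S2316 team project, piece NUM: the q-identity

`∑_{i+j=m} q^(2i²)/|Sp_2i| · q^(2j²+j)/|Sp_2j| = ∑_{k≤m} q^(k(k-1))/|GL_k|`.
-/

set_option autoImplicit false

open Cfsg.Agent.H48.SpU Matrix

namespace Cfsg.Agent.H19.SpU

/-- `∏_{l<i} (q^(2(l+1)) - 1)` over `ℚ`. -/
noncomputable def pp (q : ℕ) (i : ℕ) : ℚ := ∏ l ∈ Finset.range i, ((q : ℚ) ^ (2 * (l + 1)) - 1)

/-- `c_i = q^(i²+i) / ∏_{l≤i} (q^(2l) - 1)`. -/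
noncomputable def cc (q : ℕ) (i : ℕ) : ℚ := (q : ℚ) ^ (i ^ 2 + i) / pp q i

/-- `R_m = ∏_{l≤m} q^l/(q^l - 1)`. -/
noncomputable def rr (q : ℕ) (m : ℕ) : ℚ :=
  ∏ l ∈ Finset.range m, ((q : ℚ) ^ (l + 1) / ((q : ℚ) ^ (l + 1) - 1))

/-- the convolution `F_m = ∑_{i+j=m} q^(-i) c_i c_j`. -/
noncomputable def ff (q : ℕ) (m : ℕ) : ℚ :=
  ∑ p ∈ Finset.HasAntidiagonal.antidiagonal m, cc q p.1 / (q : ℚ) ^ p.1 * cc q p.2

theorem qpow_sub_one_pos {q : ℕ} (hq : 2 ≤ q) (d : ℕ) : (0 : ℚ) < (q : ℚ) ^ (d + 1) - 1 := by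
  have h1 : (1 : ℚ) < (q : ℚ) := by exact_mod_cast hq
  have : (1 : ℚ) < (q : ℚ) ^ (d + 1) := one_lt_pow₀ h1 (by omega)
  linarith

theorem pp_pos {q : ℕ} (hq : 2 ≤ q) (i : ℕ) : 0 < pp q i := by
  unfold pp
  apply Finset.prod_pos
  intro l _
  have := qpow_sub_one_pos hq (2 * l + 1)
  have e : 2 * l + 1 + 1 = 2 * (l + 1) := by ring
  rwa [e] at this

theorem pp_succ (q : ℕ) (i : ℕ) : pp q (i + 1) = pp q i * ((q : ℚ) ^ (2 * (i + 1)) - 1) := by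
  unfold pp
  rw [Finset.prod_range_succ]

theorem spN_cast {q : ℕ} (hq : 2 ≤ q) (i : ℕ) : (spN q i : ℚ) = (q : ℚ) ^ (i ^ 2) * pp q i := by
  unfold spN pp
  push_cast
  congr 1
  apply Finset.prod_congr rfl
  intro l _
  rw [Nat.cast_sub (Nat.one_le_pow _ _ (by omega))]
  push_cast
  rfl

theorem spN_cast_pos {q : ℕ} (hq : 2 ≤ q) (i : ℕ) : (0 : ℚ) < (spN q i : ℚ) := by
  rw [spN_cast hq]
  have h1 := pp_pos hq i
  have h2 : (0 : ℚ) < (q : ℚ) := by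
    have : (2 : ℚ) ≤ (q : ℚ) := by exact_mod_cast hq
    linarith
  positivity

theorem spN_pos {q : ℕ} (hq : 2 ≤ q) (i : ℕ) : 0 < spN q i := by
  have := spN_cast_pos hq i
  exact_mod_cast this

theorem termA {q : ℕ} (hq : 2 ≤ q) (i : ℕ) :
    (q : ℚ) ^ (2 * i ^ 2) / (spN q i : ℚ) = cc q i / (q : ℚ) ^ i := by
  rw [spN_cast hq, cc]
  have h1 := pp_pos hq i
  have h2 : (0 : ℚ) < (q : ℚ) := by
    have : (2 : ℚ) ≤ (q : ℚ) := by exact_mod_cast hq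
    linarith
  have h3 : (q : ℚ) ≠ 0 := h2.ne'
  have h4 : pp q i ≠ 0 := h1.ne'
  field_simp
  ring

theorem termB {q : ℕ} (hq : 2 ≤ q) (j : ℕ) :
    (q : ℚ) ^ (2 * j ^ 2 + j) / (spN q j : ℚ) = cc q j := by
  rw [spN_cast hq, cc]
  have h1 := pp_pos hq j
  have h2 : (0 : ℚ) < (q : ℚ) := by
    have : (2 : ℚ) ≤ (q : ℚ) := by exact_mod_cast hq
    linarith
  have h3 : (q : ℚ) ≠ 0 := h2.ne'
  have h4 : pp q j ≠ 0 := h1.ne'
  field_simp
  ring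

theorem cc_zero (q : ℕ) : cc q 0 = 1 := by
  simp [cc, pp]

theorem cc_succ {q : ℕ} (hq : 2 ≤ q) (j : ℕ) :
    cc q (j + 1) * (1 - 1 / (q : ℚ) ^ (2 * (j + 1))) = cc q j := by
  unfold cc
  rw [pp_succ]
  have h1 := pp_pos hq j
  have h2 : (0 : ℚ) < (q : ℚ) := by
    have : (2 : ℚ) ≤ (q : ℚ) := by exact_mod_cast hq
    linarith
  have h3 : (q : ℚ) ≠ 0 := h2.ne'
  have h4 : pp q j ≠ 0 := h1.ne'
  have h5 : (0 : ℚ) < (q : ℚ) ^ (2 * (j + 1)) - 1 := by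
    have := qpow_sub_one_pos hq (2 * j + 1)
    have e : 2 * j + 1 + 1 = 2 * (j + 1) := by ring
    rwa [e] at this
  have h6 : (q : ℚ) ^ (2 * (j + 1)) - 1 ≠ 0 := h5.ne'
  field_simp
  ring

theorem ff_zero (q : ℕ) : ff q 0 = 1 := by
  simp [ff, cc_zero]

theorem ff_succ {q : ℕ} (hq : 2 ≤ q) (m : ℕ) :
    (1 - 1 / (q : ℚ) ^ (m + 1)) * ff q (m + 1) = ff q m := by
  have h2 : (0 : ℚ) < (q : ℚ) := by
    have : (2 : ℚ) ≤ (q : ℚ) := by exact_mod_cast hq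
    linarith
  have h3 : (q : ℚ) ≠ 0 := h2.ne'
  unfold ff
  have hswap : ∑ p ∈ Finset.HasAntidiagonal.antidiagonal (m + 1),
        cc q p.1 * cc q p.2 / ((q : ℚ) ^ p.1 * (q : ℚ) ^ (m + 1)) =
      ∑ p ∈ Finset.HasAntidiagonal.antidiagonal (m + 1),
        cc q p.1 * cc q p.2 / ((q : ℚ) ^ p.2 * (q : ℚ) ^ (m + 1)) := by
    rw [← Finset.Nat.sum_antidiagonal_swap]
    apply Finset.sum_congr rfl
    intro p _
    simp only [Prod.fst_swap, Prod.snd_swap]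
    ring
  have hstep : (1 - 1 / (q : ℚ) ^ (m + 1)) *
        ∑ p ∈ Finset.HasAntidiagonal.antidiagonal (m + 1), cc q p.1 / (q : ℚ) ^ p.1 * cc q p.2 =
      ∑ p ∈ Finset.HasAntidiagonal.antidiagonal (m + 1),
        cc q p.1 / (q : ℚ) ^ p.1 * (cc q p.2 * (1 - 1 / (q : ℚ) ^ (2 * p.2))) := by
    have e1 : (1 - 1 / (q : ℚ) ^ (m + 1)) *
        ∑ p ∈ Finset.HasAntidiagonal.antidiagonal (m + 1), cc q p.1 / (q : ℚ) ^ p.1 * cc q p.2 =
        ∑ p ∈ Finset.HasAntidiagonal.antidiagonal (m + 1), cc q p.1 / (q : ℚ) ^ p.1 * cc q p.2 -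
        ∑ p ∈ Finset.HasAntidiagonal.antidiagonal (m + 1),
          cc q p.1 * cc q p.2 / ((q : ℚ) ^ p.1 * (q : ℚ) ^ (m + 1)) := by
      rw [sub_mul, one_mul, Finset.mul_sum]
      congr 1
      apply Finset.sum_congr rfl
      intro p _
      field_simp
    rw [e1, hswap, ← Finset.sum_sub_distrib]
    apply Finset.sum_congr rfl
    intro p hp
    have hp' : p.1 + p.2 = m + 1 := Finset.HasAntidiagonal.mem_antidiagonal.mp hp
    have e2 : (q : ℚ) ^ p.2 * (q : ℚ) ^ (m + 1) = (q : ℚ) ^ p.1 * (q : ℚ) ^ (2 * p.2) := by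
      rw [← hp']
      ring
    rw [e2]
    field_simp
  rw [hstep, Finset.Nat.sum_antidiagonal_succ']
  have e0 : cc q (m + 1) / (q : ℚ) ^ (m + 1) * (cc q 0 * (1 - 1 / (q : ℚ) ^ (2 * 0))) = 0 := by
    simp
  rw [e0, zero_add]
  apply Finset.sum_congr rfl
  intro p _
  rw [cc_succ hq]

theorem rr_zero (q : ℕ) : rr q 0 = 1 := by
  simp [rr]

theorem rr_succ (q : ℕ) (m : ℕ) :
    rr q (m + 1) = rr q m * ((q : ℚ) ^ (m + 1) / ((q : ℚ) ^ (m + 1) - 1)) := by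
  unfold rr
  rw [Finset.prod_range_succ]

theorem rr_rec {q : ℕ} (hq : 2 ≤ q) (m : ℕ) :
    (1 - 1 / (q : ℚ) ^ (m + 1)) * rr q (m + 1) = rr q m := by
  rw [rr_succ]
  have h2 : (0 : ℚ) < (q : ℚ) := by
    have : (2 : ℚ) ≤ (q : ℚ) := by exact_mod_cast hq
    linarith
  have h3 : (q : ℚ) ≠ 0 := h2.ne'
  have h6 : (q : ℚ) ^ (m + 1) - 1 ≠ 0 := (qpow_sub_one_pos hq m).ne'
  field_simp

theorem ff_eq_rr {q : ℕ} (hq : 2 ≤ q) (m : ℕ) : ff q m = rr q m := by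
  induction m with
  | zero => rw [ff_zero, rr_zero]
  | succ m ih =>
    have h1 := ff_succ hq m
    have h2 := rr_rec hq m
    have h3 : (1 - 1 / (q : ℚ) ^ (m + 1)) ≠ 0 := by
      have h5 := qpow_sub_one_pos hq m
      have h6 : (0 : ℚ) < (q : ℚ) ^ (m + 1) := by linarith
      have h7 : (1 - 1 / (q : ℚ) ^ (m + 1)) = ((q : ℚ) ^ (m + 1) - 1) / (q : ℚ) ^ (m + 1) := by
        field_simp
      rw [h7]
      exact (div_pos h5 h6).ne'
    apply mul_left_cancel₀ h3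
    rw [h1, h2, ih]

theorem glN_succ (q : ℕ) (k : ℕ) :
    glN q (k + 1) = q ^ k * (q ^ (k + 1) - 1) * glN q k := by
  unfold glN
  rw [Fin.prod_univ_succ]
  have e : ∀ i : Fin k, q ^ (k + 1) - q ^ ((Fin.succ i : Fin (k + 1)) : ℕ) = q * (q ^ k - q ^ (i : ℕ)) := by
    intro i
    rw [Fin.val_succ, Nat.mul_sub, pow_succ, pow_succ]
    congr 1 <;> ring
  rw [Finset.prod_congr rfl (fun i _ => e i), Finset.prod_mul_distrib]
  simp only [Fin.val_zero, pow_zero, Finset.prod_const, Finset.card_univ, Fintype.card_fin]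
  ring

theorem glN_zero (q : ℕ) : glN q 0 = 1 := by
  simp [glN]

theorem glN_pos {q : ℕ} (hq : 2 ≤ q) (k : ℕ) : 0 < glN q k := by
  unfold glN
  apply Finset.prod_pos
  intro i _
  have : q ^ (i : ℕ) < q ^ k := Nat.pow_lt_pow_right (by omega) i.isLt
  omega

theorem glN_cast_succ {q : ℕ} (hq : 2 ≤ q) (k : ℕ) :
    (glN q (k + 1) : ℚ) = (q : ℚ) ^ k * ((q : ℚ) ^ (k + 1) - 1) * (glN q k : ℚ) := by
  rw [glN_succ]
  push_cast
  rw [Nat.cast_sub (Nat.one_le_pow _ _ (by omega))]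
  push_cast
  rfl

/-- `t_k = q^(k(k-1))/|GL_k(q)|`. -/
noncomputable def tt (q : ℕ) (k : ℕ) : ℚ := (q : ℚ) ^ (k * (k - 1)) / (glN q k : ℚ)

theorem tt_mul {q : ℕ} (hq : 2 ≤ q) (k : ℕ) : tt q k * (q : ℚ) ^ k = rr q k := by
  have h2 : (0 : ℚ) < (q : ℚ) := by
    have : (2 : ℚ) ≤ (q : ℚ) := by exact_mod_cast hq
    linarith
  have h3 : (q : ℚ) ≠ 0 := h2.ne'
  induction k with
  | zero => simp [tt, rr, glN_zero]
  | succ k ih =>
    rw [rr_succ, ← ih]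
    unfold tt
    rw [glN_cast_succ hq]
    have h6 : (q : ℚ) ^ (k + 1) - 1 ≠ 0 := (qpow_sub_one_pos hq k).ne'
    have h7 : (glN q k : ℚ) ≠ 0 := by
      have := glN_pos hq k
      positivity
    have e : (k + 1) * (k + 1 - 1) = k * (k - 1) + 2 * k := by
      cases k with
      | zero => rfl
      | succ n =>
        simp only [Nat.add_sub_cancel]
        ring
    rw [e]
    field_simp
    ring

theorem sum_tt {q : ℕ} (hq : 2 ≤ q) (m : ℕ) :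
    ∑ k ∈ Finset.range (m + 1), tt q k = rr q m := by
  have h2 : (0 : ℚ) < (q : ℚ) := by
    have : (2 : ℚ) ≤ (q : ℚ) := by exact_mod_cast hq
    linarith
  have h3 : (q : ℚ) ≠ 0 := h2.ne'
  induction m with
  | zero => simp [tt, rr, glN_zero]
  | succ m ih =>
    rw [Finset.sum_range_succ, ih]
    have h1 := tt_mul hq (m + 1)
    have h4 : tt q (m + 1) = rr q (m + 1) / (q : ℚ) ^ (m + 1) := by
      rw [← h1]
      field_simp
    rw [h4, rr_succ]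
    have h6 : (q : ℚ) ^ (m + 1) - 1 ≠ 0 := (qpow_sub_one_pos hq m).ne'
    field_simp
    ring

/-- S2316-NUM. -/
theorem num : NumStmt := by
  intro q hq m
  have h1 : ∑ i ∈ Finset.range (m + 1),
        ((q : ℚ) ^ (2 * i ^ 2) / (spN q i : ℚ)) *
          ((q : ℚ) ^ (2 * (m - i) ^ 2 + (m - i)) / (spN q (m - i) : ℚ)) = ff q m := by
    unfold ff
    rw [Finset.Nat.sum_antidiagonal_eq_sum_range_succ
      (fun i j => cc q i / (q : ℚ) ^ i * cc q j) m]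
    apply Finset.sum_congr rfl
    intro i _
    rw [termA hq, termB hq]
  rw [h1, ff_eq_rr hq, ← sum_tt hq]
  rfl

example : NumStmt := num

end Cfsg.Agent.H19.SpU
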