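import Cfsg.Agent.H23.StbDecDefs2

/-!
# SD-ADJ (piece for helper23's S2156 project): the root subgroups of two fundamental roots commute exactly
when the Cartan integer vanishes; `X_{α_j}` and `X_{-α_i}` commute for `i ≠ j`
-/

set_option autoImplicit false

namespace Cfsg.Agent.H19.StbD

open Cfsg.Lie Cfsg.Agent.H23 Cfsg.Agent.H23.Stb Cfsg.Agent.H23.StbD

universe u

theorem adj : StAdj.{u} := by
  intro D F _ z η rT w0 hC h1 h2 h3 _h4
  have hP := hC.hP
  have hS := hP.sem
  have hT := hP.tab
  have hT2 := hP.tab2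
  have hA : ∀ i < D.rank, ∀ j < D.rank, i ≠ j → ∀ t u : F,
      xU hS (D.simple j) u * xU hS (D.neg (D.simple i)) t =
        xU hS (D.neg (D.simple i)) t * xU hS (D.simple j) u := by
    intro i hi j hj hij t u
    have h := hP.semC.commN i hi (D.simple j) (hT.simple_pos j hj)
      (fun e => hij (hT2.simple_inj j hj i hi e).symm) t u
    have hw : D.commWord F (D.neg (D.simple i)) (D.simple j) t u = [] := by
      unfold ChevalleyDatum.commWord
      rw [h1 i hi j hj hij]
      rfl
    rw [hw] at h
    apply Units.ext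
    simp only [Units.val_mul, xU_val]
    rw [h]
    simp [ChevalleyDatum.wordMat]
  refine ⟨hA, ?_⟩
  intro i hi j hj hij
  have hc := fun t u => hP.semC.comm i hi (D.simple j) (hT.simple_pos j hj)
    (fun e => hij (hT2.simple_inj j hj i hi e).symm) t u
  constructor
  · intro hcomm hz
    have c1 : Commute (xU hS (D.simple i) 1) (xU hS (D.simple j) 1) := hcomm 1 1
    have c2 : Commute (xU hS (D.neg (D.simple i)) (-(1 : F)⁻¹)) (xU hS (D.simple j) 1) :=
      (hA i hi j hj hij (-(1 : F)⁻¹) 1).symm
    have hn : nU hS (D.simple i) 1 * xU hS (D.simple j) 1 * (nU hS (D.simple i) 1)⁻¹ =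
        xU hS (D.simple j) 1 := by
      rw [mul_inv_eq_iff_eq_mul]
      unfold nU ChevalleyDatum.nWord
      simp only [wordU_cons, wordU_nil, mul_one]
      exact (c1.mul_left (c2.mul_left c1)).eq
    rw [nU_conj hS hP.semN i hi (D.simple j) (hT.simple_lt j hj) 1] at hn
    have hη : ((η i (D.simple j) : ℤ) : F) * 1 ≠ 0 := by
      rcases hP.semN.eta i (D.simple j) with h | h <;> rw [h] <;> simp
    have := xU_eq_imp hP _ _ (hT.refl_lt i hi _ (hT.simple_lt j hj)) (hT.simple_lt j hj) _ _ hn hη
    exact h3 i hi j hj hij hz this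
  · intro hz t u
    have hz' : z (D.simple j) (D.simple i) = 0 := by
      by_contra h; exact hz h
    have hw : D.commWord F (D.simple i) (D.simple j) t u = [] := by
      unfold ChevalleyDatum.commWord
      rw [h2 i hi j hj hij hz']
      rfl
    have h := hc t u
    rw [hw] at h
    apply Units.ext
    simp only [Units.val_mul, xU_val]
    rw [h]
    simp [ChevalleyDatum.wordMat]

example : Cfsg.Agent.H23.StbD.StAdj.{u} := adj

end Cfsg.Agent.H19.StbD
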