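import Cfsg.Agent.H19.SxAsm
import Cfsg.Agent.H19.SxBuild
import Cfsg.Agent.H19.SxW
import Cfsg.Agent.H5.SnRed
import Cfsg.Agent.H63.SnIfSyl
import Cfsg.Agent.H63.SnIfV
import Cfsg.Agent.H63.SnIfZ
import Cfsg.Agent.H71.SnIfS
import Cfsg.Agent.H14.SxStruct
import Cfsg.Agent.H18.SxCompA
import Cfsg.Agent.H25.SxCompB
import Cfsg.Agent.H13.SxVK
import Cfsg.Agent.H13.SxIfA
import Cfsg.Agent.H25.SxIfV2
import Cfsg.Agent.H25.SxSylJ
import Cfsg.Agent.H39.SxLift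

/-!
# EXIST and BUILD, hypothesis-free

Every member `L` of the family of `T` contains a `J(T)`-component (pieces by helper14 (STRUCT),
helper18 (COMPA), helper25 (COMPB, IFV2, SYLJ), helper13 (VK, IFA), helper82/helper36/helper3/
helper75/helper16 (W4 chain), helper39 (LIFT), and helper52's SN pieces by helper5, helper63,
helper71).
-/

set_option autoImplicit false
open Cfsg

namespace Cfsg.Agent.H19.Sx

universe u

/-- EXIST, hypothesis-free. -/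
theorem existFinal : StExist.{u} :=
  exist Cfsg.Agent.H5.Sn.red Cfsg.Agent.H63.Sn.ifSyl Cfsg.Agent.H63.Sn.ifV Cfsg.Agent.H63.Sn.ifZ
    Cfsg.Agent.H71.Sn.ifS Cfsg.Agent.H14.Sx.struct Cfsg.Agent.H18.Sx.compA
    Cfsg.Agent.H25.Sx.compB Cfsg.Agent.H13.Sx.vk w Cfsg.Agent.H13.Sx.ifA
    Cfsg.Agent.H25.Sx.ifV2 Cfsg.Agent.H25.Sx.sylJ Cfsg.Agent.H39.Sx.lift

/-- BUILD, hypothesis-free. -/
theorem buildFinal : StBuild.{u} :=
  build Cfsg.Agent.H5.Sn.red Cfsg.Agent.H63.Sn.ifSyl Cfsg.Agent.H63.Sn.ifV Cfsg.Agent.H63.Sn.ifZ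
    Cfsg.Agent.H71.Sn.ifS Cfsg.Agent.H18.Sx.compA Cfsg.Agent.H25.Sx.compB Cfsg.Agent.H13.Sx.vk w
    Cfsg.Agent.H25.Sx.ifV2 Cfsg.Agent.H25.Sx.sylJ Cfsg.Agent.H39.Sx.lift

/-- The existence statement in plain form. -/
theorem exists_jComponent {G : Type u} [Group G] [Finite G] (hL : IsCharacteristicTwoType G)
    (hN : ∀ N : Subgroup G, IsTwoLocal N → Group.IsSolvable ↥N)
    (hZ : ∀ S : Sylow 2 G, Subgroup.centralizer (omegaCenterOf (S : Subgroup G) : Set G) ≤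
      Subgroup.normalizer ((S : Subgroup G) : Set G))
    (T : Subgroup G) (hT : IsPGroup 2 ↥T) (hT1 : T ≠ ⊥) (L : Subgroup G)
    (hLT : L ∈ jOvergroups T) : ∃ K : Subgroup G, IsJComponent T K ∧ K ≤ L :=
  existFinal hL hN hZ T hT hT1 L hLT

end Cfsg.Agent.H19.Sx
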