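import Mathlib
import Cfsg.Agent.H19.ZassFeit
import Cfsg.Agent.S0738

/-!
# Simple Zassenhaus groups of odd degree with abelian kernel (helper19)

* `zass_two_stab_odd_of_odd_card` : odd degree forces two-point stabilizers of odd order
* `zass_even_structure_eq` : the structure equation `v u₀ v = u₀ v u₀` has a unique solution
  `u₀ ∈ U♯` (uses Feit's theorem `zass_feit_abelian` and S0738)
-/

set_option autoImplicit false
set_option linter.style.haveILetI false
set_option linter.unusedSectionVars false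

namespace Cfsg.Agent.H19

open Cfsg MulAction

universe u v

variable {G : Type u} {Ω : Type v} [Group G] [MulAction G Ω]

/-- In a Zassenhaus group of odd degree, two-point stabilizers have odd order. -/
theorem zass_two_stab_odd_of_odd_card [Finite G] [Fintype Ω] (hZ : IsZassenhausGroup G Ω)
    {a b : Ω} (hab : a ≠ b) (hn : Odd (Fintype.card Ω)) :
    Odd (Nat.card (stabilizer G a ⊓ stabilizer G b : Subgroup G)) := by
  classical
  haveI : Fact (Nat.Prime 2) := ⟨Nat.prime_two⟩
  by_contra hodd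
  rw [Nat.not_odd_iff_even, even_iff_two_dvd] at hodd
  obtain ⟨⟨w, hwmem⟩, hw⟩ := exists_prime_orderOf_dvd_card' (G := (stabilizer G a ⊓ stabilizer G b :
    Subgroup G)) 2 hodd
  have hw2 : orderOf w = 2 := by rw [← hw, Subgroup.orderOf_mk]
  have hwa : w • a = a := hwmem.1
  have hwb : w • b = b := hwmem.2
  have hww : ∀ c : Ω, w • w • c = c := by
    intro c
    rw [← mul_smul, invol_mul_self hw2, one_smul]
  have hne : ∀ c : Ω, c ≠ a → w • c ≠ a := by
    intro c hc h
    rw [← hwa] at h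
    exact hc (smul_left_cancel _ h)
  let σ : Equiv.Perm {c : Ω // c ≠ a} :=
    { toFun := fun c => ⟨w • c.1, hne c.1 c.2⟩
      invFun := fun c => ⟨w • c.1, hne c.1 c.2⟩
      left_inv := fun c => Subtype.ext (hww c.1)
      right_inv := fun c => Subtype.ext (hww c.1) }
  have hσ : σ ^ 2 ^ 1 = 1 := by
    ext c
    rw [pow_one, pow_two]
    exact hww c.1
  have hcard : 2 ∣ Fintype.card {c : Ω // c ≠ a} := by
    have h1 := card_ne_add_one a
    rw [Nat.card_eq_fintype_card, Nat.card_eq_fintype_card] at h1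
    obtain ⟨m, hm⟩ := hn
    omega
  obtain ⟨d, hd, hdb⟩ := Equiv.Perm.exists_fixed_point_of_prime' (n := 1) hcard hσ
    (a := (⟨b, hab.symm⟩ : {c : Ω // c ≠ a})) (Subtype.ext hwb)
  have hd' : w • d.1 = d.1 := congrArg Subtype.val hd
  have hdb' : d.1 ≠ b := fun h => hdb (Subtype.ext h)
  have h1 := hZ.2.2.1 w a b d.1 hab (Ne.symm hdb') (Ne.symm d.2) hwa hwb hd'
  rw [h1, orderOf_one] at hw2
  omega

/-- **Structure equation, even case**: in a simple Zassenhaus group with an abelian regular normal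
2-subgroup `U` of `G_a`, for an involution `v` moving `a` there is a unique `u₀ ∈ U♯` with
`v u₀ v = u₀ v u₀`. -/
theorem zass_even_structure_eq [Finite G] [Finite Ω] (hZ : IsZassenhausGroup G Ω)
    [IsSimpleGroup G] {a : Ω} (U : Subgroup G) (hUle : U ≤ stabilizer G a)
    (hUn : ∀ h ∈ stabilizer G a, ∀ u ∈ U, h * u * h⁻¹ ∈ U)
    (hreg : ∀ c d : Ω, c ≠ a → d ≠ a → ∃! u : U, (u : G) • c = d)
    (hU2 : IsPGroup 2 U) (hUab : ∀ u ∈ U, ∀ u' ∈ U, u * u' = u' * u)
    (v : G) (hv1 : v ≠ 1) (hv2 : v * v = 1) (hva : v • a ≠ a) :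
    ∃! u₀ : G, u₀ ∈ U ∧ u₀ ≠ 1 ∧ v * u₀ * v = u₀ * v * u₀ := by
  classical
  haveI : Fintype Ω := Fintype.ofFinite Ω
  haveI : Fact (Nat.Prime 2) := ⟨Nat.prime_two⟩
  have hn3 := zass_three_le_card hZ
  obtain ⟨b, hb⟩ : ∃ b, b = v • a := ⟨_, rfl⟩
  have hba : b ≠ a := by rw [hb]; exact hva
  have hvb : v • b = a := by rw [hb, ← mul_smul, hv2, one_smul]
  have hvord : orderOf v = 2 := orderOf_eq_prime (by rw [pow_two]; exact hv2) hv1
  -- the kernel data
  have hUfix : ∀ u ∈ U, u ≠ 1 → ∀ c : Ω, u • c = c → c = a := by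
    intro u hu hu1 c hc
    by_contra hca
    obtain ⟨w, -, hw⟩ := hreg c c hca hca
    have h1 := hw ⟨u, hu⟩ hc
    have h2 := hw 1 (one_smul _ c)
    exact hu1 (congrArg Subtype.val (h1.trans h2.symm))
  have hUa : ∀ u ∈ U, u • a = a := fun u hu => hUle hu
  have hUcard : Nat.card U + 1 = Fintype.card Ω := by
    have h1 := card_ne_add_one a
    rw [Nat.card_eq_fintype_card (α := Ω)] at h1
    rw [← h1]
    congr 1
    have hmem : ∀ u : U, (u : G) • b ≠ a := by
      intro u h
      rw [← hUa u u.2] at h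
      exact hba (smul_left_cancel _ h)
    apply Nat.card_congr
    refine Equiv.ofBijective (fun u : U => (⟨(u : G) • b, hmem u⟩ : {c : Ω // c ≠ a})) ⟨?_, ?_⟩
    · intro u u' huu'
      have h2 : (u : G) • b = (u' : G) • b := congrArg Subtype.val huu'
      obtain ⟨w, -, hw⟩ := hreg b ((u : G) • b) hba (hmem u)
      exact (hw u rfl).trans (hw u' h2.symm).symm
    · intro c
      obtain ⟨w, hw, -⟩ := hreg b c.1 hba c.2
      exact ⟨w, Subtype.ext hw⟩
  -- the degree is odd
  have hnodd : Odd (Fintype.card Ω) := by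
    obtain ⟨k, hk⟩ := hU2.exists_card_eq
    rw [← hUcard, hk]
    have hk0 : k ≠ 0 := by
      rintro rfl
      rw [hk] at hUcard
      omega
    exact Even.add_one ((Nat.even_pow' hk0).mpr even_two)
  have hab : a ≠ b := Ne.symm hba
  have hodd := zass_two_stab_odd_of_odd_card hZ hab hnodd
  -- Feit's theorem
  have hfeit := zass_feit_abelian hZ hab _ rfl hodd U hUle hUcard hUfix hUab
  have hFn : (U.subgroupOf (stabilizer G a)).Normal := by
    refine ⟨fun n hn g => ?_⟩
    rw [Subgroup.mem_subgroupOf] at hn ⊢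
    exact hUn g g.2 n hn
  obtain ⟨-, p, f, hp, hexp, hpf⟩ := Cfsg.Agent.S0738.result hZ hab hfeit U hUle hFn hreg
  -- p = 2
  have hp2 : p = 2 := by
    obtain ⟨k, hk⟩ := hU2.exists_card_eq
    have hk0 : k ≠ 0 := by
      rintro rfl
      rw [hk] at hUcard
      omega
    have h1 : p ^ f = 2 ^ k := by omega
    have h2 : 2 ∣ p ^ f := by
      rw [h1]
      exact dvd_pow_self 2 hk0
    have h3 := Nat.prime_two.dvd_of_dvd_pow h2
    exact ((Nat.prime_dvd_prime_iff_eq Nat.prime_two hp).mp h3).symm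
  have hsq : ∀ u ∈ U, u * u = 1 := by
    intro u hu
    have := hexp u hu
    rwa [hp2, pow_two] at this
  -- the fixed point of v
  obtain ⟨c, hc⟩ := zass_invol_exists_fix hnodd hvord
  have hca : c ≠ a := by
    rintro rfl
    exact hva hc
  have hcb : c ≠ b := by
    rintro rfl
    rw [hvb] at hc
    exact hba hc.symm
  obtain ⟨u₀, hu₀, hu₀uniq⟩ := hreg b c hba hca
  have hu₀a : (u₀ : G) • a = a := hUa u₀ u₀.2
  have hu₀c : (u₀ : G) • c = b := by
    rw [← hu₀, ← mul_smul, hsq u₀ u₀.2, one_smul]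
  have hu₀1 : (u₀ : G) ≠ 1 := by
    intro h
    rw [h, one_smul] at hu₀
    exact hcb hu₀.symm
  refine ⟨u₀, ⟨u₀.2, hu₀1, ?_⟩, ?_⟩
  · -- existence: both sides agree on a, b, c
    have h1 : ((u₀ : G) * v * u₀)⁻¹ * (v * u₀ * v) = 1 := by
      apply hZ.2.2.1 _ a b c hab (Ne.symm hcb) (Ne.symm hca)
      · rw [mul_smul, inv_smul_eq_iff]
        simp only [mul_smul]
        rw [hu₀a, ← hb, hu₀, hc]
      · rw [mul_smul, inv_smul_eq_iff]
        simp only [mul_smul]
        rw [hvb, hu₀a, ← hb, hu₀, hc, hu₀c]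
      · rw [mul_smul, inv_smul_eq_iff]
        simp only [mul_smul]
        rw [hc, hu₀c, hvb, hu₀a]
    have h2 := congrArg (fun x => ((u₀ : G) * v * u₀) * x) h1
    simp only [mul_inv_cancel_left, mul_one] at h2
    exact h2
  · -- uniqueness
    rintro y ⟨hy, hy1, hyeq⟩
    have h1 : v • (y • b) = y • b := by
      have h2 := congrArg (fun x => x • a) hyeq
      simp only [mul_smul] at h2
      rw [← hb, hUa y hy, ← hb] at h2
      exact h2
    have h3 : y • b = c := zass_invol_fix_unique hZ hab hodd hvord h1 hc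
    have h4 := hu₀uniq ⟨y, hy⟩ h3
    exact congrArg Subtype.val h4

end Cfsg.Agent.H19
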