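import Mathlib
import Cfsg.Prelude.Def_LieExceptional
import Cfsg.Agent.H19.ZassFeit
import Cfsg.Agent.H19.FeitG4
import Cfsg.Agent.H19.SibE
import Cfsg.Agent.S0339
import Cfsg.Agent.S0346

/-!
# Feit's theorem on Zassenhaus groups with odd two-point stabilizers (helper19)
-/

set_option autoImplicit false
set_option linter.style.haveILetI false
set_option linter.unusedSectionVars false
set_option linter.unusedVariables false

namespace Cfsg.Agent.H19

open Cfsg MulAction Cfsg.Agent.H5
open scoped commutatorElement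

universe u v

/-- Arithmetic: a non-abelian Frobenius kernel is large. -/
theorem feit_hbig_arith (e h q r : ℕ) (hodd : Odd e) (hqr : q * r = h) (hr2 : 2 ≤ r)
    (hq2 : 2 ≤ q) (her : e ∣ r - 1) (heh : e ∣ h - 1)
    (hcase : Odd h ∨ 4 * e ^ 2 + 2 ≤ q) : (e + 1) * (2 * e + 1) ≤ h := by
  have heq : e ∣ q - 1 := by
    have h1 : h - 1 = q * (r - 1) + (q - 1) := by
      rw [← hqr]
      obtain ⟨r', rfl⟩ : ∃ r', r = r' + 1 := ⟨r - 1, by omega⟩
      obtain ⟨q', rfl⟩ : ∃ q', q = q' + 1 := ⟨q - 1, by omega⟩
      simp only [Nat.add_sub_cancel]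
      rw [Nat.mul_succ]
      omega
    rw [h1] at heh
    exact (Nat.dvd_add_right (Dvd.dvd.mul_left her q)).mp heh
  obtain ⟨t, ht⟩ := her
  obtain ⟨s, hs⟩ := heq
  have ht1 : 1 ≤ t := by
    rcases Nat.eq_zero_or_pos t with h0 | h0
    · rw [h0, mul_zero] at ht
      omega
    · exact h0
  have hs1 : 1 ≤ s := by
    rcases Nat.eq_zero_or_pos s with h0 | h0
    · rw [h0, mul_zero] at hs
      omega
    · exact h0
  rcases hcase with hoh | hbig
  · rw [← hqr] at hoh
    obtain ⟨hq_odd, hr_odd⟩ := Nat.odd_mul.mp hoh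
    have ht2 : 2 ≤ t := by
      by_contra hcon
      have ht1' : t = 1 := by omega
      rw [ht1', mul_one] at ht
      obtain ⟨k, hk⟩ := hr_odd
      obtain ⟨j, hj⟩ := hodd
      omega
    have hs2 : 2 ≤ s := by
      by_contra hcon
      have hs1' : s = 1 := by omega
      rw [hs1', mul_one] at hs
      obtain ⟨k, hk⟩ := hq_odd
      obtain ⟨j, hj⟩ := hodd
      omega
    have hr3 : 2 * e + 1 ≤ r := by
      have : e * 2 ≤ e * t := Nat.mul_le_mul_left e ht2
      omega
    have hq3 : 2 * e + 1 ≤ q := by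
      have : e * 2 ≤ e * s := Nat.mul_le_mul_left e hs2
      omega
    rw [← hqr]
    calc (e + 1) * (2 * e + 1) ≤ (2 * e + 1) * (2 * e + 1) :=
          Nat.mul_le_mul_right _ (by omega)
      _ ≤ q * r := Nat.mul_le_mul hq3 hr3
  · have hr3 : e + 1 ≤ r := by
      have : e * 1 ≤ e * t := Nat.mul_le_mul_left e ht1
      omega
    rw [← hqr]
    calc (e + 1) * (2 * e + 1) = (2 * e + 1) * (e + 1) := Nat.mul_comm _ _
      _ ≤ q * r := Nat.mul_le_mul (by nlinarith) hr3

/-- The index of the commutator subgroup of a subgroup, computed inside the ambient group. -/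
theorem commutator_index_eq {G : Type*} [Group G] (F : Subgroup G) :
    (commutator F).index = (⁅F, F⁆.subgroupOf F).index := by
  have h1 : (commutator F).map F.subtype = ⁅F, F⁆ := by
    rw [commutator_def, Subgroup.map_commutator, ← MonoidHom.range_eq_map, Subgroup.range_subtype]
  have h2 : ⁅F, F⁆.subgroupOf F = commutator F := by
    rw [← h1]
    exact Subgroup.comap_map_eq_self_of_injective (Subgroup.subtype_injective F) _
  rw [h2]

section TI

variable {G : Type u} [Group G] [Fintype G] (K : Subgroup G)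

local notation "NK" => Subgroup.normalizer (K : Set G)
local notation "HK" => Subgroup.subgroupOf K (Subgroup.normalizer (K : Set G))

/-- Transfer of the index of the commutator subgroup to the normalizer. -/
theorem tiK_comm_index :
    (⁅K, K⁆.subgroupOf K).index = (⁅HK, HK⁆.subgroupOf HK).index ∧
    (⁅HK, HK⁆.subgroupOf HK).index * Nat.card (⁅HK, HK⁆ : Subgroup ↥NK) = Nat.card K := by
  classical
  have hmap : (⁅HK, HK⁆ : Subgroup ↥NK).map (NK).subtype = ⁅K, K⁆ := by
    rw [Subgroup.map_commutator, Subgroup.map_subgroupOf_eq_of_le Subgroup.le_normalizer]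
  have hcardc : Nat.card (⁅HK, HK⁆ : Subgroup ↥NK) = Nat.card (⁅K, K⁆ : Subgroup G) := by
    rw [← hmap]
    exact (Subgroup.card_map_of_injective (Subgroup.subtype_injective _)).symm
  have hKK : (⁅K, K⁆ : Subgroup G) ≤ K := Subgroup.commutator_le.mpr (fun a ha b hb => by
    rw [commutatorElement_def]
    exact K.mul_mem (K.mul_mem (K.mul_mem ha hb) (K.inv_mem ha)) (K.inv_mem hb))
  have hi1 : (⁅K, K⁆.subgroupOf K).index * Nat.card (⁅K, K⁆ : Subgroup G) = Nat.card K := by
    have h2 := Subgroup.card_mul_index (⁅K, K⁆.subgroupOf K)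
    rw [Nat.card_congr (Subgroup.subgroupOfEquivOfLe hKK).toEquiv] at h2
    rw [mul_comm]
    exact h2
  have hi2 : (⁅HK, HK⁆.subgroupOf HK).index * Nat.card (⁅HK, HK⁆ : Subgroup ↥NK) =
      Nat.card HK := by
    have h2 := Subgroup.card_mul_index (⁅HK, HK⁆.subgroupOf HK)
    rw [Nat.card_congr (Subgroup.subgroupOfEquivOfLe
      (Subgroup.commutator_le_left HK HK)).toEquiv] at h2
    rw [mul_comm]
    exact h2
  rw [tiK_card K] at hi2
  refine ⟨?_, hi2⟩
  have h3 := hi2
  rw [hcardc, ← hi1] at h3
  exact (Nat.eq_of_mul_eq_mul_right Nat.card_pos h3).symm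

end TI

variable {G : Type u} {Ω : Type v} [Group G] [MulAction G Ω]

set_option maxHeartbeats 1600000 in
/-- **Feit's theorem** for simple Zassenhaus groups. -/
theorem zass_feit_simple [Finite G] [Fintype Ω] [IsSimpleGroup G] (hZ : IsZassenhausGroup G Ω)
    {a b : Ω} (hab : a ≠ b) (h e : ℕ) (hh : Fintype.card Ω = h + 1)
    (he : Nat.card (stabilizer G a ⊓ stabilizer G b : Subgroup G) = e) (hodd : Odd e)
    (F : Subgroup G) (hFle : F ≤ stabilizer G a) (hFcard : Nat.card F + 1 = Fintype.card Ω)
    (hFfix : ∀ u ∈ F, u ≠ 1 → ∀ c : Ω, u • c = c → c = a) :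
    h - 1 ≤ 2 * e ∨ (IsPGroup 2 F ∧ (∃ u v : F, u * v ≠ v * u) ∧
      (commutator F).index ≤ 4 * e ^ 2 + 1) := by
  classical
  haveI : Fintype G := Fintype.ofFinite G
  by_cases hFab : ∀ x ∈ F, ∀ y ∈ F, x * y = y * x
  · left
    have h1 := zass_feit_abelian hZ hab e he hodd F hFle hFcard hFfix hFab
    omega
  push Not at hFab
  obtain ⟨x, hx, y, hy, hxy⟩ := hFab
  have hna : ∃ u v : F, u * v ≠ v * u :=
    ⟨⟨x, hx⟩, ⟨y, hy⟩, fun hc => hxy (congrArg Subtype.val hc)⟩
  have hFh : Nat.card F = h := by omega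
  have hn3 := zass_three_le_card hZ
  have he3 : 3 ≤ e := by
    obtain ⟨w, hw, hw1⟩ := zass_exists_ne_one hZ hab
    have h1 : 1 < Nat.card (stabilizer G a ⊓ stabilizer G b : Subgroup G) := by
      rw [Finite.one_lt_card_iff_nontrivial]
      exact ⟨⟨⟨w, hw⟩, 1, fun hc => hw1 (congrArg Subtype.val hc)⟩⟩
    rw [he] at h1
    obtain ⟨m, hm⟩ := hodd
    omega
  have hNeq := zass_normalizer_kernel hZ a F hFle hFcard hFfix
  have hTI : ∀ g : G, g ∉ Subgroup.normalizer (F : Set G) →
      ∀ k ∈ F, g * k * g⁻¹ ∈ F → k = 1 := by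
    intro g hg k hk hgk
    by_contra hk1
    apply hg
    rw [hNeq]
    have h2 : g * k * g⁻¹ ≠ 1 := by
      intro hc
      apply hk1
      have h4 : k = g⁻¹ * (g * k * g⁻¹) * g := by group
      rw [h4, hc]
      group
    have h3 : (g * k * g⁻¹) • (g • a) = g • a := by
      rw [mul_smul, mul_smul, inv_smul_smul, (hFle hk : k • a = a)]
    exact hFfix _ hgk h2 _ h3
  have hC : ∀ k ∈ F, k ≠ 1 → Subgroup.centralizer ({k} : Set G) ≤ F := by
    intro k hk hk1 x hx
    have hxk : k * x = x * k := Subgroup.mem_centralizer_iff.mp hx k rfl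
    have hka : k • a = a := hFle hk
    have hxa : x • a = a := by
      apply hFfix k hk hk1
      rw [← mul_smul, hxk, mul_smul, hka]
    by_cases hx1 : x = 1
    · rw [hx1]
      exact F.one_mem
    apply zass_mem_kernel hZ a F hFle hFcard hFfix x hxa
    intro c hc
    by_contra hca
    apply hx1
    have h1 : x • (k • c) = k • c := by
      rw [← mul_smul, ← hxk, mul_smul, hc]
    have h2 : k • c ≠ a := by
      intro h
      rw [← hka] at h
      exact hca (smul_left_cancel k h)
    have h3 : k • c ≠ c := fun h => hca (hFfix k hk hk1 c h)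
    exact hZ.2.2.1 x a c (k • c) (Ne.symm hca) (Ne.symm h3) (Ne.symm h2) hxa hc h1
  have hN : Nat.card (Subgroup.normalizer (F : Set G)) = h * e := by
    rw [hNeq, zass_card_stab hZ hab, he, hh]
    simp
  have hG : Nat.card G = (h + 1) * (h * e) := by
    have h1 := card_eq_of_two_pretransitive hZ.2.1 hab
    rw [Nat.card_eq_fintype_card (α := Ω), hh, he] at h1
    rw [h1]
    have h2 : (h + 1) * (h + 1) - (h + 1) = (h + 1) * h := by
      rw [Nat.mul_succ (h + 1) h]
      omega
    rw [h2, mul_assoc]
  have hh0 : 0 < h := by omega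
  obtain ⟨hidx, hNidx, hKidx⟩ := feit_index F h e hFh hN hG hh0 (by omega)
  haveI : Fintype ↥(Subgroup.normalizer (F : Set G)) := Fintype.ofFinite _
  have hF1 : F ≠ ⊥ := by
    intro hbot
    rw [hbot, Subgroup.card_bot] at hFh
    omega
  have hlt : F < Subgroup.normalizer (F : Set G) := by
    refine lt_of_le_of_ne Subgroup.le_normalizer ?_
    intro heq
    have h1 : F.subgroupOf (Subgroup.normalizer (F : Set G)) = ⊤ :=
      Subgroup.subgroupOf_eq_top.mpr heq.ge
    rw [h1, Subgroup.index_top] at hidx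
    omega
  have hC' := tiK_hC F hC
  have hH1 := tiK_ne_bot F hF1
  have hH2 := tiK_ne_top F hlt
  obtain ⟨hci1, hci2⟩ := tiK_comm_index F
  have hcomm_idx : (commutator F).index =
      (⁅F.subgroupOf (Subgroup.normalizer (F : Set G)),
        F.subgroupOf (Subgroup.normalizer (F : Set G))⁆.subgroupOf
          (F.subgroupOf (Subgroup.normalizer (F : Set G)))).index := by
    rw [commutator_index_eq F, hci1]
  obtain ⟨q, hq⟩ : ∃ q : ℕ, q =
      (⁅F.subgroupOf (Subgroup.normalizer (F : Set G)),
        F.subgroupOf (Subgroup.normalizer (F : Set G))⁆.subgroupOf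
          (F.subgroupOf (Subgroup.normalizer (F : Set G)))).index := ⟨_, rfl⟩
  obtain ⟨r, hr⟩ : ∃ r : ℕ, r = Nat.card (⁅F.subgroupOf (Subgroup.normalizer (F : Set G)),
      F.subgroupOf (Subgroup.normalizer (F : Set G))⁆ :
        Subgroup ↥(Subgroup.normalizer (F : Set G))) := ⟨_, rfl⟩
  rw [← hq] at hcomm_idx
  rw [← hq, ← hr, hFh] at hci2
  rcases sibley_TI F hF1 hTI hlt hC with hcoh | hexc | ⟨⟨m, hm⟩, hidx2⟩
  · by_cases h2 : (∃ m : ℕ, Nat.card F = 2 ^ m) ∧ q ≤ 4 * e ^ 2 + 1
    · right
      obtain ⟨⟨m, hm⟩, hq2⟩ := h2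
      exact ⟨IsPGroup.of_card hm, hna, by rw [hcomm_idx]; exact hq2⟩
    · exfalso
      have hbig : (e + 1) * (2 * e + 1) ≤ h := by
        haveI hnilK := frobK_nilpotent (F.subgroupOf (Subgroup.normalizer (F : Set G))) hC' hH1 hH2
        have hnil := cser_self_eq_bot (F.subgroupOf (Subgroup.normalizer (F : Set G)))
        have hcl := comm_lt_of_nilpotent (F.subgroupOf (Subgroup.normalizer (F : Set G))) hnil
          (F.subgroupOf (Subgroup.normalizer (F : Set G))) le_rfl hH1
        have hr2 : 2 ≤ r := by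
          have h1 : 1 < r := by
            rw [hr, Subgroup.one_lt_card_iff_ne_bot]
            intro hbot
            apply hxy
            have hmem : ⁅(⟨x, Subgroup.le_normalizer hx⟩ : ↥(Subgroup.normalizer (F : Set G))),
                (⟨y, Subgroup.le_normalizer hy⟩ : ↥(Subgroup.normalizer (F : Set G)))⁆ ∈
                (⁅F.subgroupOf (Subgroup.normalizer (F : Set G)),
                  F.subgroupOf (Subgroup.normalizer (F : Set G))⁆ :
                    Subgroup ↥(Subgroup.normalizer (F : Set G))) :=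
              Subgroup.commutator_mem_commutator (Subgroup.mem_subgroupOf.mpr hx)
                (Subgroup.mem_subgroupOf.mpr hy)
            rw [hbot, Subgroup.mem_bot] at hmem
            have h5 := commutatorElement_eq_one_iff_mul_comm.mp hmem
            exact congrArg Subtype.val h5
          omega
        have hq2 : 2 ≤ q := by
          have hrlt : r < h := by
            rw [hr, ← hFh, ← tiK_card F]
            have hle := Subgroup.card_le_of_le hcl.le
            rcases hle.lt_or_eq with h5 | h5
            · exact h5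
            · exact absurd (Subgroup.eq_of_le_of_card_ge hcl.le h5.ge) hcl.ne
          by_contra hcon
          have hq01 : q = 0 ∨ q = 1 := by omega
          rcases hq01 with h5 | h5
          · rw [h5, zero_mul] at hci2
            omega
          · rw [h5, one_mul] at hci2
            omega
        have her : e ∣ r - 1 := by
          have h5 := frobK_card_modEq (F.subgroupOf (Subgroup.normalizer (F : Set G))) hC'
            ⁅F.subgroupOf (Subgroup.normalizer (F : Set G)),
              F.subgroupOf (Subgroup.normalizer (F : Set G))⁆ hcl.le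
          rwa [hidx, ← hr] at h5
        have heh : e ∣ h - 1 := by
          have h5 := frobK_card_modEq (F.subgroupOf (Subgroup.normalizer (F : Set G))) hC'
            (F.subgroupOf (Subgroup.normalizer (F : Set G))) le_rfl
          rwa [hidx, tiK_card F, hFh] at h5
        apply feit_hbig_arith e h q r hodd hci2 hr2 hq2 her heh
        have hpp := Cfsg.Agent.S0346.result hZ
        obtain ⟨p, k, hp, hk, hpk⟩ := (isPrimePow_nat_iff _).mp hpp
        have hpk' : p ^ k = h := by omega
        by_cases hp2 : p = 2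
        · right
          by_contra hcon
          exact h2 ⟨⟨k, by rw [hFh, ← hpk', hp2]⟩, by omega⟩
        · left
          rw [← hpk']
          exact Odd.pow (hp.odd_of_ne_two hp2)
      exact feit_coherent_core2 F hTI hC h e hFh hN hG (by omega) hbig hcoh
  · left
    rw [tiK_card F, hidx, hFh] at hexc
    omega
  · right
    rw [hidx, ← hq] at hidx2
    exact ⟨IsPGroup.of_card (by rw [← tiK_card F]; exact hm), hna, by
      rw [hcomm_idx]
      exact hidx2⟩

/-- The Frobenius kernel of a point stabilizer lies in every nontrivial normal subgroup. -/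
theorem zass_kernel_le_normal [Finite G] [Fintype Ω] (hZ : IsZassenhausGroup G Ω) (a : Ω)
    (H : Subgroup G) (hHa : H ≤ stabilizer G a) (hHcard : Nat.card H + 1 = Fintype.card Ω)
    (hHfix : ∀ u ∈ H, u ≠ 1 → ∀ c : Ω, u • c = c → c = a)
    (N : Subgroup G) [N.Normal] (hN : N ≠ ⊥) : H ≤ N := by
  classical
  have hZN : IsZassenhausGroup N Ω := Cfsg.Agent.S0339.result hZ N hN
  have hn3 := zass_three_le_card hZ
  obtain ⟨b, hab⟩ : ∃ b : Ω, a ≠ b := by
    have h1 : 1 < Fintype.card Ω := by omega
    obtain ⟨b, hb⟩ := Fintype.exists_ne_of_one_lt_card h1 a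
    exact ⟨b, hb.symm⟩
  obtain ⟨F, hFle, hFcard, hFfix⟩ := zass_exists_kernel hZN hab
  have hmap : F.map N.subtype ≤ H := by
    rintro _ ⟨u, hu, rfl⟩
    by_cases hu1 : u = 1
    · rw [hu1, map_one]
      exact H.one_mem
    · apply zass_mem_kernel hZ a H hHa hHcard hHfix
      · exact hFle hu
      · intro c hc
        exact hFfix u hu hu1 c hc
  have hcard : Nat.card (F.map N.subtype) = Nat.card F :=
    Subgroup.card_map_of_injective (Subgroup.subtype_injective N)
  have heq : F.map N.subtype = H := Subgroup.eq_of_le_of_card_ge hmap (by omega)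
  rw [← heq]
  exact Subgroup.map_subtype_le F

/-- **Feit's theorem** on Zassenhaus groups with two-point stabilizers of odd order `e`: either
`h - 1 ≤ 2 e`, or the Frobenius kernel is a non-abelian `2`-group with small commutator
quotient. -/
theorem zass_feit_all [Fintype Ω] (n : ℕ) :
    ∀ {G : Type u} [Group G] [Finite G] [MulAction G Ω] (hZ : IsZassenhausGroup G Ω),
    Nat.card G = n → ∀ {a b : Ω} (hab : a ≠ b) (h e : ℕ) (hh : Fintype.card Ω = h + 1)
    (he : Nat.card (stabilizer G a ⊓ stabilizer G b : Subgroup G) = e) (hodd : Odd e)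
    (H : Subgroup G) (hHa : H ≤ stabilizer G a) (hHcard : Nat.card H + 1 = Fintype.card Ω)
    (hHfix : ∀ u ∈ H, u ≠ 1 → ∀ c : Ω, u • c = c → c = a),
    h - 1 ≤ 2 * e ∨ (IsPGroup 2 H ∧ (∃ u v : H, u * v ≠ v * u) ∧
      (commutator H).index ≤ 4 * e ^ 2 + 1) := by
  induction n using Nat.strong_induction_on with
  | _ n ih =>
    intro G _ _ _ hZ hn a b hab h e hh he hodd H hHa hHcard hHfix
    by_cases hs : IsSimpleGroup G
    · exact zass_feit_simple hZ hab h e hh he hodd H hHa hHcard hHfix
    · haveI hnt : Nontrivial G := by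
        obtain ⟨g, hg, -⟩ := hZ.2.2.2.1
        exact ⟨⟨g, 1, hg⟩⟩
      obtain ⟨N, hNn, hN1, hN2⟩ : ∃ N : Subgroup G, N.Normal ∧ N ≠ ⊥ ∧ N ≠ ⊤ := by
        by_contra hcon
        push Not at hcon
        exact hs ⟨fun N hN => by
          by_cases h1 : N = ⊥
          · exact Or.inl h1
          · exact Or.inr (hcon N hN h1)⟩
      haveI := hNn
      have hZN : IsZassenhausGroup N Ω := Cfsg.Agent.S0339.result hZ N hN1
      have hHN : H ≤ N := zass_kernel_le_normal hZ a H hHa hHcard hHfix N hN1
      have hcardN : Nat.card N < n := by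
        rw [← hn]
        exact lt_of_le_of_ne (Subgroup.card_le_card_group N)
          (fun hc => hN2 ((Subgroup.card_eq_iff_eq_top N).mp hc))
      obtain ⟨e', he'⟩ : ∃ e' : ℕ,
          Nat.card (stabilizer N a ⊓ stabilizer N b : Subgroup N) = e' := ⟨_, rfl⟩
      have hdvd : e' ∣ e := by
        rw [← he', ← he, ← Subgroup.card_map_of_injective (Subgroup.subtype_injective N)]
        apply Subgroup.card_dvd_of_le
        rintro _ ⟨u, hu, rfl⟩
        exact ⟨hu.1, hu.2⟩
      have hodd' : Odd e' := Odd.of_dvd_nat hodd hdvd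
      have he0 : 0 < e := by
        obtain ⟨m, hm⟩ := hodd
        omega
      have hle : e' ≤ e := Nat.le_of_dvd he0 hdvd
      have key := ih (Nat.card N) hcardN hZN rfl hab h e' hh he' hodd' (H.subgroupOf N)
        (fun u hu => hHa (Subgroup.mem_subgroupOf.mp hu))
        (by
          rw [Nat.card_congr (Subgroup.subgroupOfEquivOfLe hHN).toEquiv]
          exact hHcard)
        (fun u hu hu1 c hc => hHfix (u : G) (Subgroup.mem_subgroupOf.mp hu)
          (fun h1 => hu1 (Subtype.ext h1)) c hc)
      rcases key with h1 | ⟨h1, ⟨u, v, huv⟩, h3⟩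
      · left
        omega
      · right
        refine ⟨h1.of_equiv (Subgroup.subgroupOfEquivOfLe hHN),
          ⟨Subgroup.subgroupOfEquivOfLe hHN u, Subgroup.subgroupOfEquivOfLe hHN v, fun hc => ?_⟩,
          ?_⟩
        · apply huv
          apply (Subgroup.subgroupOfEquivOfLe hHN).injective
          rw [map_mul, map_mul]
          exact hc
        · have hidx : (commutator H).index = (commutator (H.subgroupOf N)).index :=
            (Nat.card_congr
              (Subgroup.subgroupOfEquivOfLe hHN).abelianizationCongr.toEquiv).symm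
          rw [hidx]
          have : 4 * e' ^ 2 + 1 ≤ 4 * e ^ 2 + 1 := by
            have := Nat.pow_le_pow_left hle 2
            omega
          omega

end Cfsg.Agent.H19
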